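import Mathlib

set_option autoImplicit false

/-!
# Counting bounded multiplicity functions, possibly invariant under an involution
-/

namespace Cfsg.Agent.H67

variable {α : Type*} [Fintype α]

/-- Functions with total exactly `k`. -/
theorem card_fun_sum_eq (k : ℕ) :
    Nat.card {a : α → ℕ // ∑ i, a i = k} = (Fintype.card α + k - 1).choose k := by
  classical
  rw [← Nat.card_congr (Sym.equivNatSumOfFintype α k), Nat.card_eq_fintype_card,
    Sym.card_sym_eq_choose]

/-- Functions with total at most `k`. -/
theorem card_fun_sum_le (k : ℕ) :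
    Nat.card {a : α → ℕ // ∑ i, a i ≤ k} = (k + Fintype.card α).choose (Fintype.card α) := by
  classical
  let e : {a : α → ℕ // ∑ i, a i ≤ k} ≃ {a : Option α → ℕ // ∑ i, a i = k} :=
    { toFun := fun a => ⟨fun o => o.elim (k - ∑ i, a.1 i) a.1, by
        rw [Fintype.sum_option]
        have := a.2
        simp only [Option.elim]
        omega⟩
      invFun := fun a => ⟨fun i => a.1 (some i), by
        have := a.2
        rw [Fintype.sum_option] at this
        simp only []
        omega⟩
      left_inv := fun a => rfl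
      right_inv := fun a => by
        apply Subtype.ext
        funext o
        have := a.2
        rw [Fintype.sum_option] at this
        cases o with
        | none => simp only [Option.elim]; omega
        | some i => rfl }
  rw [Nat.card_congr e, card_fun_sum_eq, Fintype.card_option,
    show Fintype.card α + 1 + k - 1 = k + Fintype.card α by omega, Nat.choose_symm_add]

/-- Removing the zero function from a finite family containing it. -/
theorem card_subtype_ne_zero (P : (α → ℕ) → Prop) (h0 : P 0) [Finite {a // P a}] :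
    Nat.card {a // P a ∧ a ≠ 0} = Nat.card {a // P a} - 1 := by
  classical
  haveI : Fintype {a // P a} := Fintype.ofFinite _
  have e : {a // P a ∧ a ≠ 0} ≃ {a : {a // P a} // a ≠ ⟨0, h0⟩} :=
    { toFun := fun a => ⟨⟨a.1, a.2.1⟩, fun h => a.2.2 (congrArg Subtype.val h)⟩
      invFun := fun a => ⟨a.1.1, a.1.2, fun h => a.2 (Subtype.ext h)⟩
      left_inv := fun _ => rfl
      right_inv := fun _ => rfl }
  rw [Nat.card_congr e, Nat.card_eq_fintype_card, Nat.card_eq_fintype_card, Fintype.card_subtype_compl,
    Fintype.card_subtype_eq]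

theorem finite_sum_le (d k : ℕ) (hd : 0 < d) (P : (α → ℕ) → Prop) :
    Finite {a : α → ℕ // d * ∑ i, a i ≤ k ∧ P a} := by
  classical
  refine Finite.of_injective (fun a => fun i => (⟨a.1 i, ?_⟩ : Fin (k + 1))) fun a b h =>
    Subtype.ext (funext fun i => congrArg Fin.val (congrFun h i))
  have h1 : a.1 i ≤ ∑ j, a.1 j := Finset.single_le_sum (fun j _ => Nat.zero_le _) (Finset.mem_univ i)
  have h2 : ∑ j, a.1 j ≤ d * ∑ j, a.1 j := Nat.le_mul_of_pos_left _ hd
  have := a.2.1
  omega

/-- A representative set for a fixed-point-free involution, of half the size. -/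
theorem exists_reps (π : α → α) (hππ : ∀ x, π (π x) = x) (hπ : ∀ x, π x ≠ x) :
    ∃ R : α → Prop, (∀ x, R (π x) ↔ ¬ R x) ∧ 2 * Nat.card {x // R x} = Fintype.card α := by
  classical
  let emb := Fintype.equivFin α
  have hR : ∀ x, emb (π x) < emb (π (π x)) ↔ ¬ emb x < emb (π x) := by
    intro x
    rw [hππ, not_lt]
    exact ⟨le_of_lt, fun h => lt_of_le_of_ne h fun e => hπ x (emb.injective e)⟩
  refine ⟨fun x => emb x < emb (π x), hR, ?_⟩
  have e : {x // ¬ emb x < emb (π x)} ≃ {x // emb x < emb (π x)} :=
    Equiv.subtypeEquiv ⟨π, π, hππ, hππ⟩ fun x => (hR x).symm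
  have h := Fintype.card_subtype_compl (fun x => emb x < emb (π x))
  have h2 := Fintype.card_congr e
  have h3 := Fintype.card_subtype_le (fun x => emb x < emb (π x))
  simp only [] at h2 h3 ⊢
  rw [Nat.card_eq_fintype_card]
  omega

/-- Invariant functions are functions on the representatives. -/
theorem card_invariant (π : α → α) (hππ : ∀ x, π (π x) = x) (R : α → Prop) [DecidablePred R]
    (hR : ∀ x, R (π x) ↔ ¬ R x) (P : ℕ → Prop) :
    Nat.card {a : α → ℕ // (∀ x, a (π x) = a x) ∧ P (∑ x, a x)} =
      Nat.card {b : {x // R x} → ℕ // P (2 * ∑ x, b x)} := by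
  classical
  have e : {x // ¬ R x} ≃ {x // R x} := Equiv.subtypeEquiv ⟨π, π, hππ, hππ⟩ fun x => (hR x).symm
  let ext : ({x // R x} → ℕ) → α → ℕ := fun b x =>
    if h : R x then b ⟨x, h⟩ else b ⟨π x, (hR x).2 h⟩
  have hsum : ∀ a : α → ℕ, (∀ x, a (π x) = a x) → ∑ x, a x = 2 * ∑ x : {x // R x}, a x := by
    intro a ha
    rw [← Fintype.sum_subtype_add_sum_subtype R a, two_mul]
    congr 1
    exact (Fintype.sum_equiv (Equiv.subtypeEquiv ⟨π, π, hππ, hππ⟩ fun x => (hR x).symm)
      (fun x : {x // ¬ R x} => a x) (fun x : {x // R x} => a x) fun x => (ha x).symm)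
  have hext : ∀ b x, ext b (π x) = ext b x := by
    intro b x
    by_cases h : R x
    · have h' : ¬ R (π x) := fun h2 => (hR x).1 h2 h
      simp only [ext, dif_pos h, dif_neg h']
      exact congrArg b (Subtype.ext (hππ x))
    · simp only [ext, dif_neg h, dif_pos ((hR x).2 h)]
  have hres : ∀ b (x : {x // R x}), ext b x = b x := fun b x => dif_pos x.2
  exact Nat.card_congr
    { toFun := fun a => ⟨fun x => a.1 x, by rw [← hsum a.1 a.2.1]; exact a.2.2⟩
      invFun := fun b => ⟨ext b.1, hext b.1, by
        rw [hsum _ (hext b.1)]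
        simp only [hres]
        exact b.2⟩
      left_inv := fun a => Subtype.ext (funext fun x => by
        by_cases h : R x
        · simp only [ext, dif_pos h]
        · simp only [ext, dif_neg h]; exact a.2.1 x)
      right_inv := fun b => Subtype.ext (funext fun x => hres b.1 x) }

/-- Nonzero functions of bounded weight invariant under an involution which is either the
identity or without fixed points. -/
theorem card_invariant_le (π : α → α) (hππ : ∀ x, π (π x) = x) (d n : ℕ) (hd : 0 < d)
    (fixed : Prop) [Decidable fixed] (hfix : ∀ x, π x = x ↔ fixed) :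
    Nat.card {a : α → ℕ // d * ∑ i, a i ≤ n ∧ (∀ x, a (π x) = a x) ∧ a ≠ 0} =
      if fixed then (n / d + Fintype.card α).choose (Fintype.card α) - 1
      else (n / (2 * d) + Fintype.card α / 2).choose (Fintype.card α / 2) - 1 := by
  classical
  haveI := finite_sum_le d n hd (fun a : α → ℕ => ∀ x, a (π x) = a x)
  have e : {a : α → ℕ // d * ∑ i, a i ≤ n ∧ (∀ x, a (π x) = a x) ∧ a ≠ 0} ≃
      {a : α → ℕ // (d * ∑ i, a i ≤ n ∧ ∀ x, a (π x) = a x) ∧ a ≠ 0} :=
    Equiv.subtypeEquivRight fun a => and_assoc.symm
  rw [Nat.card_congr e,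
    card_subtype_ne_zero (fun a : α → ℕ => d * ∑ i, a i ≤ n ∧ ∀ x, a (π x) = a x)
      ⟨by simp, fun _ => rfl⟩]
  split_ifs with hf
  · congr 1
    have hid : ∀ x, π x = x := fun x => (hfix x).2 hf
    rw [← card_fun_sum_le (α := α) (n / d)]
    refine Nat.card_congr (Equiv.subtypeEquivRight fun a => ?_)
    simp only [hid, implies_true, and_true, Nat.le_div_iff_mul_le hd, mul_comm d]
  · congr 1
    obtain ⟨R, hR, hcard⟩ := exists_reps π hππ fun x h => hf ((hfix x).1 h)
    have e' : {a : α → ℕ // d * ∑ i, a i ≤ n ∧ ∀ x, a (π x) = a x} ≃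
        {a : α → ℕ // (∀ x, a (π x) = a x) ∧ d * ∑ i, a i ≤ n} :=
      Equiv.subtypeEquivRight fun a => and_comm
    rw [Nat.card_congr e', card_invariant π hππ R hR (fun s => d * s ≤ n)]
    have hc : Fintype.card {x // R x} = Fintype.card α / 2 := by
      rw [← Nat.card_eq_fintype_card]; omega
    rw [← hc, ← card_fun_sum_le (α := {x // R x}) (n / (2 * d))]
    refine Nat.card_congr (Equiv.subtypeEquivRight fun b => ?_)
    rw [Nat.le_div_iff_mul_le (by omega)]
    constructor <;> intro h <;> linarith

/-- Invariant functions with a prescribed total, fixed-point-free involution. -/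
theorem card_invariant_eq (π : α → α) (hππ : ∀ x, π (π x) = x) (hπ : ∀ x, π x ≠ x) (d k : ℕ)
    (hd : 0 < d) :
    Nat.card {a : α → ℕ // (∀ x, a (π x) = a x) ∧ d * ∑ i, a i = 2 * k} =
      if d ∣ k then (Fintype.card α / 2 + k / d - 1).choose (k / d) else 0 := by
  classical
  obtain ⟨R, hR, hcard⟩ := exists_reps π hππ hπ
  rw [card_invariant π hππ R hR (fun s => d * s = 2 * k)]
  have hc : Fintype.card {x // R x} = Fintype.card α / 2 := by
    rw [← Nat.card_eq_fintype_card]; omega
  split_ifs with hdk
  · obtain ⟨c, rfl⟩ := hdk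
    rw [← hc, Nat.mul_div_cancel_left _ hd, ← card_fun_sum_eq]
    exact Nat.card_congr (Equiv.subtypeEquivRight fun b => by
      constructor
      · intro h
        exact Nat.eq_of_mul_eq_mul_left (show 0 < 2 * d by omega) (by linarith)
      · intro h; rw [h]; ring)
  · rw [Nat.card_eq_zero]
    refine Or.inl ⟨fun b => hdk ⟨∑ x, b.1 x, ?_⟩⟩
    have := b.2
    linarith

end Cfsg.Agent.H67
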