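import Mathlib
import Cfsg.Agent.H67.DualPoly

set_option autoImplicit false

/-!
# The irreducible factors of a prime cyclotomic polynomial over a finite field and their duals
-/

namespace Cfsg.Agent.H67

open Polynomial UniqueFactorizationMonoid

variable (r : ℕ) (K : Type*) [Field K]

open scoped Classical in
/-- The monic irreducible factors of the `r`-th cyclotomic polynomial. -/
noncomputable def cycSet : Finset K[X] := (normalizedFactors (cyclotomic r K)).toFinset

/-- A monic irreducible factor of the `r`-th cyclotomic polynomial. -/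
abbrev CycFac : Type _ := {P : K[X] // P ∈ cycSet r K}

variable {r K}

theorem CycFac.irreducible (P : CycFac r K) : Irreducible P.1 := by
  classical
  exact irreducible_of_normalized_factor _ (Multiset.mem_toFinset.1 P.2)

theorem CycFac.monic (P : CycFac r K) : P.1.Monic := by
  classical
  rw [← normalize_normalized_factor _ (Multiset.mem_toFinset.1 P.2)]
  exact monic_normalize P.irreducible.ne_zero

theorem CycFac.dvd (P : CycFac r K) : P.1 ∣ cyclotomic r K := by
  classical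
  exact dvd_of_mem_normalizedFactors (Multiset.mem_toFinset.1 P.2)

theorem mem_cycSet {P : K[X]} (hm : P.Monic) (hi : Irreducible P) (hd : P ∣ cyclotomic r K) :
    P ∈ cycSet r K := by
  classical
  obtain ⟨Q, hQ, hQP⟩ := exists_mem_normalizedFactors_of_dvd (cyclotomic_ne_zero r K) hi hd
  have hQm : Q.Monic := by
    rw [← normalize_normalized_factor _ hQ]
    exact monic_normalize (irreducible_of_normalized_factor _ hQ).ne_zero
  rw [cycSet, Multiset.mem_toFinset, eq_of_monic_of_associated hm hQm hQP]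
  exact hQ

variable [Fintype K]

theorem not_dvd_card (hr : (r : K) ≠ 0) (hrp : r.Prime) : ¬ r ∣ Fintype.card K := by
  obtain ⟨p, hp, n, hpp, hq⟩ : ∃ p, CharP K p ∧ ∃ n : ℕ+, p.Prime ∧ Fintype.card K = p ^ (n : ℕ) :=
    ⟨ringChar K, inferInstance, FiniteField.card K (ringChar K)⟩
  intro h
  rw [hq] at h
  have := (Nat.prime_dvd_prime_iff_eq hrp hpp).1 (hrp.dvd_of_dvd_pow h)
  exact hr (this ▸ CharP.cast_eq_zero K p)

theorem card_zmod_ne_zero (hr : (r : K) ≠ 0) (hrp : r.Prime) :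
    (Fintype.card K : ZMod r) ≠ 0 := by
  rw [Ne, ZMod.natCast_eq_zero_iff]
  exact not_dvd_card hr hrp

theorem orderOf_card_pos (hr : (r : K) ≠ 0) (hrp : r.Prime) :
    0 < orderOf (Fintype.card K : ZMod r) := by
  haveI := Fact.mk hrp
  rw [orderOf_pos_iff, isOfFinOrder_iff_pow_eq_one]
  exact ⟨r - 1, by have := hrp.two_le; omega,
    ZMod.pow_card_sub_one_eq_one (card_zmod_ne_zero hr hrp)⟩

theorem CycFac.natDegree_eq (hr : (r : K) ≠ 0) (hrp : r.Prime) (P : CycFac r K) :
    P.1.natDegree = orderOf (Fintype.card K : ZMod r) := by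
  obtain ⟨n, hpp, hq⟩ := FiniteField.card K (ringChar K)
  haveI := Fact.mk hpp
  have hco : (ringChar K).Coprime r := (Nat.coprime_primes hpp hrp).2 fun h =>
    hr (by rw [← h]; exact CharP.cast_eq_zero K _)
  rw [Polynomial.natDegree_of_dvd_cyclotomic_of_irreducible hq hco P.dvd P.irreducible,
    ← orderOf_units, ZMod.coe_unitOfCoprime, hq]

theorem card_cycFac (hr : (r : K) ≠ 0) (hrp : r.Prime) :
    Fintype.card (CycFac r K) * orderOf (Fintype.card K : ZMod r) = r - 1 := by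
  classical
  obtain ⟨n, hpp, hq⟩ := FiniteField.card K (ringChar K)
  haveI := Fact.mk hpp
  haveI := Fact.mk hrp
  have hco : (ringChar K).Coprime r := (Nat.coprime_primes hpp hrp).2 fun h =>
    hr (by rw [← h]; exact CharP.cast_eq_zero K _)
  have h := Polynomial.normalizedFactors_cyclotomic_card (n := r) hq hco
  rw [← orderOf_units, ZMod.coe_unitOfCoprime, ← hq] at h
  rw [Fintype.card_coe]
  have hc : (cycSet r K).card = r.totient / orderOf (Fintype.card K : ZMod r) := by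
    rw [← h]; unfold cycSet; convert rfl
  rw [hc, Nat.totient_prime hrp, Nat.div_mul_cancel]
  exact ZMod.orderOf_dvd_card_sub_one (card_zmod_ne_zero hr hrp)

/-- A root of a factor has order `r` in any extension. -/
theorem CycFac.orderOf_root (hr : (r : K) ≠ 0) (P : CycFac r K) {L : Type*} [Field L]
    [Algebra K L] {α : L} (hα : aeval α P.1 = 0) : orderOf α = r := by
  haveI : NeZero ((r : ℕ) : L) :=
    ⟨fun h => hr ((algebraMap K L).injective (by rw [map_natCast, h, map_zero]))⟩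
  have h : (cyclotomic r L).IsRoot α := by
    obtain ⟨A, hA⟩ := P.dvd
    rw [IsRoot.def, ← map_cyclotomic r (algebraMap K L), eval_map_algebraMap, hA, map_mul, hα,
      zero_mul]
  exact (isRoot_cyclotomic_iff.1 h).eq_orderOf.symm

theorem CycFac.coeff_zero_ne (hr : (r : K) ≠ 0) (hrp : r.Prime) (P : CycFac r K) :
    P.1.coeff 0 ≠ 0 := by
  haveI := Fact.mk P.irreducible
  intro h
  have hX : X ∣ P.1 := X_dvd_iff.2 h
  have h0 : aeval (0 : K) P.1 = 0 := by
    rw [aeval_def, eval₂_at_zero, h, map_zero]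
  have h1 := P.orderOf_root hr h0
  rw [orderOf_eq_zero (fun hfin => by
    obtain ⟨k, hk, hk'⟩ := isOfFinOrder_iff_pow_eq_one.1 hfin
    rw [zero_pow (by omega)] at hk'
    exact zero_ne_one hk')] at h1
  exact hrp.ne_zero h1.symm

theorem CycFac.ne_X_sub_one (hr : (r : K) ≠ 0) (hrp : r.Prime) (P : CycFac r K) :
    P.1 ≠ X - C 1 := by
  intro h
  have h1 := P.orderOf_root hr (L := K) (α := 1) (by rw [h]; simp)
  rw [orderOf_one] at h1
  exact hrp.ne_one h1.symm

/-- Roots of the dual are the twisted inverses of the roots. -/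
theorem aeval_dualPoly_eq_zero_iff {σ : K →+* K} {L : Type*} [Field L] [Algebra K L] {p k : ℕ}
    [ExpChar L p] (hσ : ∀ x, σ x = x ^ p ^ k) (hσσ : ∀ x, σ (σ x) = x) {P : K[X]}
    (h0 : P.coeff 0 ≠ 0) {β : L} (hβ : β ≠ 0) :
    aeval β (dualPoly σ P) = 0 ↔ aeval (β⁻¹ ^ p ^ k) P = 0 := by
  have h := eval₂_dualPoly (σ := σ) (P := P) (algebraMap K L) β β⁻¹ (mul_inv_cancel₀ hβ)
  let E : L →+* L := iterateFrobenius L p k
  have hE : ∀ x, E x = x ^ p ^ k := iterateFrobenius_def p k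
  have hcomp : E.comp ((algebraMap K L).comp σ) = algebraMap K L := by
    ext c
    simp only [RingHom.comp_apply, hE, ← map_pow, ← hσ, hσσ]
  have h2 : E (eval₂ ((algebraMap K L).comp σ) β⁻¹ P) = aeval (β⁻¹ ^ p ^ k) P := by
    rw [Polynomial.hom_eval₂, hcomp, hE]; rfl
  have hs : algebraMap K L (σ (P.coeff 0))⁻¹ ≠ 0 :=
    (_root_.map_ne_zero _).2 (inv_ne_zero ((_root_.map_ne_zero σ).2 h0))
  rw [← h2, _root_.map_eq_zero E, aeval_def]
  constructor
  · intro h1
    rw [h1, zero_mul] at h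
    exact (mul_eq_zero.1 h.symm).resolve_left hs
  · intro h1
    rw [h1, mul_zero] at h
    exact (mul_eq_zero.1 h).resolve_right (pow_ne_zero _ (inv_ne_zero hβ))

variable {σ : K →+* K} {p k : ℕ} [Fact p.Prime] [CharP K p]

theorem dual_mem_cycSet (hr : (r : K) ≠ 0) (hrp : r.Prime) (hσ : ∀ x, σ x = x ^ p ^ k)
    (hσσ : ∀ x, σ (σ x) = x) (P : CycFac r K) : dualPoly σ P.1 ∈ cycSet r K := by
  have h0 := P.coeff_zero_ne hr hrp
  have hi := dualPoly_irreducible hσσ P.monic h0 P.irreducible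
  refine mem_cycSet (dualPoly_monic h0) hi ?_
  haveI := Fact.mk hi
  haveI : CharP (AdjoinRoot (dualPoly σ P.1)) p :=
    charP_of_injective_algebraMap (algebraMap K _).injective p
  set β := AdjoinRoot.root (dualPoly σ P.1) with hβdef
  have hβ0 : aeval β (dualPoly σ P.1) = 0 := by
    rw [AdjoinRoot.aeval_eq, AdjoinRoot.mk_self]
  have hβ : β ≠ 0 := by
    intro h
    rw [h, aeval_def, eval₂_at_zero, map_eq_zero] at hβ0
    exact dualPoly_coeff_zero (σ := σ) P.monic ▸ (inv_ne_zero ((map_ne_zero σ).2 h0)) <| hβ0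
  have hord := P.orderOf_root hr ((aeval_dualPoly_eq_zero_iff hσ hσσ h0 hβ).1 hβ0)
  have hr0 : (β⁻¹ ^ p ^ k) ^ r = 1 := orderOf_dvd_iff_pow_eq_one.1 hord.dvd
  have hβr : β ^ r = 1 := by
    rw [← pow_mul, mul_comm, pow_mul, inv_pow] at hr0
    have h2 := iterateFrobenius_inj (AdjoinRoot (dualPoly σ P.1)) p k
      (a₁ := (β ^ r)⁻¹) (a₂ := 1) (by simpa [iterateFrobenius_def] using hr0)
    exact inv_eq_one.1 h2
  have hβ1 : β ≠ 1 := by
    intro h
    rw [h, inv_one, one_pow, orderOf_one] at hord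
    exact hrp.ne_one hord.symm
  haveI := Fact.mk hrp
  haveI : NeZero ((r : ℕ) : AdjoinRoot (dualPoly σ P.1)) :=
    ⟨fun h => hr ((algebraMap K (AdjoinRoot (dualPoly σ P.1))).injective (by rw [map_natCast, h, map_zero]))⟩
  have hprim : IsPrimitiveRoot β r :=
    IsPrimitiveRoot.iff_orderOf.2 (orderOf_eq_prime hβr hβ1)
  rw [← AdjoinRoot.mk_eq_zero, ← AdjoinRoot.aeval_eq]
  have h := (isRoot_cyclotomic_iff (n := r)).2 hprim
  rwa [IsRoot.def, ← map_cyclotomic r (algebraMap K _), eval_map_algebraMap] at h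

/-- A factor is self-dual iff `-p^k` is a power of `|K|` modulo `r`. -/
theorem dual_eq_self_iff (hr : (r : K) ≠ 0) (hrp : r.Prime) (hσ : ∀ x, σ x = x ^ p ^ k)
    (hσσ : ∀ x, σ (σ x) = x) (P : CycFac r K) :
    dualPoly σ P.1 = P.1 ↔
      ∃ j : ℕ, (Fintype.card K : ZMod r) ^ j = -((p ^ k : ℕ) : ZMod r) := by
  have h0 := P.coeff_zero_ne hr hrp
  haveI := Fact.mk P.irreducible
  haveI : Module.Finite K (AdjoinRoot P.1) := (AdjoinRoot.powerBasis P.irreducible.ne_zero).finite
  haveI : Finite (AdjoinRoot P.1) := Module.finite_of_finite K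
  haveI : CharP (AdjoinRoot P.1) p :=
    charP_of_injective_algebraMap (algebraMap K _).injective p
  set α := AdjoinRoot.root P.1 with hαdef
  have hα0 : aeval α P.1 = 0 := by rw [AdjoinRoot.aeval_eq, AdjoinRoot.mk_self]
  have hord := P.orderOf_root hr hα0
  have hαr : α ^ r = 1 := orderOf_dvd_iff_pow_eq_one.1 hord.dvd
  have hα : α ≠ 0 := fun h => by rw [h, zero_pow hrp.ne_zero] at hαr; exact zero_ne_one hαr
  have hself : dualPoly σ P.1 = P.1 ↔ aeval (α⁻¹ ^ p ^ k) P.1 = 0 := by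
    rw [← aeval_dualPoly_eq_zero_iff hσ hσσ h0 hα]
    refine ⟨fun h => by rw [h, hα0], fun h => ?_⟩
    rw [AdjoinRoot.aeval_eq, AdjoinRoot.mk_eq_zero] at h
    exact (eq_of_monic_of_associated P.monic (dualPoly_monic h0) (P.irreducible.associated_of_dvd
      (dualPoly_irreducible hσσ P.monic h0 P.irreducible) h)).symm
  have hcong : ∀ j, α ^ Fintype.card K ^ j = α⁻¹ ^ p ^ k ↔
      (Fintype.card K : ZMod r) ^ j = -((p ^ k : ℕ) : ZMod r) := by
    intro j
    rw [inv_pow, ← mul_eq_one_iff_eq_inv₀ (pow_ne_zero _ hα), ← pow_add, ← orderOf_dvd_iff_pow_eq_one, hord,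
      ← ZMod.natCast_eq_zero_iff, Nat.cast_add, Nat.cast_pow, add_eq_zero_iff_eq_neg]
  let φ := FiniteField.frobeniusAlgEquivOfAlgebraic K (AdjoinRoot P.1)
  have hφ : ∀ j, (φ ^ j) α = α ^ Fintype.card K ^ j := fun j => by
    rw [AlgEquiv.coe_pow]
    exact congrFun (FiniteField.coe_frobeniusAlgEquivOfAlgebraic_iterate K (AdjoinRoot P.1) j) α
  rw [hself]
  constructor
  · intro h
    let ψ : AdjoinRoot P.1 →ₐ[K] AdjoinRoot P.1 :=
      AdjoinRoot.liftAlgHom P.1 (Algebra.ofId _ _) (α⁻¹ ^ p ^ k) h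
    have hψb : Function.Bijective ψ := Algebra.IsAlgebraic.algHom_bijective ψ
    obtain ⟨⟨j, _⟩, hj⟩ :=
      (FiniteField.bijective_frobeniusAlgEquivOfAlgebraic_pow K (AdjoinRoot P.1)).2
        (AlgEquiv.ofBijective ψ hψb)
    refine ⟨j, (hcong j).1 ?_⟩
    rw [← hφ]
    have := congrArg (fun e : AdjoinRoot P.1 ≃ₐ[K] AdjoinRoot P.1 => e α) hj
    simp only [] at this
    rw [this]
    show ψ α = _
    simp [ψ, hαdef]
  · rintro ⟨j, hj⟩
    rw [← (hcong j).2 hj, ← hφ]
    show aeval ((φ ^ j).toAlgHom α) P.1 = 0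
    rw [aeval_algHom_apply, hα0, map_zero]

/-- The duality involution on the factors. -/
noncomputable def cycDual (hr : (r : K) ≠ 0) (hrp : r.Prime) (hσ : ∀ x, σ x = x ^ p ^ k)
    (hσσ : ∀ x, σ (σ x) = x) (P : CycFac r K) : CycFac r K :=
  ⟨dualPoly σ P.1, dual_mem_cycSet hr hrp hσ hσσ P⟩

theorem cycDual_cycDual (hr : (r : K) ≠ 0) (hrp : r.Prime) (hσ : ∀ x, σ x = x ^ p ^ k)
    (hσσ : ∀ x, σ (σ x) = x) (P : CycFac r K) :
    cycDual hr hrp hσ hσσ (cycDual hr hrp hσ hσσ P) = P :=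
  Subtype.ext (dualPoly_dualPoly hσσ P.monic (P.coeff_zero_ne hr hrp))

end Cfsg.Agent.H67
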