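import Mathlib
import Cfsg.Agent.H66.ClassCount
import Cfsg.Agent.H67.CycFactor
import Cfsg.Agent.H67.DualRank

set_option autoImplicit false

/-!
# Classes of elements of prime order `r` prime to the characteristic, by multiplicity functions
-/

namespace Cfsg.Agent.H67

open Polynomial UniqueFactorizationMonoid

variable {r : ℕ} {K : Type*} [Field K] [Fintype K]

/-- The polynomial of degree `N` with multiplicities `a`, completed by `X - 1`. -/
noncomputable def polyOf (N : ℕ) (a : CycFac r K → ℕ) : K[X] :=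
  (X - C 1) ^ (N - orderOf (Fintype.card K : ZMod r) * ∑ P, a P) * ∏ P, P.1 ^ a P

open scoped Classical in
/-- The multiplicities of the factors in a polynomial. -/
noncomputable def multOf (f : K[X]) : CycFac r K → ℕ := fun P => (normalizedFactors f).count P.1

theorem polyOf_monic (N : ℕ) (a : CycFac r K → ℕ) : (polyOf N a).Monic :=
  ((monic_X_sub_C 1).pow _).mul (monic_prod_of_monic _ _ fun P _ => P.monic.pow _)

theorem polyOf_natDegree (hr : (r : K) ≠ 0) (hrp : r.Prime) {N : ℕ} {a : CycFac r K → ℕ}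
    (ha : orderOf (Fintype.card K : ZMod r) * ∑ P, a P ≤ N) : (polyOf N a).natDegree = N := by
  rw [polyOf, ((monic_X_sub_C 1).pow _).natDegree_mul
    (monic_prod_of_monic _ _ fun P _ => P.monic.pow _), natDegree_pow, natDegree_X_sub_C,
    natDegree_prod_of_monic _ _ fun P _ => P.monic.pow _]
  simp only [natDegree_pow, CycFac.natDegree_eq hr hrp, ← Finset.sum_mul]
  rw [mul_one, mul_comm (∑ P, a P)]
  omega

theorem polyOf_coeff_zero (hr : (r : K) ≠ 0) (hrp : r.Prime) (N : ℕ) (a : CycFac r K → ℕ) :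
    (polyOf N a).coeff 0 ≠ 0 := by
  rw [polyOf, coeff_zero_eq_eval_zero, eval_mul, eval_prod]
  refine mul_ne_zero (by simp) (Finset.prod_ne_zero_iff.2 fun P _ => ?_)
  rw [eval_pow, ← coeff_zero_eq_eval_zero]
  exact pow_ne_zero _ (P.coeff_zero_ne hr hrp)

theorem multOf_polyOf (hr : (r : K) ≠ 0) (hrp : r.Prime) (N : ℕ) (a : CycFac r K → ℕ) :
    multOf (polyOf N a) = a := by
  classical
  funext Q
  have h : ∀ s : Finset (CycFac r K), normalizedFactors (∏ P ∈ s, P.1 ^ a P) =
      ∑ P ∈ s, Multiset.replicate (a P) P.1 := by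
    intro s
    induction s using Finset.induction_on with
    | empty => simp
    | insert P s hP ih =>
      rw [Finset.prod_insert hP, Finset.sum_insert hP,
        normalizedFactors_mul (pow_ne_zero _ P.irreducible.ne_zero)
          (Finset.prod_ne_zero_iff.2 fun Q _ => pow_ne_zero _ Q.irreducible.ne_zero),
        normalizedFactors_pow, normalizedFactors_irreducible P.irreducible,
        P.monic.normalize_eq_self, Multiset.nsmul_singleton, ih]
  rw [multOf, polyOf, normalizedFactors_mul (pow_ne_zero _ (X_sub_C_ne_zero 1))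
      (Finset.prod_ne_zero_iff.2 fun P _ => pow_ne_zero _ P.irreducible.ne_zero),
    normalizedFactors_pow, normalizedFactors_irreducible (irreducible_X_sub_C 1),
    (monic_X_sub_C (1 : K)).normalize_eq_self, Multiset.nsmul_singleton, h, Multiset.count_add,
    Multiset.count_replicate, if_neg (Q.ne_X_sub_one hr hrp).symm, zero_add, Multiset.count_sum']
  rw [Finset.sum_eq_single Q (fun P _ hPQ => by
    rw [Multiset.count_replicate, if_neg fun h => hPQ (Subtype.ext h)]) (by simp),
    Multiset.count_replicate, if_pos rfl]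

variable {n : Type*} [Fintype n] [DecidableEq n]

/-- An irreducible factor of the characteristic polynomial of `A` with `A ^ r = 1` divides
`X ^ r - 1`. -/
theorem dvd_X_pow_sub_one_of_dvd_charpoly {A : Matrix n n K} (hA : A ^ r = 1) {P : K[X]}
    (hP : Irreducible P) (h : P ∣ A.charpoly) : P ∣ X ^ r - 1 := by
  haveI := Fact.mk hP
  set α := AdjoinRoot.root P
  set M := A.map (algebraMap K (AdjoinRoot P))
  have h0 : M.charpoly.eval α = 0 := by
    rw [Matrix.charpoly_map, eval_map_algebraMap, AdjoinRoot.aeval_eq, AdjoinRoot.mk_eq_zero]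
    exact h
  rw [Matrix.eval_charpoly] at h0
  obtain ⟨v, hv0, hv⟩ := Matrix.exists_mulVec_eq_zero_iff.2 h0
  rw [Matrix.sub_mulVec, sub_eq_zero, Matrix.scalar_apply, ← Matrix.smul_one_eq_diagonal,
    Matrix.smul_mulVec, Matrix.one_mulVec] at hv
  have hpow : ∀ j : ℕ, (M ^ j).mulVec v = α ^ j • v := by
    intro j
    induction j with
    | zero => simp
    | succ j ih =>
      rw [pow_succ', ← Matrix.mulVec_mulVec, ih, Matrix.mulVec_smul, ← hv, smul_smul, pow_succ]
  have hMr : M ^ r = 1 := by
    show (A.map (algebraMap K (AdjoinRoot P))) ^ r = 1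
    rw [← Matrix.map_pow, hA, Matrix.map_one _ (map_zero _) (map_one _)]
  have hα : α ^ r = 1 := by
    have h1 := hpow r
    rw [hMr, Matrix.one_mulVec] at h1
    obtain ⟨i, hi⟩ := Function.ne_iff.1 hv0
    have h2 := congrFun h1 i
    rw [Pi.smul_apply, smul_eq_mul] at h2
    exact (mul_eq_right₀ hi).1 h2.symm
  rw [← AdjoinRoot.mk_eq_zero, map_sub, map_pow, AdjoinRoot.mk_X, map_one]
  exact sub_eq_zero.2 hα

theorem eq_or_mem_cycSet (hrp : r.Prime) {P : K[X]} (hm : P.Monic) (hP : Irreducible P)
    (h : P ∣ X ^ r - 1) : P = X - C 1 ∨ P ∈ cycSet r K := by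
  haveI := Fact.mk hrp
  rw [← cyclotomic_prime_mul_X_sub_one] at h
  rcases hP.prime.dvd_mul.1 h with h1 | h1
  · exact Or.inr (mem_cycSet hm hP h1)
  · refine Or.inl (eq_of_monic_of_associated hm (monic_X_sub_C 1) ?_)
    rw [C_1]
    exact hP.associated_of_dvd (by simpa using irreducible_X_sub_C (1 : K)) h1

/-- The characteristic polynomial of an element killed by `X ^ r - 1`. -/
theorem charpoly_eq_polyOf (hr : (r : K) ≠ 0) (hrp : r.Prime) {A : Matrix n n K} (hA : A ^ r = 1) :
    A.charpoly = polyOf (Fintype.card n) (multOf (r := r) A.charpoly) ∧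
      orderOf (Fintype.card K : ZMod r) * ∑ P, multOf (r := r) A.charpoly P ≤ Fintype.card n := by
  classical
  set f := A.charpoly
  have hfm : f.Monic := A.charpoly_monic
  set c := (normalizedFactors f).count (X - C 1) with hc
  have hsub : (normalizedFactors f).toFinset ⊆ insert (X - C 1) (cycSet r K) := by
    intro P hP
    rw [Multiset.mem_toFinset] at hP
    have hm : P.Monic := by
      rw [← normalize_normalized_factor _ hP]
      exact monic_normalize (irreducible_of_normalized_factor _ hP).ne_zero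
    rw [Finset.mem_insert]
    exact eq_or_mem_cycSet hrp hm (irreducible_of_normalized_factor _ hP)
      (dvd_X_pow_sub_one_of_dvd_charpoly hA (irreducible_of_normalized_factor _ hP)
        (dvd_of_mem_normalizedFactors hP))
  have hnot : X - C (1 : K) ∉ cycSet r K := fun h =>
    CycFac.ne_X_sub_one hr hrp ⟨_, h⟩ rfl
  have hprod : f = (X - C 1) ^ c * ∏ P : CycFac r K, P.1 ^ multOf (r := r) f P := by
    conv_lhs => rw [← hfm.normalize_eq_self, ← prod_normalizedFactors_eq hfm.ne_zero,
      Finset.prod_multiset_count, Finset.prod_subset hsub (fun P _ hP => by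
        rw [Multiset.mem_toFinset, ← Multiset.count_eq_zero] at hP
        rw [hP, pow_zero]), Finset.prod_insert hnot]
    congr 1
    exact (Finset.prod_coe_sort (cycSet r K) (fun P => P ^ (normalizedFactors f).count P)).symm
  have hdeg := A.charpoly_natDegree_eq_dim
  rw [show A.charpoly = f from rfl, hprod, ((monic_X_sub_C 1).pow _).natDegree_mul
    (monic_prod_of_monic _ _ fun P _ => P.monic.pow _), natDegree_pow, natDegree_X_sub_C,
    natDegree_prod_of_monic _ _ fun P _ => P.monic.pow _] at hdeg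
  simp only [natDegree_pow, CycFac.natDegree_eq hr hrp, ← Finset.sum_mul, mul_one] at hdeg
  rw [mul_comm (∑ P : CycFac r K, _)] at hdeg
  refine ⟨?_, by omega⟩
  conv_lhs => rw [hprod]
  rw [polyOf]
  congr 2
  omega

variable {p : ℕ} [Fact p.Prime] [CharP K p]

omit [Fintype K] in
theorem cast_ne_zero_of_prime_ne (hrp : r.Prime) (hne : r ≠ p) : (r : K) ≠ 0 := by
  rw [Ne, CharP.cast_eq_zero_iff K p r]
  exact fun h => hne ((Nat.prime_dvd_prime_iff_eq Fact.out hrp).1 h).symm

omit [Fintype K] in
theorem coprime_of_pow_eq_one (hrp : r.Prime) (hne : r ≠ p) {g : Matrix.GeneralLinearGroup n K}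
    (h : g ^ r = 1) : (orderOf g).Coprime p :=
  Nat.Coprime.coprime_dvd_left (orderOf_dvd_of_pow_eq_one h)
    ((Nat.coprime_primes hrp Fact.out).2 hne)

/-- A semisimple element whose irreducible factors divide `X ^ r - 1` is killed by it. -/
theorem pow_eq_one_of_charpoly (hr : (r : K) ≠ 0) (hrp : r.Prime)
    {g : Matrix.GeneralLinearGroup n K} (hg : (orderOf g).Coprime p) {N : ℕ}
    {a : CycFac r K → ℕ} (hc : (g : Matrix n n K).charpoly = polyOf N a) : g ^ r = 1 := by
  classical
  obtain ⟨s, hs, hs0⟩ := H66.exists_squarefree_aeval_toLin' p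
    (show (g : Matrix n n K) ^ orderOf g = 1 by
      rw [← Units.val_pow_eq_pow_val, pow_orderOf_eq_one]; rfl) hg
  set f := (g : Matrix n n K).charpoly
  have hfm : f.Monic := Matrix.charpoly_monic _
  set d := EuclideanDomain.gcd s f
  have hd0 : d ≠ 0 := fun h => hfm.ne_zero (EuclideanDomain.gcd_eq_zero_iff.1 h).2
  have hsq : Squarefree d := hs.squarefree_of_dvd (EuclideanDomain.gcd_dvd_left _ _)
  have hw0 : (X : K[X]) ^ r - 1 ≠ 0 := by
    rw [← C_1]; exact X_pow_sub_C_ne_zero hrp.pos 1
  have hdvd : d ∣ X ^ r - 1 := by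
    rw [dvd_iff_normalizedFactors_le_normalizedFactors hd0 hw0,
      Multiset.le_iff_subset ((squarefree_iff_nodup_normalizedFactors hd0).1 hsq)]
    intro P hP
    have hPi := irreducible_of_normalized_factor _ hP
    have hPf : P ∣ f := (dvd_of_mem_normalizedFactors hP).trans (EuclideanDomain.gcd_dvd_right _ _)
    have hP1 : P ∣ X ^ r - 1 := by
      rw [hc, polyOf] at hPf
      haveI := Fact.mk hrp
      rw [← cyclotomic_prime_mul_X_sub_one]
      rcases hPi.prime.dvd_mul.1 hPf with h | h
      · exact dvd_mul_of_dvd_right (by simpa using hPi.prime.dvd_of_dvd_pow h) _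
      · obtain ⟨Q, -, hQ⟩ := hPi.prime.exists_mem_finset_dvd h
        exact dvd_mul_of_dvd_left ((hPi.prime.dvd_of_dvd_pow hQ).trans Q.dvd) _
    obtain ⟨Q, hQ, hPQ⟩ := exists_mem_normalizedFactors_of_dvd hw0 hPi hP1
    have hQP : P = Q := by
      rw [← normalize_normalized_factor _ hP, ← normalize_normalized_factor _ hQ]
      exact normalize_eq_normalize hPQ.dvd hPQ.symm.dvd
    exact hQP ▸ hQ
  have h0 : aeval (Matrix.toLin' (g : Matrix n n K)) d = 0 := by
    have hf0 : aeval (Matrix.toLin' (g : Matrix n n K)) f = 0 := by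
      rw [H66.aeval_toLin', Matrix.aeval_self_charpoly, map_zero]
    show aeval _ (EuclideanDomain.gcd s f) = 0
    rw [EuclideanDomain.gcd_eq_gcd_ab, map_add, map_mul, map_mul, hs0, hf0, zero_mul, zero_mul,
      add_zero]
  obtain ⟨e, he⟩ := hdvd
  have h1 : aeval (Matrix.toLin' (g : Matrix n n K)) ((X : K[X]) ^ r - 1) = 0 := by
    rw [he, map_mul, h0, zero_mul]
  rw [H66.aeval_toLin', map_eq_zero_iff _ Matrix.toLin'.injective, map_sub, map_pow, aeval_X,
    map_one, sub_eq_zero] at h1
  exact Units.ext (by rw [Units.val_pow_eq_pow_val, h1, Units.val_one])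

theorem mult_eq_zero_iff (hne : r ≠ p) (hrp : r.Prime) {g : Matrix.GeneralLinearGroup n K}
    (hg : g ^ r = 1) : multOf (r := r) (g : Matrix n n K).charpoly = 0 ↔ g = 1 := by
  have hr := cast_ne_zero_of_prime_ne (K := K) hrp hne
  have h1 : (1 : Matrix.GeneralLinearGroup n K) ^ r = 1 := one_pow r
  have hone : multOf (r := r) ((1 : Matrix.GeneralLinearGroup n K) : Matrix n n K).charpoly = 0 := by
    have : polyOf (Fintype.card n) (0 : CycFac r K → ℕ) =
        ((1 : Matrix.GeneralLinearGroup n K) : Matrix n n K).charpoly := by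
      rw [Units.val_one, Matrix.charpoly_one]; simp [polyOf]
    rw [← this, multOf_polyOf hr hrp]
  constructor
  · intro h
    have hc : (g : Matrix n n K).charpoly =
        ((1 : Matrix.GeneralLinearGroup n K) : Matrix n n K).charpoly := by
      rw [(charpoly_eq_polyOf hr hrp (A := (g : Matrix n n K))
          (by rw [← Units.val_pow_eq_pow_val, hg, Units.val_one])).1, h,
        (charpoly_eq_polyOf hr hrp (A := ((1 : Matrix.GeneralLinearGroup n K) : Matrix n n K))
          (by rw [← Units.val_pow_eq_pow_val, h1, Units.val_one])).1, hone]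
    obtain ⟨c, hc⟩ := isConj_iff.1 (H66.isConj_of_charpoly_eq p (g := 1) (h := g)
      (by simp) (coprime_of_pow_eq_one hrp hne hg) hc.symm)
    simpa using hc.symm
  · rintro rfl; exact hone

/-- Classes of elements of order `r` in a group inside `GL_n` with linearly-detected conjugacy. -/
theorem card_order_classes {G : Type*} [Group G] (ρ : G →* Matrix.GeneralLinearGroup n K)
    (hρ : Function.Injective ρ) (hrp : r.Prime) (hne : r ≠ p)
    (hconj : ∀ g h : G, orderOf g = r → orderOf h = r → IsConj (ρ g) (ρ h) → IsConj g h)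
    (T : (CycFac r K → ℕ) → Prop)
    (hT : ∀ g : G, g ^ r = 1 → T (multOf (ρ g : Matrix n n K).charpoly))
    (hsurj : ∀ a, orderOf (Fintype.card K : ZMod r) * ∑ P, a P ≤ Fintype.card n → T a → a ≠ 0 →
      ∃ g : G, g ^ r = 1 ∧ (ρ g : Matrix n n K).charpoly = polyOf (Fintype.card n) a) :
    Nat.card {C : ConjClasses G // ∃ g, ConjClasses.mk g = C ∧ orderOf g = r} =
      Nat.card {a : CycFac r K → ℕ //
        orderOf (Fintype.card K : ZMod r) * ∑ P, a P ≤ Fintype.card n ∧ T a ∧ a ≠ 0} := by
  have hr := cast_ne_zero_of_prime_ne (K := K) hrp hne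
  have hpow : ∀ g : G, orderOf g = r → (ρ g : Matrix n n K) ^ r = 1 := fun g hg => by
    rw [← Units.val_pow_eq_pow_val, ← map_pow, orderOf_dvd_iff_pow_eq_one.1 hg.dvd, map_one,
      Units.val_one]
  refine H66.card_classes_eq (fun g => orderOf g = r) _
    (fun g => multOf (r := r) (ρ g : Matrix n n K).charpoly) (fun g h hgh hg => ?_)
    (fun g h hgh => ?_) (fun g h hg hh he => ?_) (fun g hg => ⟨?_, ?_, ?_⟩) ?_
  · obtain ⟨c, rfl⟩ := isConj_iff.1 hgh
    rw [← MulAut.conj_apply, MulEquiv.orderOf_eq, hg]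
  · obtain ⟨c, rfl⟩ := isConj_iff.1 hgh
    simp only [map_mul, map_inv, Units.val_mul]
    rw [Matrix.charpoly_mul_comm _ (((ρ c)⁻¹ : Matrix.GeneralLinearGroup n K) : Matrix n n K),
      ← mul_assoc, ← Units.val_mul, inv_mul_cancel, Units.val_one, one_mul]
  · refine hconj g h hg hh (H66.isConj_of_charpoly_eq p ?_ ?_ ?_)
    · exact coprime_of_pow_eq_one hrp hne (by rw [← map_pow, orderOf_dvd_iff_pow_eq_one.1 hg.dvd, map_one])
    · exact coprime_of_pow_eq_one hrp hne (by rw [← map_pow, orderOf_dvd_iff_pow_eq_one.1 hh.dvd, map_one])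
    · rw [(charpoly_eq_polyOf hr hrp (hpow g hg)).1, (charpoly_eq_polyOf hr hrp (hpow h hh)).1, he]
  · exact (charpoly_eq_polyOf hr hrp (hpow g hg)).2
  · exact hT g (orderOf_dvd_iff_pow_eq_one.1 hg.dvd)
  · intro h0
    rw [mult_eq_zero_iff hne hrp (by rw [← map_pow, orderOf_dvd_iff_pow_eq_one.1 hg.dvd, map_one]),
      ← map_one ρ, hρ.eq_iff] at h0
    rw [h0, orderOf_one] at hg
    exact hrp.ne_one hg.symm
  · rintro a ⟨ha, hTa, ha0⟩
    obtain ⟨g, hg, hc⟩ := hsurj a ha hTa ha0
    have hm : multOf (ρ g : Matrix n n K).charpoly = a := by rw [hc, multOf_polyOf hr hrp]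
    haveI := Fact.mk hrp
    refine ⟨g, orderOf_eq_prime hg fun h1 => ha0 ?_, hm⟩
    rw [← hm, h1, map_one, (mult_eq_zero_iff hne hrp (g := (1 : Matrix.GeneralLinearGroup n K))
      (one_pow r)).2 rfl]

/-- An element of `GL_N` with prescribed multiplicities. -/
theorem exists_gl_polyOf (hrp : r.Prime) (hne : r ≠ p) {N : ℕ} {a : CycFac r K → ℕ}
    (ha : orderOf (Fintype.card K : ZMod r) * ∑ P, a P ≤ N) :
    ∃ g : Matrix.GeneralLinearGroup (Fin N) K, g ^ r = 1 ∧
      (g : Matrix (Fin N) (Fin N) K).charpoly = polyOf N a := by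
  have hr := cast_ne_zero_of_prime_ne (K := K) hrp hne
  obtain ⟨g, hc, hco⟩ := H66.exists_gl_charpoly_eq p (polyOf_monic N a) (polyOf_natDegree hr hrp ha)
    (polyOf_coeff_zero hr hrp N a)
  exact ⟨g, pow_eq_one_of_charpoly hr hrp hco hc, hc⟩

/-- The characteristic polynomial of the contragredient is the dual polynomial. -/
theorem charpoly_contraMat (σ : K →+* K) (A : Matrix.GeneralLinearGroup n K) :
    (contraMat σ A).charpoly = dualPoly σ (A : Matrix n n K).charpoly := by
  set B := ((A : Matrix n n K).map σ).transpose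
  set χ := (A : Matrix n n K).charpoly
  have hAu : IsUnit ((A : Matrix n n K).map σ).transpose := by
    rw [Matrix.isUnit_iff_isUnit_det, Matrix.det_transpose, ← RingHom.mapMatrix_apply,
      ← RingHom.map_det]
    exact ((Matrix.isUnit_iff_isUnit_det _).1 A.isUnit).map σ
  rw [contraMat_eq, Matrix.charpoly_inv _ hAu, ← Matrix.reverse_charpoly, Matrix.charpoly_transpose,
    Matrix.charpoly_map, Matrix.det_transpose, ← RingHom.mapMatrix_apply, ← RingHom.map_det,
    Ring.inverse_eq_inv', dualPoly]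
  congr 1
  rw [Matrix.det_eq_sign_charpoly_coeff (A : Matrix n n K), map_mul, mul_inv, map_pow, map_neg,
    map_one, C_mul, ← inv_pow, inv_neg, inv_one, C_pow, C_neg, C_1, ← mul_assoc, ← mul_pow]
  simp [χ]

theorem dualPoly_polyOf {σ : K →+* K} {k : ℕ} (hr : (r : K) ≠ 0) (hrp : r.Prime)
    (hσ : ∀ x, σ x = x ^ p ^ k) (hσσ : ∀ x, σ (σ x) = x) (N : ℕ) (a : CycFac r K → ℕ) :
    dualPoly σ (polyOf N a) = polyOf N (a ∘ cycDual hr hrp hσ hσσ) := by
  have hprod : ∀ s : Finset (CycFac r K), dualPoly σ (∏ P ∈ s, P.1 ^ a P) =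
      ∏ P ∈ s, (dualPoly σ P.1) ^ a P := by
    classical
    intro s
    induction s using Finset.induction_on with
    | empty =>
      rw [Finset.prod_empty, Finset.prod_empty, dualPoly, Polynomial.map_one,
        show (1 : K[X]).reverse = 1 by rw [← C_1]; exact reverse_C (1 : K)]
      simp
    | insert P s hP ih =>
      rw [Finset.prod_insert hP, Finset.prod_insert hP, dualPoly_mul, dualPoly_pow, ih]
  have hlin : dualPoly σ (X - C (1 : K)) = X - C 1 := by
    have h1 : aeval (1 : K) (dualPoly σ (X - C (1 : K))) = 0 := by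
      haveI : ExpChar K p := ExpChar.prime Fact.out
      rw [aeval_dualPoly_eq_zero_iff hσ hσσ (by simp) one_ne_zero]; simp
    have h0 : ((X : K[X]) - C 1).coeff 0 ≠ 0 := by simp
    refine eq_of_monic_of_associated (dualPoly_monic h0) (monic_X_sub_C 1) ?_
    rw [coe_aeval_eq_eval, ← IsRoot.def, ← dvd_iff_isRoot] at h1
    exact ((irreducible_X_sub_C 1).associated_of_dvd
      (dualPoly_irreducible hσσ (monic_X_sub_C 1) h0 (irreducible_X_sub_C 1)) h1).symm
  let π : CycFac r K ≃ CycFac r K :=
    ⟨cycDual hr hrp hσ hσσ, cycDual hr hrp hσ hσσ, cycDual_cycDual hr hrp hσ hσσ,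
      cycDual_cycDual hr hrp hσ hσσ⟩
  rw [polyOf, polyOf, dualPoly_mul, dualPoly_pow, hlin, hprod]
  congr 1
  · congr 2
    exact congrArg _ (Fintype.sum_equiv π _ _ fun P => congrArg a (cycDual_cycDual hr hrp hσ hσσ P).symm)
  · exact Fintype.prod_equiv π _ _ fun P => by
      show dualPoly σ P.1 ^ a P = dualPoly σ P.1 ^ a (cycDual hr hrp hσ hσσ (cycDual hr hrp hσ hσσ P))
      rw [cycDual_cycDual]

/-- The multiplicities of an element similar to its contragredient are dual-invariant. -/
theorem mult_dual_invariant {σ : K →+* K} {k : ℕ} (hr : (r : K) ≠ 0) (hrp : r.Prime)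
    (hσ : ∀ x, σ x = x ^ p ^ k) (hσσ : ∀ x, σ (σ x) = x) {A : Matrix.GeneralLinearGroup n K}
    (hA : A ^ r = 1) (h : (contraMat σ A).charpoly = (A : Matrix n n K).charpoly)
    (P : CycFac r K) :
    multOf (A : Matrix n n K).charpoly (cycDual hr hrp hσ hσσ P) =
      multOf (A : Matrix n n K).charpoly P := by
  have hc := (charpoly_eq_polyOf hr hrp (A := (A : Matrix n n K))
    (by rw [← Units.val_pow_eq_pow_val, hA, Units.val_one])).1
  rw [charpoly_contraMat, hc, dualPoly_polyOf hr hrp hσ hσσ] at h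
  exact congrFun ((multOf_polyOf hr hrp _ _).symm.trans
    ((congrArg multOf h).trans (multOf_polyOf hr hrp _ _))) P

/-- An element with dual-invariant multiplicities is similar to its contragredient. -/
theorem isConj_contra_of_invariant {σ : K →+* K} {k : ℕ} (hne : r ≠ p) (hrp : r.Prime)
    (hσ : ∀ x, σ x = x ^ p ^ k) (hσσ : ∀ x, σ (σ x) = x) {A : Matrix.GeneralLinearGroup n K}
    (hA : A ^ r = 1)
    (h : ∀ P, multOf (A : Matrix n n K).charpoly
      (cycDual (cast_ne_zero_of_prime_ne (K := K) hrp hne) hrp hσ hσσ P) =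
        multOf (A : Matrix n n K).charpoly P) :
    IsConj (A : Matrix n n K) (contraMat σ A) := by
  have hr := cast_ne_zero_of_prime_ne (K := K) hrp hne
  have hc := (charpoly_eq_polyOf hr hrp (A := (A : Matrix n n K))
    (by rw [← Units.val_pow_eq_pow_val, hA, Units.val_one])).1
  have hcr : (contraHom σ n A) ^ r = 1 := by rw [← map_pow, hA, map_one]
  have := H66.isConj_of_charpoly_eq p (g := A) (h := contraHom σ n A)
    (coprime_of_pow_eq_one hrp hne hA) (coprime_of_pow_eq_one hrp hne hcr) (by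
      show _ = (contraMat σ A).charpoly
      rw [charpoly_contraMat, hc, dualPoly_polyOf hr hrp hσ hσσ]
      exact congrArg _ (funext fun P => (h P).symm))
  exact H66.gl_isConj_iff.1 this

end Cfsg.Agent.H67
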