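import Mathlib
import Cfsg.Agent.H66.Unitary
import Cfsg.Agent.H67.UnitarySimilar

set_option autoImplicit false

/-!
# Classes of `GU_n(q)` are the contragredient-invariant classes of `GL_n(q²)`
-/

namespace Cfsg.Agent.H67

open Polynomial Matrix

variable {K : Type*} [Field K] [Fintype K] {q n : ℕ}

/-- Classes of `GU_n(q)` with a property read in `GL_n(q²)`, all of whose linear classes are
contragredient-invariant, correspond to the linear classes with that property. -/
theorem card_GU_classes_eq (hK : Fintype.card K = q ^ 2) (S : GL (Fin n) K → Prop)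
    (hS : ∀ g h, IsConj g h → S g → S h) :
    Nat.card {C : ConjClasses ↥(Cfsg.GU n K q) // ∃ g : ↥(Cfsg.GU n K q),
        ConjClasses.mk g = C ∧ S (g : GL (Fin n) K)} =
      Nat.card {C : ConjClasses (GL (Fin n) K) // ∃ g : GL (Fin n) K, ConjClasses.mk g = C ∧ S g ∧
        IsConj (g : Matrix (Fin n) (Fin n) K) (contraMat (H3.conjQ hK) g)} := by
  refine Nat.card_eq_of_bijective (fun c => ⟨ConjClasses.map (Cfsg.GU n K q).subtype c.1, ?_⟩) ⟨?_, ?_⟩
  · obtain ⟨c, g, rfl, hg⟩ := c
    refine ⟨g, rfl, hg, ?_⟩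
    rw [← exists_GU_isConj_iff hK]
    exact ⟨g, IsConj.refl _⟩
  · rintro ⟨c, g, rfl, hg⟩ ⟨d, h, rfl, hh⟩ heq
    have h1 : IsConj (g : GL (Fin n) K) (h : GL (Fin n) K) :=
      ConjClasses.mk_eq_mk_iff_isConj.1 (congrArg Subtype.val heq)
    exact Subtype.ext (ConjClasses.mk_eq_mk_iff_isConj.2 (H66.gu_isConj_of_isConj hK g h h1))
  · rintro ⟨C, g, rfl, hg, hcg⟩
    obtain ⟨B, hB⟩ := exists_GU_isConj hK g hcg
    exact ⟨⟨ConjClasses.mk B, B, rfl, hS _ _ hB hg⟩,
      Subtype.ext (ConjClasses.mk_eq_mk_iff_isConj.2 hB.symm)⟩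

/-- The dual of `X - 1`. -/
theorem dualPoly_X_sub_one {σ : K →+* K} : dualPoly σ (X - C (1 : K)) = X - C 1 := by
  have hrev : ((X : K[X]) - C 1).reverse = C (-1) * X + C 1 := by
    rw [show (X : K[X]) - C 1 = C (-1) + X by rw [C_neg]; ring, reverse_C_add, natDegree_X, pow_one]
    congr 1
    rw [reverse, natDegree_X]
    ext i
    rw [coeff_reflect]
    rcases i with _ | _ | i
    · simp
    · simp [Polynomial.coeff_one]
    · rw [Polynomial.revAt_eq_self_of_lt (by omega), coeff_X]
      simp [Polynomial.coeff_one]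
  rw [dualPoly, Polynomial.map_sub, Polynomial.map_X, map_C, map_one σ, hrev]
  simp [coeff_X]
  ring

/-- A unipotent matrix is similar to its contragredient. -/
theorem isConj_contraMat_of_unipotent {σ : K →+* K} (hσσ : ∀ x, σ (σ x) = x) {m : ℕ}
    (A : GL (Fin n) K) (hA : ((A : Matrix (Fin n) (Fin n) K) - 1) ^ m = 0) :
    IsConj (A : Matrix (Fin n) (Fin n) K) (contraMat σ A) := by
  have haX : ∀ k, aeval (A : Matrix (Fin n) (Fin n) K) ((X - C 1 : K[X]) ^ k) =
      ((A : Matrix (Fin n) (Fin n) K) - 1) ^ k := fun k => by simp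
  have hB : aeval (contraMat σ A) ((X - C 1 : K[X]) ^ m) = 0 := by
    have h := rank_aeval_contra hσσ A (φ := (X - C 1 : K[X]) ^ m) (by
      rw [coeff_zero_eq_eval_zero]; simp)
    rw [dualPoly_pow, dualPoly_X_sub_one, haX, hA, Matrix.rank_zero] at h
    have h0 := Submodule.finrank_eq_zero.1 h
    refine Matrix.ext_iff_mulVec.2 fun v => ?_
    have hv : (aeval (contraMat σ A) ((X - C 1 : K[X]) ^ m)).mulVecLin v ∈ (⊥ : Submodule K (Fin n → K)) :=
      h0 ▸ LinearMap.mem_range_self _ v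
    rw [Submodule.mem_bot, Matrix.mulVecLin_apply] at hv
    rw [hv, Matrix.zero_mulVec]
  refine H66.isConj_of_rank_eq fun P k hP hPi => ?_
  by_cases hPX : P = X - C 1
  · subst hPX
    rw [rank_aeval_contra hσσ A (φ := (X - C 1 : K[X]) ^ k) (by rw [coeff_zero_eq_eval_zero]; simp),
      dualPoly_pow, dualPoly_X_sub_one]
  · have hco : IsCoprime (P ^ k) ((X - C 1 : K[X]) ^ m) := by
      refine (hPi.coprime_iff_not_dvd.2 fun h => hPX ?_).pow
      exact Polynomial.eq_of_monic_of_associated hP (monic_X_sub_C 1)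
        (hPi.associated_of_dvd (irreducible_X_sub_C 1) h)
    obtain ⟨a, b, hab⟩ := hco
    have key : ∀ M : Matrix (Fin n) (Fin n) K, aeval M ((X - C 1 : K[X]) ^ m) = 0 →
        (aeval M (P ^ k)).rank = n := by
      intro M hM
      have h1 : aeval M a * aeval M (P ^ k) = 1 := by
        have := congrArg (aeval M) hab
        rwa [map_add, map_mul, map_mul, hM, mul_zero, add_zero, map_one] at this
      rw [Matrix.rank_of_isUnit _ (IsUnit.of_mul_eq_one_right _ h1), Fintype.card_fin]
    rw [key _ (by rw [haX, hA]), key _ hB]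

end Cfsg.Agent.H67
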