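import Mathlib
import Cfsg.Agent.H67.OrderClasses
import Cfsg.Agent.H67.MultCount
import Cfsg.Agent.H67.UnitaryClasses

set_option autoImplicit false

/-!
# Classes of elements of order `r` in `GL_n` and `GU_n`
-/

namespace Cfsg.Agent.H67

open Polynomial

variable {K : Type*} [Field K] [Fintype K] {p q n r : ℕ} [Fact p.Prime] [CharP K p]

/-- The number of factors. -/
theorem card_cycFac_eq (hrp : r.Prime) (hne : r ≠ p) {d t : ℕ}
    (hd : d = orderOf (Fintype.card K : ZMod r)) (ht : t * d = r - 1) :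
    Fintype.card (CycFac r K) = t := by
  have hr := cast_ne_zero_of_prime_ne (K := K) hrp hne
  have h := card_cycFac (K := K) hr hrp
  rw [← hd, ← ht] at h
  exact Nat.eq_of_mul_eq_mul_right (hd ▸ orderOf_card_pos hr hrp) h

theorem card_gl_prime_order_classes (hrp : r.Prime) (hne : r ≠ p) {i t : ℕ}
    (hi : i = orderOf (Fintype.card K : ZMod r)) (ht : t * i = r - 1) :
    Nat.card {C : ConjClasses (GL (Fin n) K) //
      ∃ g : GL (Fin n) K, ConjClasses.mk g = C ∧ orderOf g = r} = (n / i + t).choose t - 1 := by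
  have hr := cast_ne_zero_of_prime_ne (K := K) hrp hne
  rw [card_order_classes (MonoidHom.id _) Function.injective_id hrp hne (fun g h _ _ hc => hc)
    (fun a : CycFac r K → ℕ => ∀ P, a (id P) = a P) (fun g _ P => rfl)
    (fun a ha _ _ => by
      rw [Fintype.card_fin] at ha ⊢
      exact exists_gl_polyOf hrp hne ha)]
  rw [card_invariant_le id (fun _ => rfl) _ _ (orderOf_card_pos hr hrp) True (fun _ => by simp),
    if_pos trivial, ← hi, Fintype.card_fin, card_cycFac_eq hrp hne hi ht]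

/-- Parity criterion behind self-duality in the unitary case. -/
theorem exists_pow_eq_neg_iff (hr : r.Prime) (hr2 : r ≠ 2) {x : ZMod r} (hx : 0 < orderOf x) :
    (∃ j : ℕ, (x ^ 2) ^ j = -x) ↔ orderOf x % 4 = 2 := by
  haveI := Fact.mk hr
  haveI : Fact (2 < r) := ⟨by have := hr.two_le; omega⟩
  have hneg : (-1 : ZMod r) ≠ 1 := ZMod.neg_one_ne_one
  have hx0 : x ≠ 0 := by
    intro h
    rw [h, orderOf_pos_iff, isOfFinOrder_iff_pow_eq_one] at hx
    obtain ⟨m, hm, hm'⟩ := hx
    rw [zero_pow (by omega)] at hm'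
    exact zero_ne_one hm'
  set i := orderOf x with hidef
  constructor
  · rintro ⟨j, hj⟩
    have hd : x ^ (2 * j + 2 * i - 1) = -1 := by
      have h1 : x ^ (2 * j + 2 * i - 1) * x = -x := by
        rw [← pow_succ, show 2 * j + 2 * i - 1 + 1 = 2 * j + i * 2 by omega, pow_add, pow_mul,
          pow_mul x i, hidef, pow_orderOf_eq_one, one_pow, mul_one, hj]
      exact mul_right_cancel₀ hx0 (by rw [h1, neg_one_mul])
    have h2 : i ∣ 2 * (2 * j + 2 * i - 1) := orderOf_dvd_of_pow_eq_one (by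
      rw [mul_comm, pow_mul, hd]; ring)
    have h3 : ¬ i ∣ 2 * j + 2 * i - 1 := fun h => hneg (by
      rw [← hd]; exact orderOf_dvd_iff_pow_eq_one.1 h)
    rcases Nat.even_or_odd' i with ⟨c, hc | hc⟩
    · rw [hc] at h2 h3
      have hcd : c ∣ 2 * j + 2 * (2 * c) - 1 := Nat.dvd_of_mul_dvd_mul_left (by norm_num) h2
      have hodd : Odd c := by
        rcases Nat.even_or_odd c with he | ho
        · have := (even_iff_two_dvd.1 he).trans hcd
          omega
        · exact ho
      obtain ⟨e, he⟩ := hodd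
      omega
    · exfalso
      apply h3
      have hco : Nat.Coprime i 2 := by rw [hc]; simp
      exact hco.dvd_of_dvd_mul_left h2
  · intro h4
    obtain ⟨c, hc⟩ : ∃ c, i = 2 * c := ⟨i / 2, by omega⟩
    refine ⟨(c + 1) / 2, ?_⟩
    have hsq : (x ^ c) ^ 2 = 1 := by rw [← pow_mul, mul_comm, ← hc, hidef, pow_orderOf_eq_one]
    have hne1 : x ^ c ≠ 1 := fun h => by
      have := Nat.le_of_dvd (by omega) (orderOf_dvd_of_pow_eq_one h)
      omega
    rw [← pow_mul, show 2 * ((c + 1) / 2) = c + 1 by omega, pow_succ,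
      (sq_eq_one_iff.1 hsq).resolve_left hne1, neg_one_mul]

theorem card_gu_prime_order_classes (hK : Fintype.card K = q ^ 2) (hr : r.Prime) (hr2 : r ≠ 2)
    (hne : r ≠ p) {i b s : ℕ} (hi : i = orderOf (q : ZMod r))
    (hb : b = if Odd i then i else i / 2) (hs : s * b = r - 1) :
    Nat.card {C : ConjClasses ↥(Cfsg.GU n K q) //
        ∃ g : ↥(Cfsg.GU n K q), ConjClasses.mk g = C ∧ orderOf g = r} =
      if i % 4 = 2 then (2 * n / i + s).choose s - 1
      else (n / (2 * b) + s / 2).choose (s / 2) - 1 := by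
  have hrK := cast_ne_zero_of_prime_ne (K := K) hr hne
  obtain ⟨m, hpp, hm⟩ := FiniteField.card K p
  obtain ⟨k, -, hk⟩ : ∃ k, k ≤ (m : ℕ) ∧ q = p ^ k :=
    (Nat.dvd_prime_pow hpp).1 (by rw [← hm, hK]; exact dvd_pow_self q two_ne_zero)
  have hσ : ∀ x, H3.conjQ hK x = x ^ p ^ k := fun x => by rw [H3.conjQ_apply, hk]
  have hσσ := H3.conjQ_conjQ hK
  have hq0 : 0 < orderOf (q : ZMod r) := by
    haveI := Fact.mk hr
    rw [orderOf_pos_iff, isOfFinOrder_iff_pow_eq_one]
    refine ⟨r - 1, by have := hr.two_le; omega, ZMod.pow_card_sub_one_eq_one ?_⟩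
    intro h
    apply card_zmod_ne_zero hrK hr
    rw [hK, Nat.cast_pow, h]; simp
  have hord : orderOf (Fintype.card K : ZMod r) = b := by
    rw [hK, Nat.cast_pow, orderOf_pow' _ two_ne_zero, ← hi, hb]
    split_ifs with ho
    · rw [Nat.Coprime.gcd_eq_one ((Nat.coprime_two_right).2 ho), Nat.div_one]
    · rw [Nat.gcd_eq_right (even_iff_two_dvd.1 (Nat.not_odd_iff_even.1 ho))]
  rw [card_order_classes (Cfsg.GU n K q).subtype (Cfsg.GU n K q).subtype_injective hr hne
    (fun g h _ _ hc => H66.gu_isConj_of_isConj hK g h hc)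
    (fun a : CycFac r K → ℕ => ∀ P, a (cycDual hrK hr hσ hσσ P) = a P)
    (fun g hg P => mult_dual_invariant hrK hr hσ hσσ
      (A := (g : GL (Fin n) K)) (by rw [← SubmonoidClass.coe_pow, hg]; rfl)
      (by rw [contraMat_of_mem_GU hK g.2]) P)
    (fun a ha hT _ => by
      rw [Fintype.card_fin] at ha ⊢
      obtain ⟨A, hA, hc⟩ := exists_gl_polyOf hr hne ha
      obtain ⟨B, hB⟩ := exists_GU_isConj hK A (isConj_contra_of_invariant hne hr hσ hσσ hA (by
        rw [hc, multOf_polyOf hrK hr]; exact hT))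
      obtain ⟨c, hcB⟩ := isConj_iff.1 hB
      refine ⟨B, Subtype.ext ?_, ?_⟩
      · rw [SubmonoidClass.coe_pow, ← hcB, conj_pow, hA, mul_one, mul_inv_cancel]; rfl
      · rw [Subgroup.coe_subtype, ← hcB, Units.val_mul, Units.val_mul, Matrix.charpoly_mul_comm,
          ← mul_assoc, ← Units.val_mul, inv_mul_cancel, Units.val_one, one_mul, hc])]
  rw [card_invariant_le _ (cycDual_cycDual hrK hr hσ hσσ) _ _
    (orderOf_card_pos hrK hr) (i % 4 = 2) (fun P => by
      rw [Subtype.ext_iff]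
      refine (dual_eq_self_iff hrK hr hσ hσσ P).trans ?_
      rw [hK, Nat.cast_pow, ← hk, hi]
      exact exists_pow_eq_neg_iff hr hr2 hq0), hord, card_cycFac_eq hr hne hord.symm hs, Fintype.card_fin]
  split_ifs with h4
  · rw [hb, if_neg (by rw [Nat.not_odd_iff_even, Nat.even_iff]; omega)]
    congr 3
    conv_rhs => rw [show i = 2 * (i / 2) by omega, Nat.mul_div_mul_left _ _ two_pos]
  · rfl

end Cfsg.Agent.H67
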