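import Mathlib
import Cfsg.Agent.H66.Semisimple
import Cfsg.Agent.H67.CycFactor
import Cfsg.Agent.H67.InvariantForm

set_option autoImplicit false

/-!
# The fixed-point-free part of an isometry of prime order
-/

namespace Cfsg.Agent.H67

open Polynomial

universe u

variable {K : Type u} [Field K] [Fintype K] {r : ℕ}

/-- Index of the moved part. -/
abbrev MovIdx (a : CycFac r K → ℕ) : Type u := Σ P : CycFac r K, Fin (a P)

/-- The moved part: a sum of simple modules. -/
abbrev MovMod (a : CycFac r K → ℕ) : Type u :=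
  ProdMod (fun x : MovIdx a => x.1.1) (fun _ => 1)

theorem finiteDimensional_movMod (a : CycFac r K → ℕ) : FiniteDimensional K (MovMod a) := by
  haveI := fun x : MovIdx a => H66.finiteDimensional_cycMod (x.1.monic.pow 1)
  infer_instance

variable {p : ℕ} [Fact p.Prime] [CharP K p]

theorem mk_X_pow_eq_one (hrp : r.Prime) (P : CycFac r K) :
    (Ideal.Quotient.mk (Ideal.span {P.1 ^ 1}) X : H66.CycMod (P.1 ^ 1)) ^ r = 1 := by
  rw [← map_pow, ← map_one (Ideal.Quotient.mk (Ideal.span {P.1 ^ 1})),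
    Ideal.Quotient.mk_eq_mk_iff_sub_mem, Ideal.mem_span_singleton, pow_one]
  haveI := Fact.mk hrp
  rw [← cyclotomic_prime_mul_X_sub_one]
  exact dvd_mul_of_dvd_left P.dvd _

/-- Multiplication by `X` on the moved part. -/
noncomputable def movT (a : CycFac r K → ℕ) : Module.End K (MovMod a) :=
  H66.cycMul fun x : MovIdx a => x.1.1 ^ 1

theorem movT_apply (a : CycFac r K → ℕ) (u : MovMod a) : movT a u = (X : K[X]) • u := rfl

theorem movT_pow_apply (a : CycFac r K → ℕ) (j : ℕ) (u : MovMod a) :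
    (movT a ^ j) u = ((X : K[X]) ^ j) • u := by
  have := H66.aeval_cycMul (fun x : MovIdx a => x.1.1 ^ 1) ((X : K[X]) ^ j) u
  rwa [map_pow, aeval_X] at this

theorem movT_pow (hrp : r.Prime) (a : CycFac r K → ℕ) : movT a ^ r = 1 := by
  refine LinearMap.ext fun u => funext fun x => ?_
  rw [movT_pow_apply]
  obtain ⟨f, hf⟩ := Ideal.Quotient.mk_surjective (u x)
  show ((X : K[X]) ^ r) • u x = u x
  rw [← hf]
  show Ideal.Quotient.mk _ (X ^ r * f) = _
  rw [map_mul, map_pow, mk_X_pow_eq_one hrp, one_mul]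

theorem charpoly_movT (a : CycFac r K → ℕ) :
    haveI := finiteDimensional_movMod a
    (movT a).charpoly = ∏ P : CycFac r K, P.1 ^ a P := by
  haveI := finiteDimensional_movMod a
  rw [movT, H66.charpoly_cycMul (fun x : MovIdx a => x.1.monic.pow 1), Fintype.prod_sigma]
  exact Finset.prod_congr rfl fun P _ => by simp

theorem finrank_movMod (hr : (r : K) ≠ 0) (hrp : r.Prime) (a : CycFac r K → ℕ) :
    Module.finrank K (MovMod a) = orderOf (Fintype.card K : ZMod r) * ∑ P, a P := by
  haveI := finiteDimensional_movMod a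
  rw [← LinearMap.charpoly_natDegree (movT a), charpoly_movT,
    natDegree_prod_of_monic _ _ fun P _ => P.monic.pow _, Finset.mul_sum]
  simp only [natDegree_pow, CycFac.natDegree_eq hr hrp, mul_comm]

/-- A non-degenerate invariant `ε`-symmetric form on the moved part, for self-dual multiplicities,
with its quadratic refinement. -/
theorem exists_moved_form (hne : (r : K) ≠ 0) (hrp : r.Prime) (hr2 : r ≠ 2)
    (hσ : ∀ x, RingHom.id K x = x ^ p ^ 0) (a : CycFac r K → ℕ)
    (ha : ∀ P, a (cycDual hne hrp hσ (fun _ => rfl) P) = a P) (ε : K) (hε : ε * ε = 1) :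
    ∃ (π : MovIdx a → MovIdx a) (B : LinearMap.BilinForm K (MovMod a)) (Q0 : MovMod a → K),
      (∀ x, (π x).1 = cycDual hne hrp hσ (fun _ => rfl) x.1) ∧
      B.Nondegenerate ∧ (∀ u v, B v u = ε * B u v) ∧
      (∀ u v, B (movT a u) (movT a v) = B u v) ∧
      (∀ (c : K) u, Q0 (c • u) = c * c * Q0 u) ∧ (∀ u, Q0 (movT a u) = Q0 u) ∧
      (∀ u, B u u = Q0 u + ε * Q0 u) ∧
      (ε = 1 → ∀ u v, Q0 (u + v) = Q0 u + Q0 v + B u v) ∧
      (∀ u, (∀ x, u x = 0 ∨ u (π x) = 0) → Q0 u = 0) := by
  classical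
  set δ := cycDual hne hrp hσ (fun _ => rfl) with hδ
  let π : MovIdx a → MovIdx a := fun x => ⟨δ x.1, Fin.cast (ha x.1).symm x.2⟩
  have hext : ∀ x y : MovIdx a, x.1 = y.1 → (x.2 : ℕ) = y.2 → x = y := by
    rintro ⟨P, i⟩ ⟨Q, j⟩ h1 h2
    subst h1
    exact congrArg (Sigma.mk P) (Fin.ext h2)
  have hππ : ∀ x, π (π x) = x := fun x =>
    hext _ _ (cycDual_cycDual hne hrp hσ (fun _ => rfl) x.1) rfl
  obtain ⟨B, hadd, hsmul, hsymm, hX, hsep, Q0, hQc, hQX, hQB, hQadd, hQ0⟩ :=
    exists_invariant_form (σ := RingHom.id K) (p := fun x : MovIdx a => x.1.1) (e := fun _ => 1)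
      (fun _ => rfl) (fun x => x.1.irreducible) (fun x => x.1.coeff_zero_ne hne hrp) (fun _ => le_rfl)
      π hππ (fun _ => rfl) (fun _ => rfl) ε (by simpa using hε) (fun x h hx => by
        have hw : ∀ w : H66.CycMod (x.1.1 ^ 1), Ideal.Quotient.mk _ x.1.1 * w = 0 := fun w => by
          rw [show Ideal.Quotient.mk (Ideal.span {x.1.1 ^ 1}) x.1.1 = 0 by
            rw [Ideal.Quotient.eq_zero_iff_dvd, pow_one], zero_mul]
        haveI := H66.finiteDimensional_cycMod (x.1.monic.pow 1)
        obtain ⟨w, hw0⟩ : ∃ w : H66.CycMod (x.1.1 ^ 1), w + ε • barHom (RingHom.id K) _ _ h w ≠ 0 := by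
          by_cases h1 : ε = -1
          · refine ⟨Ideal.Quotient.mk _ X, ?_⟩
            rw [h1, barHom_X, neg_one_smul, ← sub_eq_add_neg, sub_ne_zero]
            intro hc
            set ξ : H66.CycMod (x.1.1 ^ 1) := Ideal.Quotient.mk _ X with hξ
            have h2 : ξ ^ 2 = 1 := by
              have hm := mk_X_mul_xInv (g := x.1.1 ^ 1)
                (by rw [pow_one]; exact x.1.coeff_zero_ne hne hrp)
              rw [← hc] at hm
              rw [sq]; exact hm
            have h3 : ξ = 1 := by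
              obtain ⟨c, hc'⟩ := (Nat.Prime.odd_of_ne_two hrp hr2)
              have h4 := mk_X_pow_eq_one hrp x.1
              have h5 : ξ ^ r = (ξ ^ 2) ^ c * ξ :=
                ((congrArg (ξ ^ ·) hc').trans (pow_succ ξ (2 * c))).trans
                  (congrArg (· * ξ) (pow_mul ξ 2 c))
              rw [← hξ] at h4
              calc ξ = (ξ ^ 2) ^ c * ξ := by simp [h2]
                _ = ξ ^ r := h5.symm
                _ = 1 := h4
            rw [hξ, ← map_one (Ideal.Quotient.mk (Ideal.span {x.1.1 ^ 1})),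
              Ideal.Quotient.mk_eq_mk_iff_sub_mem, Ideal.mem_span_singleton, pow_one, ← C_1] at h3
            exact x.1.ne_X_sub_one hne hrp (eq_of_monic_of_associated x.1.monic (monic_X_sub_C 1)
              (x.1.irreducible.associated_of_dvd (irreducible_X_sub_C 1) h3))
          · refine ⟨1, ?_⟩
            rw [map_one, show (1 : H66.CycMod (x.1.1 ^ 1)) + ε • 1 = (1 + ε) • 1 by
              rw [add_smul, one_smul]]
            refine smul_ne_zero (fun h2 => h1 (eq_neg_of_add_eq_zero_right h2)) ?_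
            rw [← map_one (Ideal.Quotient.mk (Ideal.span {x.1.1 ^ 1})), Ne,
              Ideal.Quotient.eq_zero_iff_dvd, pow_one]
            exact fun hd => x.1.irreducible.not_isUnit (isUnit_of_dvd_one hd)
        obtain ⟨l, hl⟩ := Module.Projective.exists_dual_ne_zero K hw0
        refine ⟨l, w, hw w, ?_⟩
        rw [map_add, map_smul, smul_eq_mul] at hl
        exact hl)
  have hadd' : ∀ u v v', B u (v + v') = B u v + B u v' := fun u v v' => by
    rw [hsymm (v + v') u, hadd, RingHom.id_apply, mul_add, hsymm v u, hsymm v' u]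
    simp only [RingHom.id_apply]
  have hsmul' : ∀ (c : K) u v, B u (c • v) = c * B u v := fun c u v => by
    rw [hsymm (c • v) u, hsmul, RingHom.id_apply, hsymm v u, RingHom.id_apply]; ring
  refine ⟨π, LinearMap.mk₂ K B hadd hsmul hadd' hsmul', Q0, fun x => rfl, ?_,
    fun u v => hsymm u v, fun u v => hX u v, fun c u => hQc c u, fun u => hQX u, fun u => hQB u,
    fun h1 u v => hQadd rfl h1 u v, hQ0⟩
  refine ⟨fun u hu => hsep u hu, fun u hu => hsep u fun v => ?_⟩
  have hvu : B v u = 0 := hu v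
  rw [hsymm v u, hvu, RingHom.id_apply, mul_zero]

end Cfsg.Agent.H67
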