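import Mathlib
import Cfsg.Agent.H67.MovedPart
import Cfsg.Agent.H67.OrderClasses
import Cfsg.Agent.H67.GLOrderCount
import Cfsg.Agent.H67.IsometryConjMatrix

set_option autoImplicit false

/-!
# Classes of elements of odd prime order in symplectic groups
-/

namespace Cfsg.Agent.H67

open Polynomial

universe u

variable {K : Type u} [Field K] [Fintype K] {r p : ℕ} [Fact p.Prime] [CharP K p]

/-- Transfer of the characteristic polynomial along an intertwining equivalence. -/
theorem charpoly_of_intertwine {V : Type*} [AddCommGroup V] [Module K V] [FiniteDimensional K V]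
    {I : Type*} [Fintype I] [DecidableEq I] (E : V ≃ₗ[K] (I → K)) (T : Module.End K V)
    (M : Matrix I I K) (h : ∀ v, M.mulVec (E v) = E (T v)) : M.charpoly = T.charpoly := by
  have h1 : E.conj T = Matrix.toLin' M := LinearMap.ext fun w => by
    rw [LinearEquiv.conj_apply_apply, Matrix.toLin'_apply, ← h, E.apply_symm_apply]
  rw [← Matrix.charpoly_toLin' M, ← h1, LinearEquiv.charpoly_conj]

theorem prodMap_one_pow_apply {V W : Type*} [AddCommGroup V] [Module K V] [AddCommGroup W]
    [Module K W] (T : Module.End K V) (j : ℕ) (x : V × W) :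
    ((LinearMap.prodMap T LinearMap.id : Module.End K (V × W)) ^ j) x = ((T ^ j) x.1, x.2) := by
  induction j with
  | zero => simp
  | succ j ih => rw [pow_succ', Module.End.mul_apply, ih, pow_succ', Module.End.mul_apply]; rfl

/-- The characteristic polynomial of moved part plus identity. -/
theorem charpoly_mov_prod (a : CycFac r K → ℕ) (W : Type u) [AddCommGroup W] [Module K W]
    [FiniteDimensional K W] {N : ℕ}
    (hN : orderOf (Fintype.card K : ZMod r) * ∑ P, a P + Module.finrank K W = N) :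
    haveI := finiteDimensional_movMod a
    (LinearMap.prodMap (movT a) (LinearMap.id : W →ₗ[K] W)).charpoly = polyOf N a := by
  haveI := finiteDimensional_movMod a
  have h1 : (LinearMap.id : W →ₗ[K] W).charpoly = (X - C 1) ^ Module.finrank K W := by
    rw [← Module.End.one_eq_id, LinearMap.charpoly_one, C_1]
  rw [LinearMap.charpoly_prodMap, charpoly_movT, h1, polyOf, mul_comm, ← hN, Nat.add_sub_cancel_left]

theorem exists_sp_polyOf (hrp : r.Prime) (hne : r ≠ p) (hr2 : r ≠ 2)
    (hσ : ∀ x, RingHom.id K x = x ^ p ^ 0) {m : ℕ} (a : CycFac r K → ℕ)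
    (ha : ∀ P, a (cycDual (cast_ne_zero_of_prime_ne (K := K) hrp hne) hrp hσ (fun _ => rfl) P) = a P)
    (hle : orderOf (Fintype.card K : ZMod r) * ∑ P, a P ≤ 2 * m) :
    ∃ g : Matrix.symplecticGroup (Fin m) K, g ^ r = 1 ∧
      (g : Matrix (Fin m ⊕ Fin m) (Fin m ⊕ Fin m) K).charpoly = polyOf (2 * m) a := by
  classical
  have hr := cast_ne_zero_of_prime_ne (K := K) hrp hne
  haveI := finiteDimensional_movMod a
  obtain ⟨π, B, Q0, -, hB, hsymm, hinv, -, -, hBQ, -, -⟩ :=
    exists_moved_form hr hrp hr2 hσ a ha (-1) (by ring)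
  have hAlt : B.IsAlt := fun u => by rw [hBQ]; ring
  obtain ⟨m₁, -, hm₁, -⟩ := H2.exists_equiv_std B hB hAlt
  have hfr := finrank_movMod (r := r) hr hrp a
  have hm : m₁ ≤ m := by omega
  set k := m - m₁
  let B₂ := H2.sympBilin k K
  let BV : LinearMap.BilinForm K (MovMod a × (Fin k ⊕ Fin k → K)) :=
    B.compl₁₂ (LinearMap.fst K _ _) (LinearMap.fst K _ _) +
      B₂.compl₁₂ (LinearMap.snd K _ _) (LinearMap.snd K _ _)
  have hBV : ∀ x y, BV x y = B x.1 y.1 + B₂ x.2 y.2 := fun x y => rfl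
  have hnd : BV.Nondegenerate := by
    refine ⟨fun x hx => ?_, fun x hx => ?_⟩
    · refine Prod.ext (hB.1 _ fun v => ?_) ((H2.sympBilin_nondegenerate k K).1 _ fun w => ?_)
      · have := hx (v, 0); rwa [hBV, map_zero, add_zero] at this
      · have := hx (0, w); rwa [hBV, map_zero, zero_add] at this
    · refine Prod.ext (hB.2 _ fun v => ?_) ((H2.sympBilin_nondegenerate k K).2 _ fun w => ?_)
      · have := hx (v, 0); rwa [hBV, map_zero, LinearMap.zero_apply, add_zero] at this
      · have := hx (0, w); rwa [hBV, map_zero, LinearMap.zero_apply, zero_add] at this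
  obtain ⟨m₂, E, hm₂, hE⟩ := H2.exists_equiv_std BV hnd
    (fun x => by rw [hBV, hAlt, H2.sympBilin_isAlt, add_zero])
  have hdim : Module.finrank K (MovMod a × (Fin k ⊕ Fin k → K)) = 2 * m := by
    rw [Module.finrank_prod, Module.finrank_fintype_fun_eq_card, Fintype.card_sum, Fintype.card_fin]
    omega
  obtain rfl : m₂ = m := by omega
  set T : Module.End K (MovMod a × (Fin k ⊕ Fin k → K)) :=
    LinearMap.prodMap (movT a) LinearMap.id with hTdef
  have hTr : T ^ r = 1 := LinearMap.ext fun x => by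
    rw [hTdef, prodMap_one_pow_apply, movT_pow hrp]; rfl
  let M : Matrix (Fin m₂ ⊕ Fin m₂) (Fin m₂ ⊕ Fin m₂) K := LinearMap.toMatrix' (E.conj T)
  have hM : ∀ v, M.mulVec (E v) = E (T v) := fun v => by
    rw [LinearMap.toMatrix'_mulVec, LinearEquiv.conj_apply_apply, E.symm_apply_apply]
  have hMem : M ∈ Matrix.symplecticGroup (Fin m₂) K := by
    rw [H2.mem_symplecticGroup_iff]
    intro u v
    obtain ⟨x, rfl⟩ := E.surjective u
    obtain ⟨y, rfl⟩ := E.surjective v
    rw [hM, hM, hE, hE, hBV, hBV]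
    exact congrArg₂ (· + ·) (hinv x.1 y.1) rfl
  refine ⟨⟨M, hMem⟩, Subtype.ext ?_, ?_⟩
  · rw [SubmonoidClass.coe_pow]
    show (LinearMap.toMatrixAlgEquiv' (E.conj T)) ^ r = 1
    rw [← map_pow, show (E.conj T) = E.conjAlgEquiv K T from rfl, ← map_pow, hTr, map_one, map_one]
  · rw [charpoly_of_intertwine E T M hM, hTdef, charpoly_mov_prod a _ (N := 2 * m₂) (by
      rw [Module.finrank_fintype_fun_eq_card, Fintype.card_sum, Fintype.card_fin]; omega)]

/-- Parity criterion for self-duality over `σ = id`. -/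
theorem exists_pow_eq_neg_one_iff (hr : r.Prime) (hr2 : r ≠ 2) {x : ZMod r} (hx : 0 < orderOf x) :
    (∃ j : ℕ, x ^ j = -1) ↔ ¬ Odd (orderOf x) := by
  haveI := Fact.mk hr
  haveI : Fact (2 < r) := ⟨by have := hr.two_le; omega⟩
  constructor
  · rintro ⟨j, hj⟩ ho
    have h2 : orderOf x ∣ 2 * j := orderOf_dvd_of_pow_eq_one (by rw [mul_comm, pow_mul, hj]; ring)
    have h1 := orderOf_dvd_iff_pow_eq_one.1 ((Nat.coprime_two_right.2 ho).dvd_of_dvd_mul_left h2)
    exact ZMod.neg_one_ne_one (hj.symm.trans h1)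
  · intro he
    obtain ⟨c, hc⟩ := Nat.not_odd_iff_even.1 he
    refine ⟨c, (sq_eq_one_iff.1 ?_).resolve_left fun h => ?_⟩
    · rw [← pow_mul, mul_two, ← hc, pow_orderOf_eq_one]
    · have := Nat.le_of_dvd (by omega) (orderOf_dvd_of_pow_eq_one h)
      omega

theorem card_sp_prime_order_classes {m : ℕ} (hr : r.Prime) (hr2 : r ≠ 2) (hne : r ≠ p) {i t : ℕ}
    (hi : i = orderOf (Fintype.card K : ZMod r)) (ht : t * i = r - 1) :
    Nat.card {C : ConjClasses ↥(Matrix.symplecticGroup (Fin m) K) //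
        ∃ g : Matrix.symplecticGroup (Fin m) K, ConjClasses.mk g = C ∧ orderOf g = r} =
      if Odd i then (m / i + t / 2).choose (t / 2) - 1 else (2 * m / i + t).choose t - 1 := by
  classical
  have hrK := cast_ne_zero_of_prime_ne (K := K) hr hne
  have hσ : ∀ x, RingHom.id K x = x ^ p ^ 0 := fun x => by simp
  let ρ := (Matrix.symplecticGroup (Fin m) K).subtype.toHomUnits
  have hρ : ∀ g, ((ρ g : GL (Fin m ⊕ Fin m) K) : Matrix (Fin m ⊕ Fin m) (Fin m ⊕ Fin m) K) = g :=
    fun g => rfl
  have hN : Fintype.card (Fin m ⊕ Fin m) = 2 * m := by simp; omega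
  rw [card_order_classes ρ
    (fun g h e => Subtype.ext (congrArg (fun u : GL (Fin m ⊕ Fin m) K =>
      (u : Matrix (Fin m ⊕ Fin m) (Fin m ⊕ Fin m) K)) e)) hr hne
    (fun g h hg _ hc => (sp_isConj_iff_matrix (p := p) g h
      (hg ▸ (Nat.coprime_primes hr Fact.out).2 hne)).2
      (MonoidHom.map_isConj (Units.coeHom _) hc))
    (fun a : CycFac r K → ℕ => ∀ P, a (cycDual hrK hr hσ (fun _ => rfl) P) = a P)
    (fun g hg P => mult_dual_invariant hrK hr hσ (fun _ => rfl)
      (A := ρ g) (by rw [← map_pow, hg, map_one]) (by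
        rw [contraMat_eq, hρ, RingHom.coe_id, Matrix.map_id]
        have hg' := (g.2 : (g : Matrix _ _ K) ∈ Matrix.symplecticGroup (Fin m) K)
        rw [SymplecticGroup.mem_iff'] at hg'
        set M := (g : Matrix (Fin m ⊕ Fin m) (Fin m ⊕ Fin m) K)
        set J := Matrix.J (Fin m) K
        have hJ : IsUnit J.det := Matrix.isUnit_det_J (Fin m) K
        have hinvM : M.transpose⁻¹ = J * M * J⁻¹ := by
          refine Matrix.inv_eq_right_inv ?_
          rw [← mul_assoc, ← mul_assoc, hg', Matrix.mul_nonsing_inv _ hJ]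
        obtain ⟨U, hU⟩ := (Matrix.isUnit_iff_isUnit_det J).2 hJ
        show (M.transpose)⁻¹.charpoly = _
        rw [hinvM, ← hU, Matrix.charpoly_units_conj]) P)
    (fun a ha hT _ => by
      rw [hN] at ha ⊢
      exact exists_sp_polyOf hr hne hr2 hσ a hT ha)]
  rw [card_invariant_le _ (cycDual_cycDual hrK hr hσ (fun _ => rfl)) _ _
    (orderOf_card_pos hrK hr) (¬ Odd i) (fun P => by
      rw [Subtype.ext_iff]
      refine (dual_eq_self_iff hrK hr hσ (fun _ => rfl) P).trans ?_
      rw [pow_zero, Nat.cast_one, hi]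
      exact exists_pow_eq_neg_one_iff hr hr2 (orderOf_card_pos hrK hr)), ← hi,
    card_cycFac_eq hr hne hi ht, hN]
  split_ifs with h
  · rw [Nat.mul_div_mul_left _ _ two_pos]
  · rfl

end Cfsg.Agent.H67
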