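import Mathlib
import Cfsg.Agent.H67.SpOrderCount
import Cfsg.Agent.H67.OrthTypes

set_option autoImplicit false

/-!
# Orthogonal moved parts, their type, and realisation in orthogonal groups
-/

namespace Cfsg.Agent.H67

open Polynomial QuadraticMap Module

universe u

variable {K : Type u} [Field K] [Fintype K] {r p : ℕ} [Fact p.Prime] [CharP K p]

/-- The number of zeros is congruent to one, for a fixed-point-free isometry of prime order. -/
theorem zeros_modEq_one {V : Type*} [AddCommGroup V] [Module K V] [FiniteDimensional K V]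
    (hrp : r.Prime) (Q : QuadraticForm K V) (T : V ≃ₗ[K] V) (hTr : T ^ r = 1)
    (hT : ∀ v, Q (T v) = Q v) (hfix : ∀ v, T v = v → v = 0) :
    (Nat.card {v : V // Q v = 0} : ZMod r) = 1 := by
  classical
  haveI : Finite V := Module.finite_of_finite K
  haveI := Fintype.ofFinite {v : V // Q v = 0}
  haveI := Fact.mk hrp
  let f : Function.End {v : V // Q v = 0} := fun v => ⟨T v.1, by rw [hT]; exact v.2⟩
  have hpow : ∀ j (v : {v : V // Q v = 0}), ((f ^ j) v).1 = (T ^ j) v.1 := by
    intro j
    induction j with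
    | zero => intro v; simp; rfl
    | succ j ih =>
      intro v
      rw [pow_succ', pow_succ', LinearEquiv.mul_apply, ← ih]
      rfl
  have hf : f ^ r ^ 1 = 1 := by
    funext v
    apply Subtype.ext
    rw [pow_one, hpow, hTr]
    rfl
  have h := Equiv.Perm.card_fixedPoints_modEq hf
  haveI : Unique (Function.fixedPoints f) :=
    ⟨⟨⟨⟨0, map_zero Q⟩, Subtype.ext (map_zero T)⟩⟩,
      fun v => Subtype.ext (Subtype.ext (hfix _ (congrArg Subtype.val v.2)))⟩
  rw [← ZMod.natCast_eq_natCast_iff] at h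
  have hc : Fintype.card (Function.fixedPoints f) = 1 :=
    Fintype.card_eq_one_iff_nonempty_unique.2 ⟨inferInstance⟩
  rw [Nat.card_eq_fintype_card, h, ← Nat.cast_one (R := ZMod r)]
  exact congrArg _ hc

/-- The type of a space with a fixed-point-free isometry of order `r`, through the sign of `q ^ l`. -/
theorem hasSing_iff_of_fpf {V : Type u} [AddCommGroup V] [Module K V] [FiniteDimensional K V]
    (hrp : r.Prime) (hr2 : r ≠ 2) (Q : QuadraticForm K V) (hQ : (polarBilin Q).Nondegenerate)
    {l : ℕ} (hV : finrank K V = 2 * l) (T : V ≃ₗ[K] V) (hTr : T ^ r = 1)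
    (hT : ∀ v, Q (T v) = Q v) (hfix : ∀ v, T v = v → v = 0)
    (hx1 : (Fintype.card K : ZMod r) ≠ 1) :
    ((Fintype.card K : ZMod r) ^ l = 1 → HasSing Q l) ∧
      ((Fintype.card K : ZMod r) ^ l = -1 → ¬ HasSing Q l) := by
  haveI := Fact.mk hrp
  haveI : Fact (2 < r) := ⟨by have := hrp.two_le; omega⟩
  have hZ := zeros_modEq_one hrp Q T hTr hT hfix
  set x : ZMod r := (Fintype.card K : ZMod r) with hx
  constructor
  · intro hxl
    by_contra hs
    obtain ⟨hl, ζ, hζ, g, hg⟩ := exists_isom_qMinus hQ hV hs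
    obtain ⟨j, rfl⟩ : ∃ j, l = j + 1 := ⟨l - 1, by omega⟩
    have e : {v : V // Q v = 0} ≃
        {v : (Fin j ⊕ Fin j) ⊕ Fin 2 → K // Cfsg.quadFormMinus j K 1 ζ v = 0} :=
      g.toEquiv.subtypeEquiv fun v => by
        rw [← H4.coe_qMinus]
        show _ ↔ H4.qMinus (j + 1 - 1) K 1 ζ (g v) = 0
        rw [hg]
    rw [Nat.card_congr e] at hZ
    have h := congrArg (fun z : ℤ => (z : ZMod r)) (H4.card_qMinus_zeros j 1 ζ (aniso_of_one hζ))
    simp only [Int.cast_natCast, Int.cast_add, Int.cast_sub, Int.cast_pow, hZ, ← hx] at h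
    have h2 : (2 : ZMod r) * (x - 1) = 0 := by
      rw [pow_succ] at hxl
      simp only [two_mul, pow_succ, pow_add] at h
      linear_combination (x : ZMod r) * h + (x ^ j * x + 2 - x) * hxl
    rcases mul_eq_zero.1 h2 with h3 | h3
    · exact ZMod.neg_one_ne_one (by linear_combination -h3 : (-1 : ZMod r) = 1)
    · exact hx1 (sub_eq_zero.1 h3)
  · rintro hxl ⟨W, hW, hWl⟩
    obtain ⟨g, hg⟩ := H4.isom_qPlus_of_singular hQ hV W hW hWl
    have e : {v : V // Q v = 0} ≃ {v : Fin l ⊕ Fin l → K // Cfsg.quadFormPlus l K v = 0} :=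
      g.toEquiv.subtypeEquiv fun v => by
        rw [← H4.coe_qPlus]
        show _ ↔ H4.qPlus l K (g v) = 0
        rw [hg]
    rw [Nat.card_congr e] at hZ
    have h := congrArg (fun z : ℤ => (z : ZMod r)) (H4.card_qPlus_zeros (F := K) l)
    simp only [Int.cast_mul, Int.cast_natCast, Int.cast_add, Int.cast_sub, Int.cast_pow, hZ,
      ← hx] at h
    have h2 : (2 : ZMod r) * (x - 1) = 0 := by
      simp only [two_mul, pow_succ, pow_add] at h
      linear_combination h + (x ^ l + x - 2) * hxl
    rcases mul_eq_zero.1 h2 with h3 | h3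
    · exact ZMod.neg_one_ne_one (by linear_combination -h3 : (-1 : ZMod r) = 1)
    · exact hx1 (sub_eq_zero.1 h3)

/-- The predicted type of the moved part. -/
def mvPlus (a : CycFac r K → ℕ) : Prop :=
  Odd (orderOf (Fintype.card K : ZMod r)) ∨ Even (∑ P, a P)

theorem hσ_id : ∀ x : K, RingHom.id K x = x ^ p ^ 0 := fun x => by simp

/-- The duality on factors for `σ = id`. -/
noncomputable abbrev dualId (hrp : r.Prime) (hne : r ≠ p) : CycFac r K → CycFac r K :=
  cycDual (cast_ne_zero_of_prime_ne (K := K) hrp hne) hrp hσ_id (fun _ => rfl)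

theorem dualId_eq_self_iff (hrp : r.Prime) (hne : r ≠ p) (hr2 : r ≠ 2) (P : CycFac r K) :
    dualId hrp hne P = P ↔ ¬ Odd (orderOf (Fintype.card K : ZMod r)) := by
  have hr := cast_ne_zero_of_prime_ne (K := K) hrp hne
  rw [Subtype.ext_iff]
  refine (dual_eq_self_iff hr hrp hσ_id (fun _ => rfl) P).trans ?_
  rw [pow_zero, Nat.cast_one]
  exact exists_pow_eq_neg_one_iff hrp hr2 (orderOf_card_pos hr hrp)

/-- Self-dual multiplicities give an even dimension. -/
theorem even_mov_dim (hrp : r.Prime) (hne : r ≠ p) (hr2 : r ≠ 2) {a : CycFac r K → ℕ}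
    (ha : ∀ P, a (dualId hrp hne P) = a P) :
    Even (orderOf (Fintype.card K : ZMod r) * ∑ P, a P) := by
  classical
  by_cases hd : Odd (orderOf (Fintype.card K : ZMod r))
  · refine Even.mul_left ?_ _
    obtain ⟨R, hR, -⟩ := exists_reps (dualId (K := K) hrp hne)
      (cycDual_cycDual _ _ _ _) fun P h => (dualId_eq_self_iff hrp hne hr2 P).1 h hd
    refine ⟨∑ x : {x // R x}, a x, ?_⟩
    rw [← Fintype.sum_subtype_add_sum_subtype R a]
    congr 1
    exact Fintype.sum_equiv (Equiv.subtypeEquiv ⟨dualId hrp hne, dualId hrp hne,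
      cycDual_cycDual _ _ _ _, cycDual_cycDual _ _ _ _⟩ fun x => (hR x).symm)
      (fun x : {x // ¬ R x} => a x) (fun x : {x // R x} => a x) fun x => (ha x).symm
  · exact (Nat.not_odd_iff_even.1 hd).mul_right _

/-- The orthogonal moved part. -/
theorem exists_moved_orth (hrp : r.Prime) (hne : r ≠ p) (hr2 : r ≠ 2) (a : CycFac r K → ℕ)
    (ha : ∀ P, a (dualId hrp hne P) = a P) :
    ∃ (Q : QuadraticForm K (MovMod a)) (T : MovMod a ≃ₗ[K] MovMod a),
      (polarBilin Q).Nondegenerate ∧ T.toLinearMap = movT a ∧ T ^ r = 1 ∧ (∀ v, Q (T v) = Q v) ∧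
      (∀ v, T v = v → v = 0) ∧
      ∀ l, orderOf (Fintype.card K : ZMod r) * ∑ P, a P = 2 * l → (HasSing Q l ↔ mvPlus a) := by
  classical
  have hr := cast_ne_zero_of_prime_ne (K := K) hrp hne
  haveI := finiteDimensional_movMod a
  obtain ⟨π, B, Q0, hπ, hB, hsymm, -, hQc, hQT, hQB, hQadd, hQ0⟩ :=
    exists_moved_form hr hrp hr2 hσ_id a ha 1 (one_mul 1)
  let Q : QuadraticForm K (MovMod a) :=
    ⟨Q0, fun c u => by rw [hQc, smul_eq_mul], B, hQadd rfl⟩
  have hQB' : polarBilin Q = B := by
    refine LinearMap.ext₂ fun u v => ?_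
    show Q0 (u + v) - Q0 u - Q0 v = B u v
    rw [hQadd rfl]; ring
  have hTr : (movT a : Module.End K (MovMod a)) ^ r = 1 := movT_pow hrp a
  have hinj : Function.Injective (movT a) := fun u v h => by
    have hs := congrArg ((movT a ^ (r - 1) : Module.End K (MovMod a))) h
    rwa [← Module.End.mul_apply, ← Module.End.mul_apply, ← pow_succ,
      Nat.sub_add_cancel hrp.one_le, hTr] at hs
  let T : MovMod a ≃ₗ[K] MovMod a := LinearEquiv.ofInjectiveEndo _ hinj
  have hTc : T.toLinearMap = movT a := LinearMap.ext fun _ => rfl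
  have hTpow : ∀ j v, (T ^ j) v = (movT a ^ j) v := by
    intro j
    induction j with
    | zero => intro v; rfl
    | succ j ih =>
      intro v
      rw [pow_succ', pow_succ', LinearEquiv.mul_apply, Module.End.mul_apply, ih]; rfl
  have hTr' : T ^ r = 1 := LinearEquiv.ext fun v => by rw [hTpow, hTr]; rfl
  have hfix : ∀ v, T v = v → v = 0 := by
    intro v hv
    funext x
    obtain ⟨f, hf⟩ := Ideal.Quotient.mk_surjective (v x)
    have h1 : Ideal.Quotient.mk (Ideal.span {x.1.1 ^ 1}) (X * f) = Ideal.Quotient.mk _ f := by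
      have h2 := congrFun hv x
      have h3 : ((X : K[X]) • v) x = (X : K[X]) • v x := rfl
      rw [show T v x = ((X : K[X]) • v) x from rfl, h3, ← hf] at h2
      exact h2
    rw [← hf]
    rw [Ideal.Quotient.mk_eq_mk_iff_sub_mem, Ideal.mem_span_singleton, pow_one,
      show X * f - f = (X - 1) * f by ring] at h1
    rw [Pi.zero_apply, Ideal.Quotient.eq_zero_iff_dvd, pow_one]
    refine ((x.1.irreducible.prime).dvd_mul.1 h1).resolve_left fun h4 => ?_
    rw [← C_1] at h4
    exact x.1.ne_X_sub_one hr hrp (eq_of_monic_of_associated x.1.monic (monic_X_sub_C 1)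
      (x.1.irreducible.associated_of_dvd (irreducible_X_sub_C 1) h4))
  refine ⟨Q, T, hQB'.symm ▸ hB, hTc, hTr', fun v => hQT v, hfix, fun l hl => ?_⟩
  have hfr : finrank K (MovMod a) = 2 * l := by rw [finrank_movMod hr hrp, hl]
  set d := orderOf (Fintype.card K : ZMod r)
  by_cases hd : Odd d
  · refine iff_of_true ?_ (Or.inl hd)
    obtain ⟨R, hR, -⟩ := exists_reps (dualId (K := K) hrp hne)
      (cycDual_cycDual _ _ _ _) fun P h => (dualId_eq_self_iff hrp hne hr2 P).1 h hd
    let U : (CycFac r K → Prop) → Submodule K (MovMod a) := fun S =>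
      { carrier := {u | ∀ x : MovIdx a, ¬ S x.1 → u x = 0}
        add_mem' := fun {u v} hu hv x hx => by rw [Pi.add_apply, hu x hx, hv x hx, add_zero]
        zero_mem' := fun x _ => rfl
        smul_mem' := fun c u hu x hx => by rw [Pi.smul_apply, hu x hx, smul_zero] }
    have hsing : ∀ S : CycFac r K → Prop, (∀ P, S (dualId hrp hne P) → ¬ S P) →
        ∀ u ∈ U S, Q u = 0 := fun S hS u hu => hQ0 u fun x => by
      by_cases h : S x.1
      · exact Or.inr (hu (π x) (by rw [hπ]; exact fun h' => hS _ h' h))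
      · exact Or.inl (hu x h)
    have hsup : U R ⊔ U (fun P => ¬ R P) = ⊤ := by
      rw [eq_top_iff]
      intro u _
      refine Submodule.mem_sup.2 ⟨fun x => if R x.1 then u x else 0, fun x hx => if_neg hx,
        fun x => if R x.1 then 0 else u x, fun x hx => if_pos (not_not.1 hx), ?_⟩
      funext x
      rw [Pi.add_apply]
      split_ifs <;> simp
    have h1 := hsing R fun P h => (hR P).1 h
    have h2 := hsing (fun P => ¬ R P) fun P h h' => h ((hR P).2 h')
    have hle : ∀ W : Submodule K (MovMod a), (∀ w ∈ W, Q w = 0) → finrank K W ≤ l := by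
      intro W hW
      have h3 : W ≤ H4.perp Q W := fun x hx =>
        H4.mem_perp.2 fun z hz => H4.polar_eq_zero_of_singular hW hz hx
      have h4 := Submodule.finrank_mono h3
      rw [H4.finrank_perp (hQB'.symm ▸ hB), hfr] at h4
      omega
    refine ⟨U R, h1, le_antisymm (hle _ h1) ?_⟩
    have h5 := Submodule.finrank_add_le_finrank_add_finrank (U R) (U fun P => ¬ R P)
    rw [hsup, finrank_top, hfr] at h5
    have := hle _ h2
    omega
  · haveI := Fact.mk hrp
    haveI : Fact (2 < r) := ⟨by have := hrp.two_le; omega⟩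
    obtain ⟨c, hc⟩ := Nat.not_odd_iff_even.1 hd
    have hdpos := orderOf_card_pos (K := K) hr hrp
    have hx1 : (Fintype.card K : ZMod r) ≠ 1 := fun h => hd (by
      have : d = 1 := by rw [show d = orderOf (Fintype.card K : ZMod r) from rfl, h, orderOf_one]
      rw [this]; exact odd_one)
    have hxc : (Fintype.card K : ZMod r) ^ c = -1 := by
      refine (sq_eq_one_iff.1 ?_).resolve_left fun h => ?_
      · rw [← pow_mul, mul_two, ← hc, show d = orderOf (Fintype.card K : ZMod r) from rfl,
          pow_orderOf_eq_one]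
      · have := Nat.le_of_dvd (by omega) (orderOf_dvd_of_pow_eq_one h)
        omega
    have hlc : l = c * ∑ P, a P := by
      rw [hc, add_mul] at hl
      omega
    have key := hasSing_iff_of_fpf hrp hr2 Q (hQB'.symm ▸ hB) hfr T hTr' (fun v => hQT v) hfix hx1
    rw [hlc, pow_mul, hxc] at key
    rw [hlc]
    constructor
    · intro hs
      rcases Nat.even_or_odd (∑ P, a P) with he | ho
      · exact Or.inr he
      · exact absurd hs (key.2 ho.neg_one_pow)
    · rintro (h | h)
      · exact absurd h hd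
      · exact key.1 h.neg_one_pow

/-- Realisation from an isometry (up to a scalar) of moved part plus complement. -/
theorem exists_orth_of_isom (hr : (r : K) ≠ 0) (hrp : r.Prime) {I : Type} [Fintype I] [DecidableEq I]
    (Qt : QuadraticForm K (I → K)) {a : CycFac r K → ℕ} {Q1 : QuadraticForm K (MovMod a)}
    {T : MovMod a ≃ₗ[K] MovMod a} (hT : T.toLinearMap = movT a) (hQT : ∀ v, Q1 (T v) = Q1 v)
    {W : Type u} [AddCommGroup W] [Module K W] [FiniteDimensional K W] (QW : QuadraticForm K W)
    {c : K} (hc : c ≠ 0) (g : (MovMod a × W) ≃ₗ[K] (I → K))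
    (hg : ∀ v, c * Qt (g v) = (Q1.prod QW) v) :
    ∃ A : ↥(Cfsg.isometryGroup K ⇑Qt), A ^ r = 1 ∧
      ((A : GL I K) : Matrix I I K).charpoly = polyOf (Fintype.card I) a := by
  haveI := finiteDimensional_movMod a
  set S : Module.End K (MovMod a × W) := LinearMap.prodMap (movT a) LinearMap.id with hSdef
  have hSr : S ^ r = 1 := LinearMap.ext fun x => by
    rw [hSdef, prodMap_one_pow_apply, movT_pow hrp]; rfl
  let M : Matrix I I K := LinearMap.toMatrix' (g.conj S)
  have hM : ∀ v, M.mulVec (g v) = g (S v) := fun v => by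
    rw [LinearMap.toMatrix'_mulVec, LinearEquiv.conj_apply_apply, g.symm_apply_apply]
  have hMr : M ^ r = 1 := by
    show (LinearMap.toMatrixAlgEquiv' (g.conj S)) ^ r = 1
    rw [← map_pow, show (g.conj S) = g.conjAlgEquiv K S from rfl, ← map_pow, hSr, map_one, map_one]
  let G : GL I K := Units.ofPowEqOne M r hMr hrp.ne_zero
  have hG : G ∈ Cfsg.isometryGroup K ⇑Qt := by
    intro u _
    obtain ⟨x, rfl⟩ := g.surjective u
    show Qt (M.mulVec (g x)) = Qt (g x)
    refine mul_left_cancel₀ hc ?_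
    rw [hM, hg, hg, QuadraticMap.prod_apply, QuadraticMap.prod_apply]
    show Q1 (movT a x.1) + QW x.2 = Q1 x.1 + QW x.2
    rw [← hT, show T.toLinearMap x.1 = T x.1 from rfl, hQT]
  refine ⟨⟨G, hG⟩, Subtype.ext (Units.ext hMr), ?_⟩
  have hdim := LinearEquiv.finrank_eq g
  rw [finrank_fintype_fun_eq_card, finrank_prod] at hdim
  show M.charpoly = _
  rw [charpoly_of_intertwine g S M hM, hSdef]
  refine charpoly_mov_prod a W ?_
  rw [← hdim, finrank_movMod hr hrp]

end Cfsg.Agent.H67
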