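import Mathlib

set_option autoImplicit false

namespace Cfsg.Agent.H67

open Polynomial

variable {K V : Type*} [Field K] [IsAlgClosed K] [AddCommGroup V] [Module K V]

/-- An injective `q`-semilinear map of a non-zero finite-dimensional space over an algebraically closed
field has a non-zero fixed vector. -/
theorem exists_fixed_semilinear {φ : K →+* K} (q : ℕ) (hq : 2 ≤ q) (hφ : ∀ x, φ x = x ^ q)
    [FiniteDimensional K V] [Nontrivial V] (T : V →ₛₗ[φ] V) (hT : Function.Injective T) :
    ∃ v : V, v ≠ 0 ∧ T v = v := by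
  classical
  obtain ⟨v, hv⟩ := exists_ne (0 : V)
  set s : ℕ → V := fun i => (⇑T)^[i] v with hs
  have hsucc : ∀ i, T (s i) = s (i + 1) := fun i => (Function.iterate_succ_apply' (⇑T) i v).symm
  have hdep : ∃ m, ¬ LinearIndependent K (fun i : Fin (m + 1) => s i) := by
    refine ⟨Module.finrank K V, fun h => ?_⟩
    have := h.fintype_card_le_finrank
    simp at this
  set m := Nat.find hdep with hm
  have hmdep : ¬ LinearIndependent K (fun i : Fin (m + 1) => s i) := Nat.find_spec hdep
  have hmpos : 0 < m := by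
    by_contra h
    simp only [not_lt, Nat.le_zero] at h
    apply hmdep
    rw [h]
    exact LinearIndependent.of_subsingleton (ι := Fin 1) 0 (by simpa [hs] using hv)
  obtain ⟨n, hn⟩ : ∃ n, m = n + 1 := ⟨m - 1, by omega⟩
  rw [hn] at hmdep
  have hind : LinearIndependent K (fun i : Fin (n + 1) => s i) := by
    have := Nat.find_min hdep (m := n) (by omega)
    simpa using this
  have hmem : s (n + 1) ∈ Submodule.span K (Set.range (fun i : Fin (n + 1) => s i)) := by
    by_contra h
    apply hmdep
    rw [linearIndependent_fin_succ']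
    exact ⟨hind, h⟩
  obtain ⟨c, hc⟩ := (Submodule.mem_span_range_iff_exists_fun K).1 hmem
  set a : ℕ → K := fun i => if h : i < n + 1 then c ⟨i, h⟩ else 0 with ha
  have hsum : ∑ i ∈ Finset.range (n + 1), a i • s i = s (n + 1) := by
    rw [← hc, ← Fin.sum_univ_eq_sum_range]
    exact Finset.sum_congr rfl fun i _ => by simp only [ha]; rw [dif_pos i.isLt]
  have hroot : ∀ x : K, ∃ y, y ^ q = x := fun x => IsAlgClosed.exists_pow_nat_eq x (by omega)
  have ha0 : a 0 ≠ 0 := by
    intro h0
    rw [Finset.sum_range_succ', h0, zero_smul, add_zero] at hsum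
    choose r hr using hroot
    have h1 : T (∑ i ∈ Finset.range n, r (a (i + 1)) • s i) = T (s n) := by
      rw [map_sum, hsucc, ← hsum]
      exact Finset.sum_congr rfl fun i _ => by rw [LinearMap.map_smulₛₗ, hφ, hr, hsucc]
    have h2 := hT h1
    have h3 := Fintype.linearIndependent_iff.1 hind
      (fun i => (if (i : ℕ) = n then -1 else r (a (i + 1)))) ?_ ⟨n, by omega⟩
    · simp at h3
    · rw [Fin.sum_univ_eq_sum_range (fun i => (if i = n then (-1 : K) else r (a (i + 1))) • s i),
        Finset.sum_range_succ, if_pos rfl, neg_one_smul]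
      rw [← sub_eq_add_neg, sub_eq_zero, ← h2]
      exact Finset.sum_congr rfl fun i hi => by rw [if_neg (by simp at hi; omega)]
  let P : ℕ → K[X] := fun i => Nat.rec (C (a 0) * X) (fun j Pj => Pj ^ q + C (a (j + 1)) * X) i
  have hP0 : P 0 = C (a 0) * X := rfl
  have hPs : ∀ j, P (j + 1) = P j ^ q + C (a (j + 1)) * X := fun j => rfl
  have hdeg : ∀ i, (P i).natDegree = q ^ i := by
    intro i
    induction i with
    | zero => rw [hP0, pow_zero]; exact natDegree_C_mul_X _ ha0
    | succ j ih =>
      have h2 : (P j ^ q).natDegree = q ^ (j + 1) := by rw [natDegree_pow, ih, pow_succ, mul_comm]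
      have h1 : (C (a (j + 1)) * X).natDegree ≤ 1 :=
        le_trans (natDegree_mul_le) (by simp [natDegree_X])
      have h3 : 1 < q ^ (j + 1) := Nat.one_lt_pow (by omega) (by omega)
      rw [hPs, natDegree_add_eq_left_of_natDegree_lt (by omega), h2]
  have hdvd : ∀ i, X ∣ P i := by
    intro i
    induction i with
    | zero => exact Dvd.intro_left _ rfl
    | succ j ih => rw [hPs]; exact dvd_add (dvd_pow ih (by omega)) (Dvd.intro_left _ rfl)
  obtain ⟨R, hR⟩ := hdvd n
  set S : K[X] := X ^ (q - 1) * R ^ q - 1 with hS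
  have hRne : R ≠ 0 := by
    intro h
    have := hdeg n
    rw [hR, h, mul_zero, natDegree_zero] at this
    exact absurd this.symm (pow_ne_zero _ (by omega))
  have hSdeg : 0 < S.natDegree := by
    rw [hS, natDegree_sub_eq_left_of_natDegree_lt]
    all_goals
      rw [natDegree_mul (pow_ne_zero _ X_ne_zero) (pow_ne_zero _ hRne), natDegree_X_pow]
    · omega
    · simp only [natDegree_one]; omega
  obtain ⟨z, hz⟩ := IsAlgClosed.exists_root S (fun h => by
    have := natDegree_eq_of_degree_eq_some (n := 0) (by exact_mod_cast h); omega)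
  have hz' : z ^ (q - 1) * R.eval z ^ q = 1 := by
    simpa [hS, Polynomial.IsRoot.def, sub_eq_zero] using hz
  have hz0 : z ≠ 0 := by
    intro h
    rw [h, zero_pow (by omega), zero_mul] at hz'
    exact zero_ne_one hz'
  have hzP : (P n).eval z ^ q = z := by
    rw [hR, eval_mul, eval_X, mul_pow]
    calc z ^ q * R.eval z ^ q = z * (z ^ (q - 1) * R.eval z ^ q) := by
          rw [← mul_assoc, ← pow_succ', Nat.sub_add_cancel (by omega)]
      _ = z := by rw [hz', mul_one]
  refine ⟨∑ i ∈ Finset.range (n + 1), (P i).eval z • s i, ?_, ?_⟩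
  · intro h
    rw [← Fin.sum_univ_eq_sum_range (fun i => (P i).eval z • s i)] at h
    have := Fintype.linearIndependent_iff.1 hind (fun i => (P i).eval z) h ⟨n, by omega⟩
    simp only at this
    rw [this, zero_pow (by omega)] at hzP
    exact hz0 hzP.symm
  · rw [map_sum]
    simp only [LinearMap.map_smulₛₗ, hφ, hsucc]
    rw [Finset.sum_range_succ, hzP, ← hsum, Finset.smul_sum, Finset.sum_range_succ' (fun i => z • a i • s i),
      ← add_assoc, ← Finset.sum_add_distrib, Finset.sum_range_succ' (fun i => (P i).eval z • s i)]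
    congr 1
    · refine Finset.sum_congr rfl fun i _ => ?_
      rw [hPs, eval_add, eval_pow, eval_mul, eval_C, eval_X, add_smul, smul_smul, mul_comm z]
    · rw [hP0, eval_mul, eval_C, eval_X, smul_smul, mul_comm]

/-- Fixed vectors of an injective `q`-semilinear map span the space. -/
theorem span_fixed_semilinear {φ : K →+* K} (q : ℕ) (hq : 2 ≤ q) (hφ : ∀ x, φ x = x ^ q)
    [FiniteDimensional K V] (T : V →ₛₗ[φ] V) (hT : Function.Injective T) :
    Submodule.span K {v : V | T v = v} = ⊤ := by
  classical
  set W := Submodule.span K {v : V | T v = v} with hW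
  by_contra hne
  have hroot : ∀ x : K, ∃ y, y ^ q = x := fun x => IsAlgClosed.exists_pow_nat_eq x (by omega)
  have hfix : ∀ w, T w = w → w ∈ W := fun w hw => Submodule.subset_span hw
  have hWT : W ≤ W.comap T := by
    rw [hW, Submodule.span_le]
    intro w hw
    show T w ∈ W
    rw [Set.mem_setOf_eq] at hw
    rw [hw]
    exact hfix w hw
  have hpre : ∀ w ∈ W, ∃ u ∈ W, T u = w := by
    intro w hw
    induction hw using Submodule.span_induction with
    | mem x hx => exact ⟨x, hfix x hx, hx⟩
    | zero => exact ⟨0, W.zero_mem, map_zero _⟩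
    | add x y _ _ hx hy =>
      obtain ⟨u, hu, rfl⟩ := hx
      obtain ⟨u', hu', rfl⟩ := hy
      exact ⟨u + u', W.add_mem hu hu', map_add _ _ _⟩
    | smul c x _ hx =>
      obtain ⟨u, hu, rfl⟩ := hx
      obtain ⟨r, hr⟩ := hroot c
      exact ⟨r • u, W.smul_mem r hu, by rw [LinearMap.map_smulₛₗ, hφ, hr]⟩
  have hex : ∀ d : K, ∃ z : K, z ^ q - z = d := by
    intro d
    obtain ⟨z, hz⟩ := IsAlgClosed.exists_root (X ^ q - X - C d : K[X]) (by
      have : (X ^ q - X - C d : K[X]).natDegree = q := by
        rw [sub_sub, natDegree_sub_eq_left_of_natDegree_lt]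
        · simp
        · rw [natDegree_X_pow]
          exact lt_of_le_of_lt (natDegree_add_le _ _) (by simp; omega)
      intro h
      have := natDegree_eq_of_degree_eq_some (n := 0) (by exact_mod_cast h); omega)
    exact ⟨z, by simpa [sub_eq_zero] using hz⟩
  have hsol : ∀ w ∈ W, ∃ u ∈ W, T u - u = w := by
    intro w hw
    obtain ⟨k, f, g, rfl⟩ := Submodule.mem_span_set'.1 hw
    choose z hz using hex
    refine ⟨∑ i, z (f i) • (g i : V), W.sum_mem fun i _ => W.smul_mem _ (hfix _ (g i).2), ?_⟩
    rw [map_sum, ← Finset.sum_sub_distrib]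
    refine Finset.sum_congr rfl fun i _ => ?_
    rw [LinearMap.map_smulₛₗ, hφ, show T (g i : V) = g i from (g i).2, ← sub_smul, hz]
  haveI : Nontrivial (V ⧸ W) := Submodule.Quotient.nontrivial_iff.2 hne
  have hTb : Function.Injective (W.mapQ W T hWT) := by
    rw [injective_iff_map_eq_zero]
    intro x
    induction x using Submodule.Quotient.induction_on with
    | H u =>
      intro hu
      rw [Submodule.mapQ_apply, Submodule.Quotient.mk_eq_zero] at hu
      obtain ⟨u', hu', he⟩ := hpre _ hu
      rw [Submodule.Quotient.mk_eq_zero, ← hT he]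
      exact hu'
  obtain ⟨x, hx0, hx⟩ := exists_fixed_semilinear q hq hφ (W.mapQ W T hWT) hTb
  induction x using Submodule.Quotient.induction_on with
  | H u =>
    rw [Submodule.mapQ_apply, Submodule.Quotient.eq] at hx
    obtain ⟨w, hw, hwe⟩ := hsol _ hx
    apply hx0
    rw [Submodule.Quotient.mk_eq_zero]
    have h : T (u - w) = u - w := by
      rw [map_sub, sub_eq_sub_iff_sub_eq_sub]; exact hwe.symm
    simpa using W.add_mem (hfix _ h) hw

end Cfsg.Agent.H67
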