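import Mathlib

set_option autoImplicit false

/-!
# Monomial matrices and elements with scalar `r`-th power
-/

namespace Cfsg.Agent.H67

open Polynomial UniqueFactorizationMonoid

variable {K : Type*} [Field K] {n : ℕ}

/-- The matrix of `v ↦ fun i => w i * v (e i)`. -/
def monoMat (e : Equiv.Perm (Fin n)) (w : Fin n → Kˣ) : Matrix (Fin n) (Fin n) K :=
  fun i j => if e i = j then (w i : K) else 0

theorem monoMat_mulVec (e : Equiv.Perm (Fin n)) (w : Fin n → Kˣ) (v : Fin n → K) :
    (monoMat e w).mulVec v = fun i => (w i : K) * v (e i) := by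
  funext i
  simp [monoMat, Matrix.mulVec, dotProduct, ite_mul]

theorem monoMat_mul (e f : Equiv.Perm (Fin n)) (w u : Fin n → Kˣ) :
    monoMat e w * monoMat f u = monoMat (e.trans f) (fun i => w i * u (e i)) := by
  refine Matrix.ext_iff_mulVec.2 fun v => ?_
  rw [← Matrix.mulVec_mulVec, monoMat_mulVec, monoMat_mulVec, monoMat_mulVec]
  funext i
  simp [mul_assoc]

theorem monoMat_one : monoMat (Equiv.refl (Fin n)) (fun _ => (1 : Kˣ)) = 1 := by
  refine Matrix.ext_iff_mulVec.2 fun v => ?_
  rw [monoMat_mulVec, Matrix.one_mulVec]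
  simp

/-- A monomial element of `GL`. -/
def mono (e : Equiv.Perm (Fin n)) (w : Fin n → Kˣ) : GL (Fin n) K :=
  ⟨monoMat e w, monoMat e.symm (fun i => (w (e.symm i))⁻¹),
    by rw [monoMat_mul, ← monoMat_one]; congr 1 <;> simp,
    by rw [monoMat_mul, ← monoMat_one]; congr 1 <;> simp⟩

theorem mono_mulVec (e : Equiv.Perm (Fin n)) (w : Fin n → Kˣ) (v : Fin n → K) :
    (mono e w : Matrix (Fin n) (Fin n) K).mulVec v = fun i => (w i : K) * v (e i) :=
  monoMat_mulVec e w v

/-- A scalar element of `GL`. -/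
def scalGL (n : ℕ) (l : Kˣ) : GL (Fin n) K := mono (Equiv.refl _) fun _ => l

theorem scalGL_val (l : Kˣ) : (scalGL n l : Matrix (Fin n) (Fin n) K) = (l : K) • 1 := by
  refine Matrix.ext_iff_mulVec.2 fun v => ?_
  rw [scalGL, mono_mulVec, Matrix.smul_mulVec, Matrix.one_mulVec]
  rfl

theorem scalGL_one : scalGL n (1 : Kˣ) = 1 := Units.ext (by simp [scalGL_val])

theorem scalGL_mul (a b : Kˣ) : scalGL n (a * b) = scalGL n a * scalGL n b :=
  Units.ext (by simp [scalGL_val, smul_smul, mul_comm])

theorem scalGL_pow (a : Kˣ) (j : ℕ) : scalGL n (a ^ j) = scalGL n a ^ j := by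
  induction j with
  | zero => simp [scalGL_one]
  | succ j ih => rw [pow_succ, scalGL_mul, ih, pow_succ]

theorem scalGL_commute (l : Kˣ) (g : GL (Fin n) K) : Commute (scalGL n l) g :=
  Units.ext (by simp [scalGL_val])

theorem scalGL_injective (hn : 0 < n) : Function.Injective (scalGL n (K := K)) := by
  intro a b h
  have := congrArg (fun g : GL (Fin n) K => (g : Matrix (Fin n) (Fin n) K) ⟨0, hn⟩ ⟨0, hn⟩) h
  simp [scalGL_val] at this
  exact Units.ext this

theorem mono_pow_mulVec (e : Equiv.Perm (Fin n)) (w : Fin n → Kˣ) (j : ℕ) (v : Fin n → K) (i : Fin n) :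
    ((mono e w ^ j : GL (Fin n) K) : Matrix (Fin n) (Fin n) K).mulVec v i =
      (∏ s ∈ Finset.range j, (w ((e ^ s) i) : K)) * v ((e ^ j) i) := by
  induction j generalizing i with
  | zero => simp
  | succ j ih =>
    rw [pow_succ', Units.val_mul, ← Matrix.mulVec_mulVec, mono_mulVec]
    simp only [ih, Finset.prod_range_succ', ← mul_assoc]
    simp only [pow_succ, Equiv.Perm.mul_apply, pow_zero, Equiv.Perm.one_apply]
    ring

/-- A monomial element whose `r`-th power is the scalar `c`. -/
theorem exists_mono_pow_eq {r : ℕ} (hr : 0 < r) (hn : r ∣ n) (c : Kˣ) (Λ : Subgroup Kˣ) (hc : c ∈ Λ) :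
    ∃ (e : Equiv.Perm (Fin n)) (w : Fin n → Kˣ), (∀ i, w i ∈ Λ) ∧ mono e w ^ r = scalGL n c := by
  classical
  obtain ⟨k, rfl⟩ := hn
  haveI : NeZero r := ⟨hr.ne'⟩
  let σ : Fin (r * k) ≃ Fin k × ZMod r := Fintype.equivOfCardEq (by simp [ZMod.card, mul_comm])
  let sh : Equiv.Perm (Fin k × ZMod r) := (Equiv.refl _).prodCongr (Equiv.addRight 1)
  let e : Equiv.Perm (Fin (r * k)) := (σ.trans sh).trans σ.symm
  let w : Fin (r * k) → Kˣ := fun i => if (σ i).2 = 0 then c else 1
  have hpow : ∀ (s : ℕ) i, σ ((e ^ s) i) = ((σ i).1, (σ i).2 + s) := by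
    intro s
    induction s with
    | zero => intro i; simp
    | succ s ih =>
      intro i
      rw [pow_succ', Equiv.Perm.mul_apply, Equiv.trans_apply, Equiv.trans_apply, σ.apply_symm_apply,
        ih]
      show ((σ i).1, (σ i).2 + (s : ZMod r) + 1) = _
      push_cast
      ring_nf
  refine ⟨e, w, fun i => by simp only [w]; split_ifs <;> [exact hc; exact one_mem Λ],
    Units.ext (Matrix.ext_iff_mulVec.2 fun v => funext fun i => ?_)⟩
  rw [mono_pow_mulVec, scalGL_val, Matrix.smul_mulVec, Matrix.one_mulVec]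
  have hr' : (e ^ r) i = i := σ.injective (by rw [hpow]; simp)
  rw [hr', Pi.smul_apply, smul_eq_mul]
  congr 1
  rw [Finset.prod_eq_single (-(σ i).2).val]
  · simp [w, hpow]
  · intro s hs hne
    simp only [w, hpow]
    rw [if_neg fun h => hne ?_, Units.val_one]
    have h2 : (s : ZMod r) = -(σ i).2 := eq_neg_of_add_eq_zero_right h
    rw [← h2, ZMod.val_natCast, Nat.mod_eq_of_lt (Finset.mem_range.1 hs)]
  · exact fun h => absurd (Finset.mem_range.2 (ZMod.val_lt _)) h

variable {r : ℕ}

/-- An irreducible factor of the characteristic polynomial divides `X ^ r - c` when the `r`-th power is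
the scalar `c`. -/
theorem dvd_X_pow_sub_C_of_pow_eq {A : Matrix (Fin n) (Fin n) K} {c : K} (hA : A ^ r = c • 1)
    {P : K[X]} (hP : Irreducible P) (h : P ∣ A.charpoly) : P ∣ X ^ r - C c := by
  haveI := Fact.mk hP
  set α := AdjoinRoot.root P
  set M := A.map (algebraMap K (AdjoinRoot P))
  have h0 : M.charpoly.eval α = 0 := by
    rw [Matrix.charpoly_map, eval_map_algebraMap, AdjoinRoot.aeval_eq, AdjoinRoot.mk_eq_zero]
    exact h
  rw [Matrix.eval_charpoly] at h0
  obtain ⟨v, hv0, hv⟩ := Matrix.exists_mulVec_eq_zero_iff.2 h0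
  rw [Matrix.sub_mulVec, sub_eq_zero, Matrix.scalar_apply, ← Matrix.smul_one_eq_diagonal,
    Matrix.smul_mulVec, Matrix.one_mulVec] at hv
  have hpow : ∀ j : ℕ, (M ^ j).mulVec v = α ^ j • v := by
    intro j
    induction j with
    | zero => simp
    | succ j ih =>
      rw [pow_succ', ← Matrix.mulVec_mulVec, ih, Matrix.mulVec_smul, ← hv, smul_smul, pow_succ]
  have hMr : M ^ r = (algebraMap K (AdjoinRoot P) c) • 1 := by
    show (A.map (algebraMap K (AdjoinRoot P))) ^ r = _
    rw [← Matrix.map_pow, hA]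
    ext a b
    rcases eq_or_ne a b with rfl | hab <;> simp [*]
  have hα : α ^ r = algebraMap K (AdjoinRoot P) c := by
    have h1 := hpow r
    rw [hMr, Matrix.smul_mulVec, Matrix.one_mulVec] at h1
    obtain ⟨i, hi⟩ := Function.ne_iff.1 hv0
    have h2 := congrFun h1 i
    rw [Pi.smul_apply, Pi.smul_apply, smul_eq_mul, smul_eq_mul] at h2
    exact (mul_right_cancel₀ hi h2).symm
  rw [← AdjoinRoot.mk_eq_zero, map_sub, map_pow, AdjoinRoot.mk_X, AdjoinRoot.mk_C]
  exact sub_eq_zero.2 hα

/-- If `X ^ r - c` has no root, the characteristic polynomial is a power of it. -/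
theorem charpoly_eq_pow_of_nonsplit (hr : r.Prime) {A : Matrix (Fin n) (Fin n) K} {c : K}
    (hA : A ^ r = c • 1) (hc : ∀ b : K, b ^ r ≠ c) :
    r ∣ n ∧ A.charpoly = (X ^ r - C c) ^ (n / r) := by
  classical
  have hirr := X_pow_sub_C_irreducible_of_prime hr hc
  have hm : (X ^ r - C c : K[X]).Monic := monic_X_pow_sub_C c hr.ne_zero
  have hf := A.charpoly_monic
  have hall : ∀ P ∈ normalizedFactors A.charpoly, P = X ^ r - C c := by
    intro P hP
    have hPi := irreducible_of_normalized_factor _ hP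
    have hPm : P.Monic := by
      rw [← normalize_normalized_factor _ hP]; exact monic_normalize hPi.ne_zero
    exact eq_of_monic_of_associated hPm hm (hPi.associated_of_dvd hirr
      (dvd_X_pow_sub_C_of_pow_eq hA hPi (dvd_of_mem_normalizedFactors hP)))
  obtain ⟨j, hj⟩ : ∃ j, A.charpoly = (X ^ r - C c) ^ j := by
    refine ⟨(normalizedFactors A.charpoly).card, ?_⟩
    conv_lhs => rw [← hf.normalize_eq_self, ← prod_normalizedFactors_eq hf.ne_zero,
      Multiset.eq_replicate_card.2 hall, Multiset.prod_replicate]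
  have hdeg := congrArg natDegree hj
  rw [A.charpoly_natDegree_eq_dim, Fintype.card_fin, natDegree_pow, natDegree_X_pow_sub_C] at hdeg
  refine ⟨⟨j, by rw [hdeg, mul_comm]⟩, ?_⟩
  rw [hj, hdeg, Nat.mul_div_cancel _ hr.pos]

/-- A multiset of cardinality `n` is the image of a function on `Fin n`. -/
theorem exists_fun_map_eq {α : Type*} (M : Multiset α) {n : ℕ} (h : M.card = n) :
    ∃ v : Fin n → α, (Finset.univ : Finset (Fin n)).val.map v = M := by
  induction M using Quotient.inductionOn with
  | h l =>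
    obtain rfl : l.length = n := h
    exact ⟨l.get, by rw [Fin.univ_val_map, List.ofFn_get]; rfl⟩

/-- If `X ^ r - 1` splits with roots in `S`, so does the characteristic polynomial. -/
theorem exists_charpoly_roots {A : Matrix (Fin n) (Fin n) K} (hA : A ^ r = 1) (hr0 : 0 < r)
    (S : Finset K) (hS : (X ^ r - 1 : K[X]) = ∏ z ∈ S, (X - C z)) :
    ∃ v : Fin n → K, (∀ i, v i ∈ S) ∧ A.charpoly = ∏ i, (X - C (v i)) := by
  classical
  have hf := A.charpoly_monic
  have hall : ∀ P ∈ normalizedFactors A.charpoly, ∃ z ∈ S, P = X - C z := by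
    intro P hP
    have hPi := irreducible_of_normalized_factor _ hP
    have hPm : P.Monic := by
      rw [← normalize_normalized_factor _ hP]; exact monic_normalize hPi.ne_zero
    have h := dvd_X_pow_sub_C_of_pow_eq (c := 1) (by rw [hA, one_smul]) hPi
      (dvd_of_mem_normalizedFactors hP)
    rw [C_1, hS] at h
    obtain ⟨z, hz, hPz⟩ := hPi.prime.exists_mem_finset_dvd h
    exact ⟨z, hz, eq_of_monic_of_associated hPm (monic_X_sub_C z)
      (hPi.associated_of_dvd (irreducible_X_sub_C z) hPz)⟩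
  choose! f hfS hf' using hall
  have hprod : A.charpoly = (((normalizedFactors A.charpoly).map f).map fun z => X - C z).prod := by
    conv_lhs => rw [← hf.normalize_eq_self, ← prod_normalizedFactors_eq hf.ne_zero]
    rw [Multiset.map_map]
    congr 1
    conv_lhs => rw [← Multiset.map_id' (normalizedFactors A.charpoly)]
    exact Multiset.map_congr rfl fun P hP => hf' P hP
  set M := (normalizedFactors A.charpoly).map f with hM
  have hcard : M.card = n := by
    have h := congrArg natDegree hprod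
    rw [natDegree_multiset_prod_X_sub_C_eq_card, A.charpoly_natDegree_eq_dim, Fintype.card_fin] at h
    exact h.symm
  obtain ⟨v, hv⟩ := exists_fun_map_eq M hcard
  refine ⟨v, fun i => ?_, ?_⟩
  · have h : v i ∈ M := hv ▸ Multiset.mem_map_of_mem v (Finset.mem_univ i)
    rw [hM, Multiset.mem_map] at h
    obtain ⟨P, hP, hPz⟩ := h
    rw [← hPz]
    exact hfS P hP
  · rw [hprod, ← hv, Multiset.map_map]
    rfl

end Cfsg.Agent.H67
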