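import Mathlib
import Cfsg.Agent.H67.OrthMoved
import Cfsg.Agent.H67.MultCount

set_option autoImplicit false

/-!
# Classes of elements of odd prime order in orthogonal groups
-/

namespace Cfsg.Agent.H67

open Polynomial QuadraticMap Module

universe u

variable {K : Type u} [Field K] [Fintype K] {r p : ℕ} [Fact p.Prime] [CharP K p]
  {I : Type} [Fintype I] [DecidableEq I]

omit [Fintype K] in
theorem neg_nondegenerate {V : Type*} [AddCommGroup V] [Module K V] {Q : QuadraticForm K V}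
    (hQ : (polarBilin Q).Nondegenerate) : (polarBilin (-Q)).Nondegenerate := by
  have h : ∀ x, (∀ y, polar (-Q) x y = 0) → x = 0 := fun x hx => hQ.1 x fun y => by
    have := hx y
    rwa [QuadraticMap.coeFn_neg, polar_neg, neg_eq_zero] at this
  exact ⟨h, fun y hy => h y fun x => (polar_comm _ _ _).trans (hy x)⟩

theorem exists_orth_polyOf_even (hrp : r.Prime) (hne : r ≠ p) (hr2 : r ≠ 2) {m : ℕ}
    (Qt : QuadraticForm K (I → K)) (hQt : (polarBilin Qt).Nondegenerate)
    (hI : Fintype.card I = 2 * m) (a : CycFac r K → ℕ) (ha : ∀ P, a (dualId hrp hne P) = a P)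
    (hle : orderOf (Fintype.card K : ZMod r) * ∑ P, a P ≤ 2 * m)
    (htype : orderOf (Fintype.card K : ZMod r) * ∑ P, a P = 2 * m → (HasSing Qt m ↔ mvPlus a)) :
    ∃ A : ↥(Cfsg.isometryGroup K ⇑Qt), A ^ r = 1 ∧
      ((A : GL I K) : Matrix I I K).charpoly = polyOf (Fintype.card I) a := by
  classical
  have hr := cast_ne_zero_of_prime_ne (K := K) hrp hne
  haveI := finiteDimensional_movMod a
  obtain ⟨Q1, T, hQ1, hT, -, hQT, -, htyp⟩ := exists_moved_orth hrp hne hr2 a ha
  obtain ⟨l, hl⟩ := even_mov_dim hrp hne hr2 ha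
  rw [← two_mul] at hl
  have hdim1 : finrank K (MovMod a) = 2 * l := by rw [finrank_movMod hr hrp, hl]
  have hIdim : finrank K (I → K) = 2 * m := by rw [finrank_fintype_fun_eq_card, hI]
  have finish : ∀ (W : Type u) [AddCommGroup W] [Module K W] [FiniteDimensional K W]
      (QW : QuadraticForm K W), (polarBilin QW).Nondegenerate → finrank K W = 2 * (m - l) →
      (HasSing (Q1.prod QW) m ↔ HasSing Qt m) →
      ∃ A : ↥(Cfsg.isometryGroup K ⇑Qt), A ^ r = 1 ∧
        ((A : GL I K) : Matrix I I K).charpoly = polyOf (Fintype.card I) a := by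
    intro W _ _ _ QW hQW hW hiff
    obtain ⟨g, hg⟩ := isom_of_type (prod_nondegenerate hQ1 hQW) hQt
      (by rw [finrank_prod, hdim1, hW]; omega) hIdim hiff
    exact exists_orth_of_isom hr hrp Qt hT hQT QW one_ne_zero g fun v => by rw [one_mul, hg]
  have plusW : finrank K (Fin (m - l) ⊕ Fin (m - l) → K) = 2 * (m - l) := by simp; omega
  by_cases heq : l = m
  · have hiff : HasSing Q1 m ↔ HasSing Qt m := by
      rw [htype (by omega), htyp m (by omega)]
    obtain ⟨g, hg⟩ := isom_of_type hQ1 hQt (heq ▸ hdim1) hIdim hiff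
    refine exists_orth_of_isom hr hrp Qt hT hQT (H4.qPlus 0 K) one_ne_zero
      (((LinearEquiv.refl K (MovMod a)).prodCongr
        (0 : (Fin 0 ⊕ Fin 0 → K) ≃ₗ[K] PUnit.{u+1})).trans (LinearEquiv.prodUnique) |>.trans g)
      fun v => ?_
    rw [one_mul, QuadraticMap.prod_apply, Subsingleton.elim v.2 0, map_zero, add_zero]
    exact hg v.1
  have hlm : l < m := by omega
  by_cases h1 : HasSing Q1 l
  · by_cases ht : HasSing Qt m
    · refine finish _ (H4.qPlus (m - l) K) (H4.qPlus_nondegenerate _) plusW (iff_of_true ?_ ht)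
      have := hasSing_prod h1 (hasSing_qPlus (F := K) (m - l))
      rwa [Nat.add_sub_cancel' hlm.le] at this
    · obtain ⟨-, ζ, hζ, -⟩ := exists_isom_qMinus hQt hIdim ht
      have hQW : (polarBilin (H4.qMinus (m - l - 1) K 1 ζ)).Nondegenerate :=
        H4.qMinus_nondegenerate (H4.disc_ne_zero_of_anisotropic (aniso_of_one hζ)
          fun c h2 => H4.exists_sq_eq h2 c) _
      have hW : finrank K ((Fin (m - l - 1) ⊕ Fin (m - l - 1)) ⊕ Fin 2 → K) = 2 * (m - l) := by
        simp; omega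
      refine finish _ (H4.qMinus (m - l - 1) K 1 ζ) hQW hW (iff_of_false (fun h => ?_) ht)
      have h' : HasSing ((H4.qMinus (m - l - 1) K 1 ζ).prod Q1) (m - l + l) := by
        rw [Nat.sub_add_cancel hlm.le]
        exact h.of_isom (LinearEquiv.prodComm K _ _) fun v => by
          rw [QuadraticMap.prod_apply, QuadraticMap.prod_apply]
          exact add_comm _ _
      have h2 := hasSing_of_prod hQW hQ1 hW hdim1 h1 h'
      refine not_hasSing_qMinus (m - l - 1) (aniso_of_one hζ) ?_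
      rw [show m - l - 1 + 1 = m - l by omega]
      exact h2
  · by_cases ht : HasSing Qt m
    · obtain ⟨hl1, ζ, hζ, g, hg⟩ := exists_isom_qMinus hQ1 hdim1 h1
      have hQW : (polarBilin (-H4.qMinus (m - l - 1) K 1 ζ)).Nondegenerate :=
        neg_nondegenerate (H4.qMinus_nondegenerate (H4.disc_ne_zero_of_anisotropic (aniso_of_one hζ)
          fun c h2 => H4.exists_sq_eq h2 c) _)
      refine finish ((Fin (m - l - 1) ⊕ Fin (m - l - 1)) ⊕ Fin 2 → K)
        (-H4.qMinus (m - l - 1) K 1 ζ) hQW (by simp; omega) (iff_of_true ?_ ht)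
      let f : (Fin (l - 1) ⊕ (Fin (m - l - 1) ⊕ Fin 2) → K) →ₗ[K]
          (MovMod a × ((Fin (m - l - 1) ⊕ Fin (m - l - 1)) ⊕ Fin 2 → K)) :=
        (g.symm.toLinearMap ∘ₗ
          { toFun := fun z => Sum.elim (Sum.elim (fun i => z (.inl i)) 0) (fun k => z (.inr (.inr k)))
            map_add' := fun z w => funext fun i => by rcases i with (i | i) | i <;> simp
            map_smul' := fun c z => funext fun i => by rcases i with (i | i) | i <;> simp }).prod
        { toFun := fun z => Sum.elim (Sum.elim (fun i => z (.inr (.inl i))) 0) (fun k => z (.inr (.inr k)))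
          map_add' := fun z w => funext fun i => by rcases i with (i | i) | i <;> simp
          map_smul' := fun c z => funext fun i => by rcases i with (i | i) | i <;> simp }
      have := hasSing_of_range (Q := Q1.prod (-H4.qMinus (m - l - 1) K 1 ζ)) f
        (fun z w h => by
          have h1 := congrArg (fun x => g x.1) h
          have h2 := congrArg Prod.snd h
          simp only [f, LinearMap.prod_apply, Function.comp_apply, LinearMap.comp_apply,
            LinearEquiv.coe_coe, g.apply_symm_apply, LinearMap.coe_mk, AddHom.coe_mk, Function.prod] at h1 h2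
          funext i
          rcases i with i | i | i
          · exact congrFun h1 (.inl (.inl i))
          · exact congrFun h2 (.inl (.inl i))
          · exact congrFun h1 (.inr i))
        (fun z => by
          simp only [f, LinearMap.prod_apply, LinearMap.comp_apply, LinearEquiv.coe_coe,
            LinearMap.coe_mk, AddHom.coe_mk, QuadraticMap.prod_apply, Function.prod, QuadraticMap.neg_apply]
          rw [← hg, g.apply_symm_apply, H4.coe_qMinus, H4.coe_qMinus]
          simp [Cfsg.quadFormMinus])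
      have hd : finrank K (Fin (l - 1) ⊕ (Fin (m - l - 1) ⊕ Fin 2) → K) = m := by
        simp; omega
      rwa [hd] at this
    · refine finish _ (H4.qPlus (m - l) K) (H4.qPlus_nondegenerate _) plusW
        (iff_of_false (fun h => h1 ?_) ht)
      refine hasSing_of_prod hQ1 (H4.qPlus_nondegenerate _) hdim1 plusW (hasSing_qPlus _) ?_
      rwa [Nat.add_sub_cancel' hlm.le]

theorem type_of_full_moved (hrp : r.Prime) (hne : r ≠ p) (hr2 : r ≠ 2) {m : ℕ}
    (Qt : QuadraticForm K (I → K)) (hQt : (polarBilin Qt).Nondegenerate)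
    (hI : Fintype.card I = 2 * m) (A : ↥(Cfsg.isometryGroup K ⇑Qt)) (hA : A ^ r = 1)
    (a : CycFac r K → ℕ) (hc : ((A : GL I K) : Matrix I I K).charpoly = polyOf (Fintype.card I) a)
    (ha : ∀ P, a (dualId hrp hne P) = a P)
    (heq : orderOf (Fintype.card K : ZMod r) * ∑ P, a P = 2 * m) : HasSing Qt m ↔ mvPlus a := by
  classical
  have hr := cast_ne_zero_of_prime_ne (K := K) hrp hne
  haveI := finiteDimensional_movMod a
  obtain ⟨Q1, T, hQ1, hT, hTr, hQT, hfix, htyp⟩ := exists_moved_orth hrp hne hr2 a ha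
  have hs : Squarefree ((X : K[X]) ^ r - 1) := (X_pow_sub_one_separable_iff.2 hr).squarefree
  set M := ((A : GL I K) : Matrix I I K)
  have hMr : M ^ r = 1 := by
    rw [← Units.val_pow_eq_pow_val, ← SubmonoidClass.coe_pow, hA]; rfl
  have hchar : (movT a).charpoly = (Matrix.toLin' M).charpoly := by
    rw [Matrix.charpoly_toLin', hc, charpoly_movT, polyOf, heq, ← hI, Nat.sub_self, pow_zero, one_mul]
  obtain ⟨L, hL⟩ := H66.exists_equiv_of_charpoly_eq hs hs
    (f := movT a) (g := Matrix.toLin' M) (by simp [movT_pow hrp])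
    (by rw [H66.aeval_toLin']; simp [hMr]) hchar
  let A' : (I → K) ≃ₗ[K] (I → K) := glEquiv I K (A : GL I K)
  have hA' : ∀ v, A' v = M.mulVec v := fun v => glEquiv_apply _ v
  obtain ⟨g, hg⟩ := isom_of_fpf_similar hQ1 hQt (k := r) (hrp.odd_of_ne_two hr2) (A := T) (A' := A')
    hTr hQT (fun v => by rw [hA']; exact A.2 v v) hfix L (fun v => by
      rw [hA', ← Matrix.toLin'_apply, ← hL, ← hT]; rfl)
  rw [← htyp m heq]
  exact ⟨fun h => h.of_isom g.symm fun v => by rw [← hg, g.apply_symm_apply],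
    fun h => h.of_isom g hg⟩

/-- The contragredient of an isometry has the same characteristic polynomial. -/
theorem charpoly_contra_isometry (Q : QuadraticForm K (I → K)) (hQ : (polarBilin Q).Nondegenerate)
    (A : ↥(Cfsg.isometryGroup K ⇑Q)) :
    (contraMat (RingHom.id K) (A : GL I K)).charpoly = ((A : GL I K) : Matrix I I K).charpoly := by
  set M := ((A : GL I K) : Matrix I I K)
  set J := LinearMap.toMatrix₂' K (polarBilin Q) with hJdef
  have hJ : IsUnit J.det := by
    rw [isUnit_iff_ne_zero]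
    exact (LinearMap.BilinForm.nondegenerate_toBilin'_iff_det_ne_zero (M := J)).1 (by
      rw [hJdef]
      exact (LinearEquiv.symm_apply_apply (LinearMap.BilinForm.toMatrix' (R₁ := K)) (polarBilin Q)).symm ▸ hQ)
  have hinv : M.transpose * J * M = J := by
    have h : (polarBilin Q).compl₁₂ (Matrix.toLin' M) (Matrix.toLin' M) = polarBilin Q := by
      refine LinearMap.ext₂ fun u v => ?_
      show polar Q (Matrix.toLin' M u) (Matrix.toLin' M v) = polar Q u v
      have hQA : ∀ w, Q (Matrix.toLin' M w) = Q w := fun w => by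
        rw [Matrix.toLin'_apply]; exact A.2 w w
      simp only [polar, ← map_add, hQA]
    conv_rhs => rw [hJdef, ← h, LinearMap.toMatrix₂'_compl₁₂, LinearMap.toMatrix'_toLin']
  have hinvM : M.transpose⁻¹ = J * M * J⁻¹ := by
    refine Matrix.inv_eq_right_inv ?_
    rw [← mul_assoc, ← mul_assoc, hinv, Matrix.mul_nonsing_inv _ hJ]
  obtain ⟨U, hU⟩ := (Matrix.isUnit_iff_isUnit_det J).2 hJ
  rw [contraMat_eq, RingHom.coe_id, Matrix.map_id]
  show (M.transpose)⁻¹.charpoly = _
  rw [hinvM, ← hU, Matrix.charpoly_units_conj]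

/-- Classes of elements of order `r` in an orthogonal group as multiplicity functions. -/
theorem card_orth_classes (hrp : r.Prime) (hne : r ≠ p) (hr2 : r ≠ 2)
    (Q : QuadraticForm K (I → K)) (hQ : (polarBilin Q).Nondegenerate)
    (T : (CycFac r K → ℕ) → Prop)
    (hT : ∀ (A : ↥(Cfsg.isometryGroup K ⇑Q)), A ^ r = 1 → ∀ a,
      ((A : GL I K) : Matrix I I K).charpoly = polyOf (Fintype.card I) a →
      (∀ P, a (dualId hrp hne P) = a P) → T a)
    (hex : ∀ a, orderOf (Fintype.card K : ZMod r) * ∑ P, a P ≤ Fintype.card I →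
      (∀ P, a (dualId hrp hne P) = a P) → T a → a ≠ 0 →
      ∃ A : ↥(Cfsg.isometryGroup K ⇑Q), A ^ r = 1 ∧
        ((A : GL I K) : Matrix I I K).charpoly = polyOf (Fintype.card I) a) :
    Nat.card {C : ConjClasses ↥(Cfsg.isometryGroup K ⇑Q) //
        ∃ g : ↥(Cfsg.isometryGroup K ⇑Q), ConjClasses.mk g = C ∧ orderOf g = r} =
      Nat.card {a : CycFac r K → ℕ // orderOf (Fintype.card K : ZMod r) * ∑ P, a P ≤ Fintype.card I ∧
        ((∀ P, a (dualId hrp hne P) = a P) ∧ T a) ∧ a ≠ 0} := by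
  have hr := cast_ne_zero_of_prime_ne (K := K) hrp hne
  refine card_order_classes (Cfsg.isometryGroup K ⇑Q).subtype
    (Cfsg.isometryGroup K ⇑Q).subtype_injective hrp hne
    (fun g h hg _ hc => (orth_isConj_iff_matrix (p := p) Q hQ g h (hg ▸ hrp.odd_of_ne_two hr2)
      (hg ▸ (Nat.coprime_primes hrp Fact.out).2 hne)).2 (MonoidHom.map_isConj (Units.coeHom _) hc))
    _ (fun g hg => ?_) (fun a ha hT' ha0 => hex a ha hT'.1 hT'.2 ha0)
  have hg' : (g : GL I K) ^ r = 1 := by rw [← SubmonoidClass.coe_pow, hg]; rfl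
  have hinv : ∀ P, multOf ((g : GL I K) : Matrix I I K).charpoly (dualId hrp hne P) =
      multOf (r := r) ((g : GL I K) : Matrix I I K).charpoly P := fun P =>
    mult_dual_invariant hr hrp hσ_id (fun _ => rfl) hg' (charpoly_contra_isometry Q hQ g) P
  refine ⟨hinv, hT g hg _ ?_ hinv⟩
  exact (charpoly_eq_polyOf hr hrp (by rw [← Units.val_pow_eq_pow_val, hg', Units.val_one])).1

theorem card_orth_odd_classes (hrp : r.Prime) (hne : r ≠ p) (hr2 : r ≠ 2) (h2 : (2 : K) ≠ 0)
    (m : ℕ) {i t : ℕ} (hi : i = orderOf (Fintype.card K : ZMod r)) (ht : t * i = r - 1) :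
    Nat.card {C : ConjClasses ↥(Cfsg.isometryGroup K (Cfsg.quadFormOdd m K)) //
        ∃ g : ↥(Cfsg.isometryGroup K (Cfsg.quadFormOdd m K)), ConjClasses.mk g = C ∧ orderOf g = r} =
      if Odd i then (m / i + t / 2).choose (t / 2) - 1 else ((2 * m + 1) / i + t).choose t - 1 := by
  classical
  have hr := cast_ne_zero_of_prime_ne (K := K) hrp hne
  rw [← H4.coe_qOdd]
  have hcard : Fintype.card (Unit ⊕ (Fin m ⊕ Fin m)) = 2 * m + 1 := by simp; omega
  rw [card_orth_classes hrp hne hr2 (H4.qOdd m K) (H4.qOdd_nondegenerate h2 m) (fun _ => True)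
    (fun _ _ _ _ _ => trivial) (fun a hle ha _ _ => by
      rw [hcard] at hle
      haveI := finiteDimensional_movMod a
      obtain ⟨Q1, T, hQ1, hT, -, hQT, -, -⟩ := exists_moved_orth hrp hne hr2 a ha
      obtain ⟨l, hl⟩ := even_mov_dim hrp hne hr2 ha
      let QW := H4.qOdd (m - l) K
      obtain ⟨-, c, hc, g, hg⟩ := H4.isom_std_odd (Q := Q1.prod QW)
        (prod_nondegenerate hQ1 (H4.qOdd_nondegenerate h2 _)) (m := m) (by
          rw [finrank_prod, finrank_movMod hr hrp, hl, finrank_fintype_fun_eq_card]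
          simp only [Fintype.card_sum, Fintype.card_fin, Fintype.card_unit]
          omega)
      exact exists_orth_of_isom hr hrp (H4.qOdd m K) hT hQT QW hc g hg)]
  have e : {a : CycFac r K → ℕ // orderOf (Fintype.card K : ZMod r) * ∑ P, a P ≤
      Fintype.card (Unit ⊕ (Fin m ⊕ Fin m)) ∧ ((∀ P, a (dualId hrp hne P) = a P) ∧ True) ∧ a ≠ 0} ≃
      {a : CycFac r K → ℕ // orderOf (Fintype.card K : ZMod r) * ∑ P, a P ≤
      Fintype.card (Unit ⊕ (Fin m ⊕ Fin m)) ∧ (∀ P, a (dualId hrp hne P) = a P) ∧ a ≠ 0} :=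
    Equiv.subtypeEquivRight fun a => by simp
  rw [Nat.card_congr e, card_invariant_le (dualId hrp hne) (cycDual_cycDual _ _ _ _) _ _
    (orderOf_card_pos hr hrp) (¬ Odd i) (fun P => by rw [hi]; exact dualId_eq_self_iff hrp hne hr2 P),
    ← hi, card_cycFac_eq hrp hne hi ht, hcard]
  split_ifs with h
  · congr 3
    rw [← Nat.div_div_eq_div_mul]
    congr 1
    omega
  · rfl

/-- Splitting off the functions of full weight. -/
theorem card_without_exact {α : Type*} [Fintype α] (π : α → α) (d n : ℕ) (hd : 0 < d) (hn : 0 < n) :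
    Nat.card {a : α → ℕ // d * ∑ x, a x ≤ n ∧ ((∀ x, a (π x) = a x) ∧ d * ∑ x, a x ≠ n) ∧ a ≠ 0} =
      Nat.card {a : α → ℕ // d * ∑ x, a x ≤ n ∧ (∀ x, a (π x) = a x) ∧ a ≠ 0} -
        Nat.card {a : α → ℕ // (∀ x, a (π x) = a x) ∧ d * ∑ x, a x = n} := by
  classical
  haveI := finite_sum_le d n hd (fun a : α → ℕ => (∀ x, a (π x) = a x) ∧ a ≠ 0)
  haveI : Finite {a : α → ℕ // d * ∑ x, a x ≤ n ∧ (∀ x, a (π x) = a x) ∧ a ≠ 0} := inferInstance
  let E := {a : α → ℕ // d * ∑ x, a x ≤ n ∧ (∀ x, a (π x) = a x) ∧ a ≠ 0}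
  have e1 : {a : α → ℕ // d * ∑ x, a x ≤ n ∧ ((∀ x, a (π x) = a x) ∧ d * ∑ x, a x ≠ n) ∧ a ≠ 0} ≃
      {a : E // ¬ d * ∑ x, a.1 x = n} :=
    { toFun := fun a => ⟨⟨a.1, a.2.1, a.2.2.1.1, a.2.2.2⟩, a.2.2.1.2⟩
      invFun := fun a => ⟨a.1.1, a.1.2.1, ⟨a.1.2.2.1, a.2⟩, a.1.2.2.2⟩
      left_inv := fun _ => rfl
      right_inv := fun _ => rfl }
  have e2 : {a : α → ℕ // (∀ x, a (π x) = a x) ∧ d * ∑ x, a x = n} ≃
      {a : E // d * ∑ x, a.1 x = n} :=
    { toFun := fun a => ⟨⟨a.1, a.2.2.le, a.2.1, fun h => by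
          have := a.2.2
          rw [h] at this
          simp at this
          omega⟩, a.2.2⟩
      invFun := fun a => ⟨a.1.1, a.1.2.2.1, a.2⟩
      left_inv := fun _ => rfl
      right_inv := fun _ => rfl }
  rw [Nat.card_congr e1, Nat.card_congr e2]
  haveI : Fintype E := Fintype.ofFinite _
  rw [Nat.card_eq_fintype_card, Nat.card_eq_fintype_card, Nat.card_eq_fintype_card,
    Fintype.card_subtype_compl]

theorem card_orth_even_classes (hrp : r.Prime) (hne : r ≠ p) (hr2 : r ≠ 2) {m : ℕ} (hm : 1 ≤ m)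
    (Q : QuadraticForm K (I → K)) (hQ : (polarBilin Q).Nondegenerate)
    (hI : Fintype.card I = 2 * m) {i t : ℕ} (hi : i = orderOf (Fintype.card K : ZMod r))
    (ht : t * i = r - 1) :
    (HasSing Q m → Nat.card {C : ConjClasses ↥(Cfsg.isometryGroup K ⇑Q) //
        ∃ g : ↥(Cfsg.isometryGroup K ⇑Q), ConjClasses.mk g = C ∧ orderOf g = r} =
      if Odd i then (m / i + t / 2).choose (t / 2) - 1
      else (2 * m / i + t).choose t - 1 -
        (if i ∣ 2 * m ∧ Odd (2 * m / i) then (2 * m / i + t - 1).choose (t - 1) else 0)) ∧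
    (¬ HasSing Q m → Nat.card {C : ConjClasses ↥(Cfsg.isometryGroup K ⇑Q) //
        ∃ g : ↥(Cfsg.isometryGroup K ⇑Q), ConjClasses.mk g = C ∧ orderOf g = r} =
      if Odd i then (m / i + t / 2).choose (t / 2) - 1 -
        (if i ∣ m then (m / i + t / 2 - 1).choose (t / 2 - 1) else 0)
      else (2 * m / i + t).choose t - 1 -
        (if i ∣ 2 * m ∧ Even (2 * m / i) then (2 * m / i + t - 1).choose (t - 1) else 0)) := by
  classical
  have hr := cast_ne_zero_of_prime_ne (K := K) hrp hne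
  set π := dualId (K := K) hrp hne with hπdef
  have hππ : ∀ P, π (π P) = P := cycDual_cycDual _ _ _ _
  have hfix : ∀ P, π P = P ↔ ¬ Odd i := fun P => by rw [hi]; exact dualId_eq_self_iff hrp hne hr2 P
  have hipos : 0 < i := hi ▸ orderOf_card_pos hr hrp
  have ht0 : 1 ≤ t := by
    rcases Nat.eq_zero_or_pos t with h | h
    · rw [h, zero_mul] at ht; have := hrp.two_le; omega
    · exact h
  have hct := card_cycFac_eq (K := K) hrp hne hi ht
  set S := {a : CycFac r K → ℕ // i * ∑ P, a P ≤ 2 * m ∧ (∀ P, a (π P) = a P) ∧ a ≠ 0}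
  have hbase : Nat.card S = if Odd i then (m / i + t / 2).choose (t / 2) - 1
      else (2 * m / i + t).choose t - 1 := by
    rw [card_invariant_le π hππ i (2 * m) hipos (¬ Odd i) hfix, hct]
    split_ifs
    · rw [Nat.mul_div_mul_left _ _ two_pos]
    · rfl
  have hex1 : ¬ Odd i → Nat.card {a : CycFac r K → ℕ // (∀ P, a (π P) = a P) ∧ i * ∑ P, a P = 2 * m} =
      if i ∣ 2 * m then (2 * m / i + t - 1).choose (t - 1) else 0 := by
    intro h
    split_ifs with hd
    · obtain ⟨c, hc⟩ := hd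
      rw [hc, Nat.mul_div_cancel_left _ hipos]
      have e : {a : CycFac r K → ℕ // (∀ P, a (π P) = a P) ∧ i * ∑ P, a P = i * c} ≃
          {a : CycFac r K → ℕ // ∑ P, a P = c} :=
        Equiv.subtypeEquivRight fun a => by
          simp only [fun P => (hfix P).2 h, implies_true, true_and]
          exact ⟨fun h' => Nat.eq_of_mul_eq_mul_left hipos h', fun h' => by rw [h']⟩
      rw [Nat.card_congr e, card_fun_sum_eq, hct, show t + c - 1 = c + (t - 1) by omega,
        show c + t - 1 = c + (t - 1) by omega, Nat.choose_symm_add]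
    · rw [Nat.card_eq_zero]
      exact Or.inl ⟨fun a => hd ⟨∑ P, a.1 P, a.2.2.symm⟩⟩
  have hex2 : Odd i → Nat.card {a : CycFac r K → ℕ // (∀ P, a (π P) = a P) ∧ i * ∑ P, a P = 2 * m} =
      if i ∣ m then (m / i + t / 2 - 1).choose (t / 2 - 1) else 0 := by
    intro h
    rw [card_invariant_eq π hππ (fun P h' => (hfix P).1 h' h) i m hipos, hct]
    split_ifs
    · have ht2 : 1 ≤ t / 2 := by
        by_contra hlt
        have h1 : t = 1 := by omega
        rw [h1, one_mul] at ht
        obtain ⟨c, hc⟩ := hrp.odd_of_ne_two hr2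
        obtain ⟨c', hc'⟩ := h
        omega
      generalize m / i = e
      rw [show t / 2 + e - 1 = e + (t / 2 - 1) by omega,
        show e + t / 2 - 1 = e + (t / 2 - 1) by omega, Nat.choose_symm_add]
    · rfl
  let T : (CycFac r K → ℕ) → Prop := fun a => i * ∑ P, a P = 2 * m → (HasSing Q m ↔ mvPlus a)
  rw [card_orth_classes hrp hne hr2 Q hQ T (fun A hA a hc ha heq =>
      type_of_full_moved hrp hne hr2 Q hQ hI A hA a hc ha (hi ▸ heq))
    (fun a hle ha hT' _ => exists_orth_polyOf_even hrp hne hr2 Q hQ hI a ha (hI ▸ hle)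
      fun heq => hT' (hi ▸ heq)), ← hi, hI]
  have hAll : (∀ a : CycFac r K → ℕ, i * ∑ P, a P = 2 * m → (HasSing Q m ↔ mvPlus a)) →
      Nat.card {a : CycFac r K → ℕ //
        i * ∑ P, a P ≤ 2 * m ∧ ((∀ P, a (π P) = a P) ∧ T a) ∧ a ≠ 0} = Nat.card S :=
    fun h => Nat.card_congr (Equiv.subtypeEquivRight fun a =>
      ⟨fun ⟨h1, ⟨h2, _⟩, h3⟩ => ⟨h1, h2, h3⟩, fun ⟨h1, h2, h3⟩ => ⟨h1, ⟨h2, h a⟩, h3⟩⟩)
  have hNone : (∀ a : CycFac r K → ℕ, i * ∑ P, a P = 2 * m → ¬ (HasSing Q m ↔ mvPlus a)) →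
      Nat.card {a : CycFac r K → ℕ //
        i * ∑ P, a P ≤ 2 * m ∧ ((∀ P, a (π P) = a P) ∧ T a) ∧ a ≠ 0} =
      Nat.card S - Nat.card {a : CycFac r K → ℕ // (∀ P, a (π P) = a P) ∧ i * ∑ P, a P = 2 * m} := by
    intro h
    rw [← card_without_exact π i (2 * m) hipos (by omega)]
    exact Nat.card_congr (Equiv.subtypeEquivRight fun a => by
      have : T a ↔ i * ∑ P, a P ≠ 2 * m := ⟨fun hT ha => h a ha (hT ha), fun hne ha => absurd ha hne⟩
      rw [this])
  have hmv : ∀ a : CycFac r K → ℕ, i * ∑ P, a P = 2 * m → (mvPlus a ↔ (Odd i ∨ Even (2 * m / i))) := by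
    intro a ha
    rw [mvPlus, ← hi, ← ha, Nat.mul_div_cancel_left _ hipos]
  constructor
  · intro hs
    by_cases ho : Odd i
    · rw [hAll fun a ha => iff_of_true hs ((hmv a ha).2 (Or.inl ho)), hbase, if_pos ho, if_pos ho]
    · rw [if_neg ho]
      by_cases he : i ∣ 2 * m ∧ Odd (2 * m / i)
      · rw [if_pos he, hNone fun a ha h => (Nat.not_even_iff_odd.2 he.2)
          (((hmv a ha).1 (h.1 hs)).resolve_left ho), hbase, if_neg ho, hex1 ho, if_pos he.1]
      · rw [if_neg he, Nat.sub_zero, hAll fun a ha => iff_of_true hs ((hmv a ha).2 (Or.inr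
          (Nat.not_odd_iff_even.1 fun h => he ⟨⟨_, ha.symm⟩, h⟩))), hbase, if_neg ho]
  · intro hs
    by_cases ho : Odd i
    · rw [hNone fun a ha h => hs (h.2 ((hmv a ha).2 (Or.inl ho))), hbase, if_pos ho, if_pos ho,
        hex2 ho]
    · rw [if_neg ho]
      by_cases he : i ∣ 2 * m ∧ Even (2 * m / i)
      · rw [if_pos he, hNone fun a ha h => hs (h.2 ((hmv a ha).2 (Or.inr he.2))), hbase, if_neg ho,
          hex1 ho, if_pos he.1]
      · rw [if_neg he, Nat.sub_zero, hAll fun a ha => iff_of_false hs (fun h =>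
          he ⟨⟨_, ha.symm⟩, ((hmv a ha).1 h).resolve_left ho⟩), hbase, if_neg ho]

end Cfsg.Agent.H67
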