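import Mathlib

set_option autoImplicit false

/-!
# Elements of primitive prime order in `GL_n(q)` and their centralisers
-/

namespace Cfsg.Agent.H67

open Matrix Polynomial

variable {F : Type*} [Field F] [Fintype F]

/-- An element whose order is a primitive prime divisor of `q^n - 1` has irreducible minimal
polynomial of degree `n`. -/
theorem minpoly_of_primitive {p q n r : ℕ} [Fact p.Prime] [CharP F p] (hF : Fintype.card F = q)
    (hn : 1 ≤ n) (hr : r.Prime) (hrp : r ≠ p) (hi : orderOf (q : ZMod r) = n) (x : GL (Fin n) F)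
    (hx : orderOf x = r) :
    Irreducible (minpoly F (x : Matrix (Fin n) (Fin n) F)) ∧
      (minpoly F (x : Matrix (Fin n) (Fin n) F)).natDegree = n := by
  classical
  haveI := Fact.mk hr
  set M : Matrix (Fin n) (Fin n) F := (x : Matrix (Fin n) (Fin n) F) with hM
  haveI : Nonempty (Fin n) := ⟨⟨0, hn⟩⟩
  have hMr : M ^ r = 1 := by
    rw [hM, ← Units.val_pow_eq_pow_val, ← hx, pow_orderOf_eq_one, Units.val_one]
  have hint : IsIntegral F M := Matrix.isIntegral M
  set μ := minpoly F M with hμ
  have hμ0 : μ ≠ 0 := minpoly.ne_zero hint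
  have hdvd : μ ∣ X ^ r - 1 := minpoly.dvd F M (by simp [hMr])
  have hrF : ((r : ℕ) : F) ≠ 0 := by
    intro h0
    rw [CharP.cast_eq_zero_iff F p] at h0
    exact hrp ((Nat.prime_dvd_prime_iff_eq (Fact.out : p.Prime) hr).1 h0).symm
  have hsq : Squarefree μ := ((X_pow_sub_one_separable_iff.2 hrF).of_dvd hdvd).squarefree
  obtain ⟨P, hP, hPμ, hP1⟩ : ∃ P : F[X], Irreducible P ∧ P ∣ μ ∧ ¬ (X - C (1 : F)) ∣ P := by
    obtain ⟨g, hgμ, hgu, hg1⟩ : ∃ g : F[X], g ∣ μ ∧ ¬ IsUnit g ∧ ¬ (X - C (1 : F)) ∣ g := by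
      by_cases h1 : (X - C (1 : F)) ∣ μ
      · obtain ⟨g, hg⟩ := h1
        refine ⟨g, Dvd.intro_left _ hg.symm, fun hu => ?_, fun hd => ?_⟩
        · have hM1 : M = 1 := by
            have h := minpoly.aeval F M
            rw [← hμ, hg, map_mul] at h
            have hu' : IsUnit (aeval M g) := hu.map _
            rw [hu'.mul_left_eq_zero] at h
            simpa [sub_eq_zero] using h
          have : x = 1 := Units.ext hM1
          rw [this, orderOf_one] at hx
          exact hr.ne_one hx.symm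
        · have := hsq (X - C 1) (by rw [hg]; exact mul_dvd_mul_left _ hd)
          exact not_isUnit_X_sub_C 1 this
      · exact ⟨μ, dvd_rfl, minpoly.not_isUnit F M, h1⟩
    obtain ⟨P, hP, hPg⟩ := WfDvdMonoid.exists_irreducible_factor hgu
      (fun h => by rw [h] at hgμ; exact hμ0 (zero_dvd_iff.1 hgμ))
    exact ⟨P, hP, hPg.trans hgμ, fun h => hg1 (h.trans hPg)⟩
  haveI := Fact.mk hP
  have hP0 : P ≠ 0 := hP.ne_zero
  set d := P.natDegree with hd
  let pb := AdjoinRoot.powerBasis hP0
  haveI : Module.Finite F (AdjoinRoot P) := pb.finite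
  haveI : Finite (AdjoinRoot P) := Module.finite_of_finite F
  haveI : Fintype (AdjoinRoot P) := Fintype.ofFinite _
  have hcard : Fintype.card (AdjoinRoot P) = q ^ d := by
    rw [Module.card_eq_pow_finrank (K := F), hF, pb.finrank, AdjoinRoot.powerBasis_dim]
  set ζ := AdjoinRoot.root P
  have hζr : ζ ^ r = 1 := by
    have h : AdjoinRoot.mk P (X ^ r - 1) = 0 := AdjoinRoot.mk_eq_zero.2 (hPμ.trans hdvd)
    rw [map_sub, map_pow, map_one, AdjoinRoot.mk_X, sub_eq_zero] at h
    exact h
  have hζ1 : ζ ≠ 1 := by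
    intro h
    have h' : AdjoinRoot.mk P (X - C 1) = 0 := by
      rw [map_sub, AdjoinRoot.mk_X, AdjoinRoot.mk_C, map_one, sub_eq_zero]; exact h
    rw [AdjoinRoot.mk_eq_zero] at h'
    exact hP1 ((hP.dvd_symm (irreducible_X_sub_C 1) h'))
  have hdvd' : r ∣ q ^ d - 1 := by
    have hζ0 : ζ ≠ 0 := fun h => by rw [h, zero_pow hr.ne_zero] at hζr; exact zero_ne_one hζr
    have := orderOf_dvd_of_pow_eq_one (FiniteField.pow_card_sub_one_eq_one ζ hζ0)
    rwa [orderOf_eq_prime hζr hζ1, hcard] at this
  have hnd : n ∣ d := by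
    rw [← hi, orderOf_dvd_iff_pow_eq_one, ← Nat.cast_pow]
    have h1 : 1 ≤ q ^ d := Nat.one_le_pow _ _ (hF ▸ Fintype.card_pos)
    rw [← Nat.sub_add_cancel h1, Nat.cast_add, (ZMod.natCast_eq_zero_iff _ _).2 hdvd']
    simp
  have hμn : μ.natDegree ≤ n := by
    have h := natDegree_le_of_dvd (Matrix.minpoly_dvd_charpoly M) (Matrix.charpoly_monic M).ne_zero
    rwa [Matrix.charpoly_natDegree_eq_dim, Fintype.card_fin] at h
  have hdn : d = n := le_antisymm ((natDegree_le_of_dvd hPμ hμ0).trans hμn)
    (Nat.le_of_dvd hP.natDegree_pos hnd)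
  have hassoc : Associated P μ := associated_of_dvd_of_natDegree_le hPμ hμ0 (by omega)
  refine ⟨hassoc.irreducible hP, ?_⟩
  have := natDegree_eq_of_degree_eq (degree_eq_degree_of_associated hassoc)
  omega

/-- The centraliser of an element of primitive prime order is cyclic of order `q^n - 1`. -/
theorem centralizer_of_primitive {p q n r : ℕ} [Fact p.Prime] [CharP F p] (hF : Fintype.card F = q)
    (hn : 1 ≤ n) (hr : r.Prime) (hrp : r ≠ p) (hi : orderOf (q : ZMod r) = n) (x : GL (Fin n) F)
    (hx : orderOf x = r) :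
    IsCyclic ↥(Subgroup.centralizer ({x} : Set (GL (Fin n) F))) ∧
      Nat.card ↥(Subgroup.centralizer ({x} : Set (GL (Fin n) F))) = q ^ n - 1 := by
  classical
  obtain ⟨hirr, hdeg⟩ := minpoly_of_primitive hF hn hr hrp hi x hx
  haveI : Nonempty (Fin n) := ⟨⟨0, hn⟩⟩
  set M : Matrix (Fin n) (Fin n) F := (x : Matrix (Fin n) (Fin n) F) with hM
  set P := minpoly F M
  haveI := Fact.mk hirr
  let pb := AdjoinRoot.powerBasis hirr.ne_zero
  haveI : Module.Finite F (AdjoinRoot P) := pb.finite
  haveI : Finite (AdjoinRoot P) := Module.finite_of_finite F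
  haveI : Fintype (AdjoinRoot P) := Fintype.ofFinite _
  have hfr : Module.finrank F (AdjoinRoot P) = n := by
    rw [pb.finrank, AdjoinRoot.powerBasis_dim, hdeg]
  have hcard : Fintype.card (AdjoinRoot P) = q ^ n := by
    rw [Module.card_eq_pow_finrank (K := F), hF, hfr]
  let φ : AdjoinRoot P →ₐ[F] Matrix (Fin n) (Fin n) F :=
    Ideal.Quotient.liftₐ _ (Polynomial.aeval M) fun a ha => by
      obtain ⟨b, rfl⟩ := Ideal.mem_span_singleton'.1 ha
      rw [map_mul, minpoly.aeval, mul_zero]
  have hφinj : Function.Injective φ := φ.toRingHom.injective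
  have hφroot : φ (AdjoinRoot.root P) = M := by
    show Polynomial.aeval M (X : F[X]) = M
    rw [aeval_X]
  obtain ⟨v, hv⟩ : ∃ v : Fin n → F, v ≠ 0 := ⟨Pi.single ⟨0, hn⟩ 1, by simp⟩
  let ev : AdjoinRoot P →ₗ[F] (Fin n → F) :=
    { toFun := fun a => φ a *ᵥ v
      map_add' := fun a b => by rw [map_add, add_mulVec]
      map_smul' := fun c a => by rw [map_smul, smul_mulVec, RingHom.id_apply] }
  have hevinj : Function.Injective ev := by
    rw [injective_iff_map_eq_zero]
    intro a ha
    by_contra h0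
    have h1 : φ a⁻¹ *ᵥ (φ a *ᵥ v) = v := by
      rw [mulVec_mulVec, ← map_mul, inv_mul_cancel₀ h0, map_one, one_mulVec]
    change φ a *ᵥ v = 0 at ha
    rw [ha, mulVec_zero] at h1
    exact hv h1.symm
  have hevsurj : Function.Surjective ev :=
    (LinearMap.injective_iff_surjective_of_finrank_eq_finrank
      (by rw [hfr, Module.finrank_fintype_fun_eq_card, Fintype.card_fin])).1 hevinj
  let Φ : (AdjoinRoot P)ˣ →* GL (Fin n) F := Units.map φ.toRingHom.toMonoidHom
  have hrange : Φ.range = Subgroup.centralizer {x} := by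
    apply le_antisymm
    · rintro _ ⟨u, rfl⟩
      rw [Subgroup.mem_centralizer_singleton_iff]
      apply Units.ext
      show φ (u : AdjoinRoot P) * M = M * φ (u : AdjoinRoot P)
      rw [← hφroot, ← map_mul, ← map_mul, mul_comm]
    · intro y hy
      rw [Subgroup.mem_centralizer_singleton_iff] at hy
      obtain ⟨a, ha⟩ := hevsurj ((y : Matrix (Fin n) (Fin n) F) *ᵥ v)
      have hcommx : Commute (y : Matrix (Fin n) (Fin n) F) M := congrArg Units.val hy
      have hya : ∀ b, Commute (y : Matrix (Fin n) (Fin n) F) (φ b) := by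
        intro b
        obtain ⟨g, rfl⟩ := AdjoinRoot.mk_surjective b
        rw [← AdjoinRoot.aeval_eq, ← Polynomial.aeval_algHom_apply, hφroot]
        induction g using Polynomial.induction_on' with
        | add g h hg hh => rw [map_add]; exact hg.add_right hh
        | monomial k c =>
          rw [aeval_monomial]
          exact (Algebra.commute_algebraMap_right c _).mul_right (hcommx.pow_right k)
      have heq : φ a = (y : Matrix (Fin n) (Fin n) F) := by
        apply Matrix.ext_iff_mulVec.2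
        intro w
        obtain ⟨b, rfl⟩ := hevsurj w
        show φ a *ᵥ (φ b *ᵥ v) = _ *ᵥ (φ b *ᵥ v)
        rw [mulVec_mulVec, mulVec_mulVec, (hya b).eq, ← map_mul, mul_comm, map_mul,
          ← mulVec_mulVec, ← mulVec_mulVec, show φ a *ᵥ v = _ from ha]
      have ha0 : a ≠ 0 := by
        intro h0
        rw [h0, map_zero] at heq
        exact y.isUnit.ne_zero heq.symm
      exact ⟨Units.mk0 a ha0, Units.ext heq⟩
  rw [← hrange]
  have hΦ : Function.Injective Φ := fun a b h => Units.ext (hφinj (congrArg Units.val h))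
  refine ⟨isCyclic_of_surjective Φ.rangeRestrict Φ.rangeRestrict_surjective, ?_⟩
  rw [← Nat.card_congr (MonoidHom.ofInjective hΦ).toEquiv, Nat.card_units, Nat.card_eq_fintype_card,
    hcard]

end Cfsg.Agent.H67
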