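import Mathlib
import Cfsg.Agent.H66.SemisimpleGL
import Cfsg.Agent.H67.Monomial

set_option autoImplicit false

/-!
# Classes of order `r` in a matrix group modulo its scalars, `r` dividing the number of scalars
-/

namespace Cfsg.Agent.H67

open Polynomial

section Orbits

variable {μ : Type*} [CommGroup μ]

/-- Nonconstant multisets of size `n`. -/
abbrev NCSym (μ : Type*) (n : ℕ) : Type _ := {s : Sym μ n // ∀ z : μ, s ≠ Sym.replicate n z}

theorem ncsym_smul_aux {n : ℕ} (ζ : μ) (s : Sym μ n) (hs : ∀ z, s ≠ Sym.replicate n z) (z : μ) :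
    Sym.map (ζ * ·) s ≠ Sym.replicate n z := by
  intro h
  apply hs (ζ⁻¹ * z)
  have h2 := congrArg (Sym.map (ζ⁻¹ * ·)) h
  rw [Sym.map_map] at h2
  simp only [Function.comp_def, inv_mul_cancel_left, Sym.map_id'] at h2
  rw [h2]
  apply Sym.coe_injective
  rw [Sym.coe_map, Sym.coe_replicate, Sym.coe_replicate, Multiset.map_replicate]

instance {n : ℕ} : MulAction μ (NCSym μ n) where
  smul ζ s := ⟨Sym.map (ζ * ·) s.1, ncsym_smul_aux ζ s.1 s.2⟩
  one_smul s := Subtype.ext (by
    show Sym.map (1 * ·) s.1 = s.1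
    simp)
  mul_smul a b s := Subtype.ext (by
    show Sym.map (a * b * ·) s.1 = Sym.map (a * ·) (Sym.map (b * ·) s.1)
    rw [Sym.map_map]
    simp [Function.comp_def, mul_assoc])

theorem ncsym_smul_coe {n : ℕ} (ζ : μ) (s : NCSym μ n) :
    ((ζ • s).1 : Multiset μ) = (s.1 : Multiset μ).map (ζ * ·) := rfl

variable [Fintype μ] [DecidableEq μ]

/-- The number of orbits on nonconstant multisets, for `μ` of prime order `r`. -/
theorem card_ncsym_orbits {r n : ℕ} (hr : r.Prime) (hμ : Fintype.card μ = r) (hn : 2 ≤ n) :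
    Nat.card (MulAction.orbitRel.Quotient μ (NCSym μ n)) =
      (Nat.choose (n + r - 1) (r - 1) - r - (if r ∣ n then 1 else 0)) / r + (if r ∣ n then 1 else 0) := by
  classical
  set X := NCSym μ n
  have hX : Fintype.card X = Nat.choose (n + r - 1) (r - 1) - r := by
    have hinj : Function.Injective (fun z : μ => Sym.replicate n z) := fun a b h =>
      Sym.replicate_right_injective (by omega) h
    have e : X ≃ {s : Sym μ n // ¬ s ∈ Finset.univ.image (fun z : μ => Sym.replicate n z)} :=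
      Equiv.subtypeEquivRight fun s => by simp [eq_comm]
    rw [Fintype.card_congr e, Fintype.card_subtype_compl, Fintype.card_coe,
      Finset.card_image_of_injective _ hinj, Finset.card_univ, Sym.card_sym_eq_choose, hμ,
      show r + n - 1 = n + (r - 1) by have := hr.one_le; omega,
      show n + r - 1 = n + (r - 1) by have := hr.one_le; omega, Nat.choose_symm_add]
  have hfixed : ∀ ζ : μ, ζ ≠ 1 → Fintype.card (MulAction.fixedBy X ζ) = if r ∣ n then 1 else 0 := by
    intro ζ hζ
    have hconst : ∀ s : X, ζ • s = s → ∀ z, (s.1 : Multiset μ).count z = (s.1 : Multiset μ).count 1 := by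
      intro s hs z
      have h1 : ∀ y, (s.1 : Multiset μ).count (ζ * y) = (s.1 : Multiset μ).count y := fun y => by
        conv_lhs => rw [← hs, ncsym_smul_coe,
          Multiset.count_map_eq_count' _ _ (mul_right_injective ζ)]
      have h2 : ∀ j : ℕ, (s.1 : Multiset μ).count (ζ ^ j) = (s.1 : Multiset μ).count 1 := by
        intro j
        induction j with
        | zero => rw [pow_zero]
        | succ j ih => rw [pow_succ', h1, ih]
      haveI : Fact r.Prime := ⟨hr⟩
      obtain ⟨j, hj⟩ := mem_powers_of_prime_card (g' := z) (by rw [Nat.card_eq_fintype_card, hμ]) hζ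
      rw [← hj, h2]
    have hsum : ∀ s : X, ζ • s = s → r * (s.1 : Multiset μ).count 1 = n := by
      intro s hs
      calc r * (s.1 : Multiset μ).count 1 = ∑ z : μ, (s.1 : Multiset μ).count z := by
            rw [Finset.sum_congr rfl fun z _ => hconst s hs z, Finset.sum_const, Finset.card_univ, hμ,
              smul_eq_mul]
        _ = n := by
            rw [Multiset.sum_count_eq_card fun z _ => Finset.mem_univ z]; exact s.1.2
    split_ifs with hrn
    · obtain ⟨k, hk⟩ := hrn
      set M : Multiset μ := k • (Finset.univ : Finset μ).val with hM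
      have hMc : M.card = n := by
        rw [hM, Multiset.card_nsmul, hk, Finset.card_val, Finset.card_univ, hμ, mul_comm]
      have hcount : ∀ z, M.count z = k := fun z => by
        rw [hM, Multiset.count_nsmul, Multiset.count_eq_one_of_mem Finset.univ.nodup (Finset.mem_univ z),
          mul_one]
      have hM0 : ∀ z : μ, (⟨M, hMc⟩ : Sym μ n) ≠ Sym.replicate n z := by
        intro z h
        have h2 := congrArg (fun s : Sym μ n => (s : Multiset μ).count (ζ * z)) h
        simp only [Sym.coe_replicate, Multiset.count_replicate] at h2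
        rw [if_neg (fun h' => hζ (mul_eq_right.1 h'.symm))] at h2
        change M.count (ζ * z) = 0 at h2
        rw [hcount] at h2
        rw [h2, mul_zero] at hk
        omega
      rw [Fintype.card_eq_one_iff]
      refine ⟨⟨⟨⟨M, hMc⟩, hM0⟩, ?_⟩, fun s => ?_⟩
      · refine Subtype.ext (Sym.coe_injective ?_)
        rw [ncsym_smul_coe]
        refine Multiset.ext.2 fun z => ?_
        show (M.map (ζ * ·)).count z = M.count z
        conv_lhs => rw [← mul_inv_cancel_left ζ z]
        rw [Multiset.count_map_eq_count' _ _ (mul_right_injective ζ), hcount, hcount]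
      · refine Subtype.ext (Subtype.ext (Sym.coe_injective (Multiset.ext.2 fun z => ?_)))
        show (s.1.1 : Multiset μ).count z = M.count z
        rw [hconst s.1 s.2 z, hcount]
        have := hsum s.1 s.2
        exact Nat.eq_of_mul_eq_mul_left hr.pos (this.trans hk)
    · rw [Fintype.card_eq_zero_iff]
      exact ⟨fun s => hrn ⟨_, (hsum s.1 s.2).symm⟩⟩
  have hB := MulAction.sum_card_fixedBy_eq_card_orbits_mul_card_group μ X
  rw [← Finset.add_sum_erase _ _ (Finset.mem_univ (1 : μ)),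
    Finset.sum_congr rfl fun ζ hζ => hfixed ζ (Finset.ne_of_mem_erase hζ), Finset.sum_const,
    Finset.card_erase_of_mem (Finset.mem_univ _), Finset.card_univ, hμ, smul_eq_mul] at hB
  have hone : Fintype.card (MulAction.fixedBy X (1 : μ)) = Fintype.card X :=
    Fintype.card_congr (Equiv.subtypeUnivEquiv fun s => one_smul μ s)
  rw [hone, hX] at hB
  rw [Nat.card_eq_fintype_card]
  change _ = Fintype.card (MulAction.orbitRel.Quotient μ X) * r at hB
  obtain ⟨r', rfl⟩ : ∃ r', r = r' + 1 := ⟨r - 1, by have := hr.one_le; omega⟩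
  simp only [Nat.add_sub_cancel, show n + (r' + 1) - 1 = n + r' by omega] at hB ⊢
  set Bc := Nat.choose (n + r') r' - (r' + 1)
  split_ifs at hB ⊢ with hrn
  · rw [mul_one] at hB
    generalize Fintype.card (MulAction.orbitRel.Quotient μ X) = O at hB ⊢
    rcases O with _ | O
    · have := hr.two_le; simp at hB; omega
    · rw [show Bc - 1 = O * (r' + 1) by rw [add_mul, one_mul] at hB; omega,
        Nat.mul_div_cancel _ (Nat.succ_pos r')]
  · rw [mul_zero, add_zero] at hB
    rw [Nat.sub_zero, add_zero, hB, Nat.mul_div_cancel _ (Nat.succ_pos r')]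

end Orbits

variable {K : Type*} [Field K] [Fintype K] {n r p : ℕ} [Fact p.Prime] [CharP K p]

/-- `r`-th roots of unity. -/
abbrev muR (r : ℕ) (K : Type*) [Field K] : Subgroup Kˣ := (powMonoidHom r : Kˣ →* Kˣ).ker

theorem mem_muR {z : Kˣ} : z ∈ muR r K ↔ z ^ r = 1 := Iff.rfl

theorem prod_X_sub_C_muR (hr : 0 < r) (hcard : Nat.card (muR r K) = r) :
    ∃ S : Finset K, (∀ z ∈ S, ∃ u : muR r K, ((u : Kˣ) : K) = z) ∧
      (X ^ r - 1 : K[X]) = ∏ z ∈ S, (X - C z) := by
  classical
  have hinj : Function.Injective fun u : muR r K => ((u : Kˣ) : K) :=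
    fun a b h => Subtype.ext (Units.ext h)
  set S := (Finset.univ : Finset (muR r K)).image fun u : muR r K => ((u : Kˣ) : K) with hS
  have hSc : S.card = r := by
    rw [hS, Finset.card_image_of_injective _ hinj, Finset.card_univ, ← Nat.card_eq_fintype_card, hcard]
  have hm : (X ^ r - 1 : K[X]).Monic := by rw [← C_1]; exact monic_X_pow_sub_C 1 hr.ne'
  have hdeg : (X ^ r - 1 : K[X]).natDegree = r := by rw [← C_1, natDegree_X_pow_sub_C]
  refine ⟨S, fun z hz => by simpa [hS] using hz, ?_⟩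
  have hroots : S.val ≤ (X ^ r - 1 : K[X]).roots := by
    refine (Multiset.le_iff_subset S.nodup).2 fun z hz => ?_
    obtain ⟨u, -, rfl⟩ := Finset.mem_image.1 hz
    rw [mem_roots hm.ne_zero]
    simpa [IsRoot, sub_eq_zero] using congrArg Units.val (mem_muR.1 u.2)
  have heq : S.val = (X ^ r - 1 : K[X]).roots := Multiset.eq_of_le_of_card_le hroots (by
    rw [Finset.card_val, hSc]; exact (card_roots' _).trans hdeg.le)
  rw [Finset.prod_eq_multiset_prod, heq]
  refine (prod_multiset_X_sub_C_of_monic_of_roots_card_eq hm ?_).symm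
  rw [← heq, Finset.card_val, hSc, hdeg]

theorem card_proj_order_classes (G : Subgroup (GL (Fin n) K)) (Λ : Subgroup Kˣ) (hn : 2 ≤ n)
    (hr : r.Prime) (hne : r ≠ p) (hrΛ : r ∣ Nat.card Λ)
    (hpow : ∀ c ∈ Λ, ∀ l : Kˣ, l ^ r = c → l ∈ Λ)
    (hmono : ∀ (e : Equiv.Perm (Fin n)) (w : Fin n → Kˣ), (∀ i, w i ∈ Λ) → mono e w ∈ G)
    (hcenter : ∀ g : G, g ∈ Subgroup.center G ↔ ∃ l ∈ Λ, (g : GL (Fin n) K) = scalGL n l)
    (hconj : ∀ g h : G, (orderOf (g : GL (Fin n) K)).Coprime p →
      IsConj (g : GL (Fin n) K) (h : GL (Fin n) K) → IsConj g h) :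
    Nat.card {C : ConjClasses (G ⧸ Subgroup.center G) //
        ∃ g : G ⧸ Subgroup.center G, ConjClasses.mk g = C ∧ orderOf g = r} =
      (Nat.choose (n + r - 1) (r - 1) - r - (if r ∣ n then 1 else 0)) / r +
        r * (if r ∣ n then 1 else 0) := by
  classical
  haveI := Fact.mk hr
  have hn0 : 0 < n := by omega
  let Z := Subgroup.center G
  let π : G →* G ⧸ Z := QuotientGroup.mk' Z
  have hπeq : ∀ g h : G, π g = π h ↔ ∃ l ∈ Λ, (h : GL (Fin n) K) = scalGL n l * g := by
    intro g h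
    rw [QuotientGroup.mk'_eq_mk']
    constructor
    · rintro ⟨z, hz, rfl⟩
      obtain ⟨l, hl, hlz⟩ := (hcenter z).1 hz
      exact ⟨l, hl, by rw [Subgroup.coe_mul, hlz]; exact ((scalGL_commute l _).eq).symm⟩
    · rintro ⟨l, hl, hlh⟩
      refine ⟨g⁻¹ * h, (hcenter _).2 ⟨l, hl, ?_⟩, by group⟩
      rw [Subgroup.coe_mul, Subgroup.coe_inv, hlh, (scalGL_commute l _).eq, inv_mul_cancel_left]
  set μ := muR r K with hμdef
  have hrK : r ∣ Nat.card Kˣ := hrΛ.trans (Subgroup.card_subgroup_dvd_card Λ)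
  have hμc : Nat.card μ = r := by
    rw [hμdef, IsCyclic.card_powMonoidHom_ker, Nat.gcd_eq_right hrK]
  have hμΛ : ∀ z : μ, (z : Kˣ) ∈ Λ := fun z => hpow 1 Λ.one_mem z z.2
  have hcop : ∀ g : G, (∃ c : Kˣ, (g : GL (Fin n) K) ^ r = scalGL n c) →
      (orderOf (g : GL (Fin n) K)).Coprime p := by
    rintro g ⟨c, hc⟩
    have h : (g : GL (Fin n) K) ^ (r * Nat.card Kˣ) = 1 := by
      rw [pow_mul, hc, ← scalGL_pow, pow_card_eq_one', scalGL_one]
    refine Nat.Coprime.coprime_dvd_left (orderOf_dvd_of_pow_eq_one h) ?_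
    refine Nat.Coprime.mul_left ((Nat.coprime_primes hr Fact.out).2 hne) ?_
    rw [Nat.card_eq_fintype_card, Fintype.card_units]
    obtain ⟨j, hpp, hj⟩ := FiniteField.card K p
    refine ((Fact.out : p.Prime).coprime_iff_not_dvd.2 fun hd => ?_).symm
    have hd2 : p ∣ Fintype.card K := hj ▸ dvd_pow_self p j.ne_zero
    have h1 := Nat.dvd_sub hd2 hd
    rw [show Fintype.card K - (Fintype.card K - 1) = 1 by
      have := Fintype.card_pos (α := K); omega] at h1
    exact (Fact.out : p.Prime).not_dvd_one h1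
  have hcharconj : ∀ g h : G, (∃ c : Kˣ, (g : GL (Fin n) K) ^ r = scalGL n c) →
      (∃ c : Kˣ, (h : GL (Fin n) K) ^ r = scalGL n c) →
      ((g : GL (Fin n) K) : Matrix (Fin n) (Fin n) K).charpoly =
        ((h : GL (Fin n) K) : Matrix (Fin n) (Fin n) K).charpoly → IsConj g h :=
    fun g h hg hh he => hconj g h (hcop g hg) (H66.isConj_of_charpoly_eq p (hcop g hg) (hcop h hh) he)
  have hchar_conj : ∀ (x y : GL (Fin n) K), ((x * y * x⁻¹ : GL (Fin n) K) :
      Matrix (Fin n) (Fin n) K).charpoly = (y : Matrix (Fin n) (Fin n) K).charpoly := fun x y => by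
    rw [Units.val_mul, Units.val_mul, Matrix.charpoly_mul_comm, ← mul_assoc, ← Units.val_mul,
      inv_mul_cancel, Units.val_one, one_mul]
  -- classes carrying a lift with `g ^ r = 1`
  let CC := ConjClasses (G ⧸ Z)
  let Split : CC → Prop := fun C => ∃ g : G, ConjClasses.mk (π g) = C ∧ g ^ r = 1
  let Ord : CC → Prop := fun C => ∃ x : G ⧸ Z, ConjClasses.mk x = C ∧ orderOf x = r
  have hlift : ∀ C, Ord C → ∃ (g : G) (c : Kˣ), c ∈ Λ ∧ ConjClasses.mk (π g) = C ∧
      (g : GL (Fin n) K) ^ r = scalGL n c ∧ ∀ l ∈ Λ, (g : GL (Fin n) K) ≠ scalGL n l := by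
    rintro _ ⟨x, rfl, hx⟩
    obtain ⟨g, rfl⟩ := QuotientGroup.mk'_surjective Z x
    have h1 : π g ^ r = 1 := orderOf_dvd_iff_pow_eq_one.1 hx.dvd
    rw [← map_pow, eq_comm, ← map_one π, hπeq] at h1
    obtain ⟨c, hc, hcg⟩ := h1
    refine ⟨g, c, hc, rfl, by rwa [SubmonoidClass.coe_pow, OneMemClass.coe_one, mul_one] at hcg,
      fun l hl hgl => ?_⟩
    have h2 : π g = 1 := (QuotientGroup.eq_one_iff g).2 ((hcenter g).2 ⟨l, hl, hgl⟩)
    rw [h2, orderOf_one] at hx
    exact hr.ne_one hx.symm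
  have hord : ∀ g : G, (∀ l ∈ Λ, (g : GL (Fin n) K) ≠ scalGL n l) →
      (∃ c ∈ Λ, (g : GL (Fin n) K) ^ r = scalGL n c) → Ord (ConjClasses.mk (π g)) := by
    rintro g hg ⟨c, hc, hcg⟩
    refine ⟨π g, rfl, orderOf_eq_prime ?_ ?_⟩
    · rw [← map_pow, eq_comm, ← map_one π, hπeq]
      exact ⟨c, hc, by rw [SubmonoidClass.coe_pow, OneMemClass.coe_one, mul_one, hcg]⟩
    · intro h
      obtain ⟨l, hl, hlg⟩ := (hcenter g).1 ((QuotientGroup.eq_one_iff g).1 h)
      exact hg l hl hlg
  have hconjlift : ∀ g h : G, ConjClasses.mk (π g) = ConjClasses.mk (π h) →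
      ∃ (x : G) (l : Kˣ), l ∈ Λ ∧ (h : GL (Fin n) K) = scalGL n l * ((x : GL (Fin n) K) * g * (x : GL (Fin n) K)⁻¹) := by
    intro g h hgh
    obtain ⟨y, hy⟩ := isConj_iff.1 (ConjClasses.mk_eq_mk_iff_isConj.1 hgh)
    obtain ⟨x, rfl⟩ := QuotientGroup.mk'_surjective Z y
    rw [← map_inv, ← map_mul, ← map_mul, hπeq] at hy
    obtain ⟨l, hl, hlh⟩ := hy
    exact ⟨x, l, hl, by simpa using hlh⟩
  -- split classes
  let dv : (Fin n → μ) → G := fun v =>
    ⟨mono (Equiv.refl _) (fun i => (v i : Kˣ)), hmono _ _ fun i => hμΛ (v i)⟩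
  have hdvchar : ∀ v : Fin n → μ, ((dv v : GL (Fin n) K) : Matrix (Fin n) (Fin n) K).charpoly =
      (((Finset.univ : Finset (Fin n)).val.map v).map fun z : μ => X - C ((z : Kˣ) : K)).prod := by
    intro v
    have : ((dv v : GL (Fin n) K) : Matrix (Fin n) (Fin n) K) =
        Matrix.diagonal fun i => ((v i : Kˣ) : K) := by
      ext i j
      show monoMat (Equiv.refl (Fin n)) (fun j => ((v j : μ) : Kˣ)) i j = _
      simp [monoMat, Matrix.diagonal_apply]
      rfl
    rw [this, Matrix.charpoly_diagonal, Multiset.map_map]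
    rfl
  have hdvpow : ∀ v, dv v ^ r = 1 := by
    intro v
    refine Subtype.ext (Units.ext (Matrix.ext_iff_mulVec.2 fun u => funext fun i => ?_))
    rw [SubmonoidClass.coe_pow, mono_pow_mulVec, OneMemClass.coe_one, Units.val_one, Matrix.one_mulVec,
      show ((Equiv.refl (Fin n) : Equiv.Perm (Fin n)) ^ r) i = i by
        rw [show (Equiv.refl (Fin n) : Equiv.Perm (Fin n)) = 1 from rfl, one_pow]; rfl]
    have : ∀ s : ℕ, ((Equiv.refl (Fin n) : Equiv.Perm (Fin n)) ^ s) i = i := fun s => by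
      rw [show (Equiv.refl (Fin n) : Equiv.Perm (Fin n)) = 1 from rfl, one_pow]; rfl
    simp only [this, Finset.prod_const, Finset.card_range]
    have h1 : ((v i : Kˣ) : K) ^ r = 1 := by
      rw [← Units.val_pow_eq_pow_val, mem_muR.1 (v i).2, Units.val_one]
    rw [h1, one_mul]
  have hrootsinj : ∀ M M' : Multiset μ, (M.map fun z : μ => X - C ((z : Kˣ) : K)).prod =
      (M'.map fun z : μ => X - C ((z : Kˣ) : K)).prod → M = M' := by
    intro M M' h
    have h1 := congrArg Polynomial.roots h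
    rw [← Function.comp_def (fun x : K => X - C x) (fun z : μ => ((z : Kˣ) : K)), ← Multiset.map_map,
      ← Multiset.map_map, roots_multiset_prod_X_sub_C, roots_multiset_prod_X_sub_C] at h1
    exact Multiset.map_injective (fun a b e => Subtype.ext (Units.ext e)) h1
  obtain ⟨S, hS, hSp⟩ := prod_X_sub_C_muR hr.pos hμc
  have hsplitrep : ∀ g : G, g ^ r = 1 → ∃ v : Fin n → μ, IsConj g (dv v) := by
    intro g hg
    obtain ⟨v, hv, hvp⟩ := exists_charpoly_roots (A := ((g : GL (Fin n) K) : Matrix (Fin n) (Fin n) K))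
      (by rw [← Units.val_pow_eq_pow_val, ← SubmonoidClass.coe_pow, hg]; rfl) hr.pos S hSp
    choose u hu using fun i => hS _ (hv i)
    refine ⟨u, hcharconj _ _ ⟨1, ?_⟩ ⟨1, ?_⟩ ?_⟩
    · rw [← SubmonoidClass.coe_pow, hg, scalGL_one]; rfl
    · rw [← SubmonoidClass.coe_pow, hdvpow, scalGL_one]; rfl
    · rw [hvp, hdvchar, Multiset.map_map]
      simp only [Function.comp_def, hu]
      rfl
  have hdvne : ∀ v : Fin n → μ, ∀ s : NCSym μ n, (Finset.univ : Finset (Fin n)).val.map v = s.1 →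
      ∀ l ∈ Λ, (dv v : GL (Fin n) K) ≠ scalGL n l := by
    intro v s hvs l _ h
    have hvi : ∀ i, (v i : Kˣ) = l := fun i => by
      have h1 := congrArg (fun g : GL (Fin n) K => (g : Matrix (Fin n) (Fin n) K) i i) h
      simp only [scalGL_val, Matrix.smul_apply, Matrix.one_apply_eq, smul_eq_mul, mul_one] at h1
      refine Units.ext ?_
      rw [← h1]
      show _ = monoMat (Equiv.refl (Fin n)) (fun j => ((v j : μ) : Kˣ)) i i
      simp [monoMat]
    refine s.2 (v ⟨0, hn0⟩) (Sym.coe_injective ?_)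
    rw [← hvs, Sym.coe_replicate, Multiset.eq_replicate]
    refine ⟨by simp, fun b hb => ?_⟩
    obtain ⟨i, -, rfl⟩ := Multiset.mem_map.1 hb
    exact Subtype.ext ((hvi i).trans (hvi _).symm)
  choose vOf hvOf using fun s : NCSym μ n => exists_fun_map_eq (s.1 : Multiset μ) s.1.2
  have hshift : ∀ (ζ : μ) (v : Fin n → μ),
      (dv (fun i => ζ * v i) : GL (Fin n) K) = scalGL n (ζ : Kˣ) * dv v := fun ζ v =>
    Units.ext (by
      show monoMat _ _ = monoMat _ _ * monoMat _ _
      rw [monoMat_mul]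
      rfl)
  let f : NCSym μ n → {C : CC // Ord C ∧ Split C} := fun s =>
    ⟨ConjClasses.mk (π (dv (vOf s))), hord _ (hdvne _ s (hvOf s)) ⟨1, Λ.one_mem, by
      rw [← SubmonoidClass.coe_pow, hdvpow, scalGL_one]; rfl⟩, dv (vOf s), rfl, hdvpow _⟩
  have hf : ∀ s t, f s = f t ↔ s ∈ MulAction.orbit μ t := by
    intro s t
    constructor
    · intro h
      obtain ⟨x, l, hl, hlh⟩ := hconjlift _ _ (congrArg Subtype.val h).symm
      have hl1 : l ^ r = 1 := by
        refine scalGL_injective (K := K) hn0 ?_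
        have h1 := congrArg (fun g : GL (Fin n) K => g ^ r) hlh
        beta_reduce at h1
        rw [(scalGL_commute l _).mul_pow, conj_pow, ← SubmonoidClass.coe_pow, ← SubmonoidClass.coe_pow,
          hdvpow, hdvpow, OneMemClass.coe_one, mul_one, mul_inv_cancel, mul_one] at h1
        rw [scalGL_pow, scalGL_one, ← h1]
      let ζ : μ := ⟨l, mem_muR.2 hl1⟩
      have h2 : (dv (vOf s) : GL (Fin n) K) =
          (x : GL (Fin n) K) * dv (fun i => ζ * vOf t i) * (x : GL (Fin n) K)⁻¹ := by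
        rw [hlh, hshift]
        show scalGL n l * ((x : GL (Fin n) K) * dv (vOf t) * (x : GL (Fin n) K)⁻¹) =
          (x : GL (Fin n) K) * (scalGL n l * dv (vOf t)) * (x : GL (Fin n) K)⁻¹
        simp only [← mul_assoc]
        rw [(scalGL_commute l (x : GL (Fin n) K)).eq]
      have h3 := congrArg (fun g : GL (Fin n) K => (g : Matrix (Fin n) (Fin n) K).charpoly) h2
      simp only [hchar_conj, hdvchar] at h3
      refine ⟨ζ, Subtype.ext (Sym.coe_injective ?_)⟩
      rw [ncsym_smul_coe, ← hvOf t, ← hvOf s, hrootsinj _ _ h3, Multiset.map_map]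
      rfl
    · rintro ⟨ζ, rfl⟩
      refine Subtype.ext ?_
      show ConjClasses.mk (π (dv (vOf (ζ • t)))) = ConjClasses.mk (π (dv (vOf t)))
      have h1 : π (dv (vOf t)) = π (dv fun i => ζ * vOf t i) :=
        (hπeq _ _).2 ⟨ζ, hμΛ ζ, hshift ζ _⟩
      rw [h1]
      refine ConjClasses.mk_eq_mk_iff_isConj.2 (π.map_isConj (hcharconj _ _
        ⟨1, by rw [← SubmonoidClass.coe_pow, hdvpow, scalGL_one]; rfl⟩
        ⟨1, by rw [← SubmonoidClass.coe_pow, hdvpow, scalGL_one]; rfl⟩ ?_))
      rw [hdvchar, hdvchar, hvOf, ncsym_smul_coe, ← hvOf t]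
      simp only [Multiset.map_map, Function.comp_def]
  have hfsurj : Function.Surjective f := by
    rintro ⟨C, hO, g, hgC, hg⟩
    obtain ⟨v, hv⟩ := hsplitrep g hg
    have hnc : ∀ z : μ, (Sym.mk ((Finset.univ : Finset (Fin n)).val.map v) (by simp) : Sym μ n) ≠
        Sym.replicate n z := by
      intro z h
      obtain ⟨g', c, -, hg'C, -, hg'ne⟩ := hlift C hO
      obtain ⟨x, hx⟩ := isConj_iff.1 hv.symm
      obtain ⟨y, l, hl, hlh⟩ := hconjlift g g' (hgC.trans hg'C.symm)
      have hvz : dv v = ⟨scalGL n (z : Kˣ), hmono _ _ fun _ => hμΛ z⟩ := by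
        refine Subtype.ext ?_
        have : v = fun _ => z := funext fun i => by
          have h1 : v i ∈ ((Finset.univ : Finset (Fin n)).val.map v) :=
            Multiset.mem_map_of_mem v (Finset.mem_univ i)
          have h2 := congrArg (fun s : Sym μ n => (s : Multiset μ)) h
          simp only [Sym.coe_replicate] at h2
          exact Multiset.eq_of_mem_replicate (show v i ∈ Multiset.replicate n z by rw [← h2]; exact h1)
        rw [this]
        rfl
      have hgz : (g : GL (Fin n) K) = scalGL n (z : Kˣ) := by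
        rw [← hx, hvz, Subgroup.coe_mul, Subgroup.coe_mul, Subgroup.coe_inv,
          ← (scalGL_commute _ _).eq, mul_inv_cancel_right]
      refine hg'ne (l * z) (Λ.mul_mem hl (hμΛ z)) ?_
      rw [hlh, hgz, ← (scalGL_commute _ (y : GL (Fin n) K)).eq, mul_inv_cancel_right, scalGL_mul]
    refine ⟨⟨Sym.mk _ (by simp), hnc⟩, Subtype.ext (Eq.trans ?_ hgC)⟩
    refine ConjClasses.mk_eq_mk_iff_isConj.2 (π.map_isConj (IsConj.trans ?_ hv.symm))
    refine hcharconj _ _ ⟨1, by rw [← SubmonoidClass.coe_pow, hdvpow, scalGL_one]; rfl⟩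
      ⟨1, by rw [← SubmonoidClass.coe_pow, hdvpow, scalGL_one]; rfl⟩ ?_
    rw [hdvchar, hdvchar, hvOf]
    rfl
  have hsplit : Nat.card {C : CC // Ord C ∧ Split C} =
      Nat.card (MulAction.orbitRel.Quotient μ (NCSym μ n)) := by
    symm
    refine Nat.card_eq_of_bijective (Quotient.lift f fun s t h => (hf s t).2 h) ⟨?_, ?_⟩
    · intro a b
      induction a using Quotient.inductionOn
      induction b using Quotient.inductionOn
      exact fun h => Quotient.sound ((hf _ _).1 h)
    · intro C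
      obtain ⟨s, rfl⟩ := hfsurj C
      exact ⟨Quotient.mk _ s, rfl⟩
  -- non-split classes
  have hnosplit : ∀ (g : G) (c : Kˣ), (g : GL (Fin n) K) ^ r = scalGL n c →
      ¬ Split (ConjClasses.mk (π g)) → ∀ l : Kˣ, l ∈ Λ → l ^ r ≠ c := by
    intro g c hg hs l hl hlc
    let d : G := ⟨scalGL n l⁻¹, hmono _ _ fun _ => Λ.inv_mem hl⟩
    refine hs ⟨d * g, ?_, Subtype.ext ?_⟩
    · refine congrArg _ ((hπeq _ _).2 ⟨l, hl, ?_⟩)
      rw [Subgroup.coe_mul, ← mul_assoc, ← scalGL_mul, mul_inv_cancel, scalGL_one, one_mul]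
    · rw [SubmonoidClass.coe_pow, Subgroup.coe_mul, (scalGL_commute _ _).mul_pow, hg, ← scalGL_pow,
        ← scalGL_mul, inv_pow, hlc, inv_mul_cancel, scalGL_one]
      rfl
  have hnoroot : ∀ c ∈ Λ, (∀ l : Kˣ, l ∈ Λ → l ^ r ≠ c) → ∀ b : K, b ^ r ≠ (c : K) := by
    intro c hc h b hb
    have hb0 : b ≠ 0 := by
      rintro rfl
      rw [zero_pow hr.ne_zero] at hb
      exact c.ne_zero hb.symm
    have hu : (Units.mk0 b hb0) ^ r = c := Units.ext (by simpa using hb)
    exact h _ (hpow c hc _ hu) hu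
  have hscalpow : ∀ (c : Kˣ) (g : G), (g : GL (Fin n) K) ^ r = scalGL n c →
      ((g : GL (Fin n) K) : Matrix (Fin n) (Fin n) K) ^ r = (c : K) • 1 := fun c g hg => by
    rw [← Units.val_pow_eq_pow_val, hg, scalGL_val]
  have hnon : Nat.card {C : CC // Ord C ∧ ¬ Split C} = if r ∣ n then r - 1 else 0 := by
    split_ifs with hrn
    · set P : Subgroup Λ := (powMonoidHom r : Λ →* Λ).range with hP
      have hmemP : ∀ c : Λ, c ∈ P ↔ ∃ l ∈ Λ, l ^ r = (c : Kˣ) := by
        intro c
        constructor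
        · rintro ⟨l, rfl⟩; exact ⟨l, l.2, rfl⟩
        · rintro ⟨l, hl, hlc⟩; exact ⟨⟨l, hl⟩, Subtype.ext hlc⟩
      have hidx : P.index = r := by
        rw [hP, IsCyclic.index_powMonoidHom_range, Nat.gcd_eq_right hrΛ]
      have hmk : ∀ c : {c : Λ ⧸ P // c ≠ 1}, ∃ (g : G) (d : Λ), QuotientGroup.mk d = c.1 ∧
          (g : GL (Fin n) K) ^ r = scalGL n (d : Kˣ) := by
        rintro ⟨c, hc⟩
        obtain ⟨d, rfl⟩ := QuotientGroup.mk_surjective c
        obtain ⟨e, w, hw, hew⟩ := exists_mono_pow_eq hr.pos hrn (d : Kˣ) Λ d.2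
        exact ⟨⟨mono e w, hmono e w hw⟩, d, rfl, hew⟩
      choose gc dc hdc hgc using hmk
      have hnr : ∀ c, ∀ l : Kˣ, l ∈ Λ → l ^ r ≠ (dc c : Kˣ) := fun c l hl h =>
        c.2 (by rw [← hdc c, QuotientGroup.eq_one_iff, hmemP]; exact ⟨l, hl, h⟩)
      have hns : ∀ c, ∀ l ∈ Λ, (gc c : GL (Fin n) K) ≠ scalGL n l := fun c l hl h =>
        hnr c l hl (scalGL_injective (K := K) hn0 (by rw [scalGL_pow, ← h, hgc]))
      let h : {c : Λ ⧸ P // c ≠ 1} → {C : CC // Ord C ∧ ¬ Split C} := fun c =>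
        ⟨ConjClasses.mk (π (gc c)), hord _ (hns c) ⟨_, (dc c).2, hgc c⟩, by
          rintro ⟨g, hg, hg1⟩
          obtain ⟨x, l, hl, hlh⟩ := hconjlift g (gc c) hg
          refine hnr c l hl (scalGL_injective (K := K) hn0 ?_)
          rw [← hgc c, hlh, (scalGL_commute l _).mul_pow, conj_pow, ← SubmonoidClass.coe_pow, hg1,
            scalGL_pow, OneMemClass.coe_one, mul_one, mul_inv_cancel, mul_one]⟩
      have hbij : Function.Bijective h := by
        constructor
        · intro a b hab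
          obtain ⟨x, l, hl, hlh⟩ := hconjlift _ _ (congrArg Subtype.val hab)
          have h1 := congrArg (fun g : GL (Fin n) K => g ^ r) hlh
          beta_reduce at h1
          rw [hgc b, (scalGL_commute l _).mul_pow, conj_pow, hgc a,
            ← (scalGL_commute _ (x : GL (Fin n) K)).eq, mul_inv_cancel_right, ← scalGL_pow,
            ← scalGL_mul] at h1
          have h2 := scalGL_injective (K := K) hn0 h1
          refine Subtype.ext ?_
          rw [← hdc a, ← hdc b, QuotientGroup.eq, hmemP]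
          exact ⟨l, hl, by rw [Subgroup.coe_mul, Subgroup.coe_inv, h2, mul_left_comm, inv_mul_cancel, mul_one]⟩
        · rintro ⟨C, hO, hs⟩
          obtain ⟨g, c, hc, hgC, hg, -⟩ := hlift C hO
          have hcr := hnosplit g c hg (hgC.symm ▸ hs)
          let cc : {c : Λ ⧸ P // c ≠ 1} := ⟨QuotientGroup.mk ⟨c, hc⟩, by
            rw [Ne, QuotientGroup.eq_one_iff, hmemP]
            exact fun ⟨l, hl, h⟩ => hcr l hl h⟩
          refine ⟨cc, Subtype.ext ?_⟩
          show ConjClasses.mk (π (gc cc)) = C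
          rw [← hgC]
          obtain ⟨l, hl, hlc⟩ := (hmemP _).1 (QuotientGroup.eq.1 (hdc cc))
          rw [Subgroup.coe_mul, Subgroup.coe_inv] at hlc
          let g' : G := ⟨scalGL n l * gc cc, G.mul_mem (hmono _ _ fun _ => hl) (gc cc).2⟩
          have hg' : (g' : GL (Fin n) K) ^ r = scalGL n c := by
            show (scalGL n l * (gc cc : GL (Fin n) K)) ^ r = _
            rw [(scalGL_commute l _).mul_pow, hgc, ← scalGL_pow, ← scalGL_mul, hlc]
            congr 1
            rw [mul_comm ((dc cc : Kˣ)⁻¹), inv_mul_cancel_right]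
          rw [show π (gc cc) = π g' from (hπeq _ _).2 ⟨l, hl, rfl⟩]
          refine ConjClasses.mk_eq_mk_iff_isConj.2 (π.map_isConj (hcharconj _ _ ⟨c, hg'⟩ ⟨c, hg⟩ ?_))
          rw [(charpoly_eq_pow_of_nonsplit hr (hscalpow c g' hg') (hnoroot c hc hcr)).2,
            (charpoly_eq_pow_of_nonsplit hr (hscalpow c g hg) (hnoroot c hc hcr)).2]
      rw [← Nat.card_eq_of_bijective h hbij]
      have e : Nat.card (Λ ⧸ P) = r := hidx
      rw [Nat.card_eq_fintype_card] at e ⊢
      rw [Fintype.card_subtype_compl, Fintype.card_subtype_eq, e]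
    · rw [Nat.card_eq_zero]
      refine Or.inl ⟨?_⟩
      rintro ⟨C, hO, hs⟩
      obtain ⟨g, c, hc, rfl, hg, -⟩ := hlift C hO
      exact hrn (charpoly_eq_pow_of_nonsplit hr (hscalpow c g hg)
        (hnoroot c hc (hnosplit g c hg hs))).1
  haveI : Finite (G ⧸ Z) := inferInstance
  have hsum : Nat.card {C : CC // Ord C} =
      Nat.card {C : CC // Ord C ∧ Split C} + Nat.card {C : CC // Ord C ∧ ¬ Split C} := by
    rw [← Nat.card_sum]
    refine Nat.card_congr ?_
    exact ((Equiv.sumCongr (Equiv.subtypeSubtypeEquivSubtypeInter Ord Split).symm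
      (Equiv.subtypeSubtypeEquivSubtypeInter Ord (fun C => ¬ Split C)).symm).trans
      (Equiv.sumCompl fun C : {C // Ord C} => Split C.1)).symm
  show Nat.card {C : CC // Ord C} = _
  rw [hsum, hsplit, hnon, card_ncsym_orbits (μ := μ) hr (by rw [← Nat.card_eq_fintype_card]; exact hμc) hn]
  have := hr.two_le
  split_ifs <;> omega

end Cfsg.Agent.H67
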