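import Mathlib
import Cfsg.Agent.H3.Isotropic
import Cfsg.Agent.H66.Unitary
import Cfsg.Agent.H67.ProjClasses

set_option autoImplicit false

/-!
# Order-`r` classes of `PGL_n` and `PGU_n`, `r` dividing the order of the scalars
-/

namespace Cfsg.Agent.H67

theorem card_classes_order_congr {G H : Type*} [Group G] [Group H] (e : G ≃* H) (r : ℕ) :
    Nat.card {C : ConjClasses G // ∃ g, ConjClasses.mk g = C ∧ orderOf g = r} =
      Nat.card {C : ConjClasses H // ∃ g, ConjClasses.mk g = C ∧ orderOf g = r} := by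
  refine Nat.card_eq_of_bijective (fun c => ⟨ConjClasses.map e.toMonoidHom c.1, ?_⟩) ⟨?_, ?_⟩
  · obtain ⟨c, g, rfl, hg⟩ := c
    exact ⟨e g, rfl, by rw [MulEquiv.orderOf_eq, hg]⟩
  · intro c d hcd
    have h0 : ConjClasses.map e.toMonoidHom c.1 = ConjClasses.map e.toMonoidHom d.1 :=
      congrArg Subtype.val hcd
    refine Subtype.ext ?_
    obtain ⟨g, hg⟩ := ConjClasses.mk_surjective c.1
    obtain ⟨h, hh⟩ := ConjClasses.mk_surjective d.1
    rw [← hg, ← hh] at h0 ⊢
    have h1 := e.symm.toMonoidHom.map_isConj (ConjClasses.mk_eq_mk_iff_isConj.1 h0)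
    refine ConjClasses.mk_eq_mk_iff_isConj.2 ?_
    simpa using h1
  · rintro ⟨C, g, rfl, hg⟩
    exact ⟨⟨ConjClasses.mk (e.symm g), _, rfl, by rw [MulEquiv.orderOf_eq, hg]⟩,
      Subtype.ext (congrArg ConjClasses.mk (e.apply_symm_apply g))⟩

variable {K : Type*} [Field K] [Fintype K] {n r q : ℕ}

theorem ne_char_of_dvd (p : ℕ) [Fact p.Prime] [CharP K p] (hr : r.Prime) {N : ℕ}
    (hN : N = Nat.card Kˣ) (hd : r ∣ N) : r ≠ p := by
  rintro rfl
  obtain ⟨j, -, hj⟩ := FiniteField.card K r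
  classical
  rw [hN, Nat.card_eq_fintype_card, Fintype.card_units, hj] at hd
  have h2 : r ∣ r ^ (j : ℕ) := dvd_pow_self r j.ne_zero
  have h1 := Nat.dvd_sub h2 hd
  rw [show r ^ (j : ℕ) - (r ^ (j : ℕ) - 1) = 1 by have := Nat.one_le_pow (j : ℕ) r hr.pos; omega] at h1
  exact hr.not_dvd_one h1

theorem card_pgl_prime_order_classes (hn : 2 ≤ n) (hr : r.Prime) (hrq : r ∣ Fintype.card K - 1) :
    Nat.card {C : ConjClasses (GL (Fin n) K ⧸ Subgroup.center (GL (Fin n) K)) //
        ∃ g : GL (Fin n) K ⧸ Subgroup.center (GL (Fin n) K), ConjClasses.mk g = C ∧ orderOf g = r} =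
      (Nat.choose (n + r - 1) (r - 1) - r - (if r ∣ n then 1 else 0)) / r +
        r * (if r ∣ n then 1 else 0) := by
  classical
  obtain ⟨p, hp⟩ := CharP.exists K
  haveI : Fact p.Prime := ⟨(CharP.char_is_prime_or_zero K p).resolve_right (CharP.char_ne_zero_of_finite K p)⟩
  have hu : Nat.card Kˣ = Fintype.card K - 1 := by rw [Nat.card_eq_fintype_card, Fintype.card_units]
  let e : (↥(⊤ : Subgroup (GL (Fin n) K)) ⧸ Subgroup.center ↥(⊤ : Subgroup (GL (Fin n) K))) ≃*
      (GL (Fin n) K ⧸ Subgroup.center (GL (Fin n) K)) :=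
    QuotientGroup.congr _ _ Subgroup.topEquiv (by
      ext g
      rw [Subgroup.mem_map]
      constructor
      · rintro ⟨x, hx, rfl⟩
        exact Subgroup.mem_center_iff.2 fun y =>
          congrArg Subtype.val (Subgroup.mem_center_iff.1 hx ⟨y, Subgroup.mem_top y⟩)
      · intro hg
        exact ⟨⟨g, Subgroup.mem_top g⟩, Subgroup.mem_center_iff.2 fun y =>
          Subtype.ext (Subgroup.mem_center_iff.1 hg y), rfl⟩)
  rw [← card_classes_order_congr e r]
  refine card_proj_order_classes (p := p) ⊤ ⊤ hn hr (ne_char_of_dvd p hr hu.symm hrq)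
    (by rw [Subgroup.card_top, hu]; exact hrq) (fun _ _ _ _ => trivial) (fun _ _ _ => trivial)
    (fun g => ?_) (fun g h _ hc => ?_)
  · constructor
    · intro hg
      have hg' : (g : GL (Fin n) K) ∈ Subgroup.center (GL (Fin n) K) :=
        Subgroup.mem_center_iff.2 fun y =>
          congrArg Subtype.val (Subgroup.mem_center_iff.1 hg ⟨y, Subgroup.mem_top y⟩)
      rw [Matrix.GeneralLinearGroup.center_eq_range_scalar] at hg'
      obtain ⟨l, hl⟩ := hg'
      refine ⟨l, trivial, hl.symm.trans (Units.ext ?_)⟩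
      rw [scalGL_val]
      ext i j
      simp [Matrix.one_apply, Matrix.diagonal_apply]
    · rintro ⟨l, -, hl⟩
      exact Subgroup.mem_center_iff.2 fun y => Subtype.ext (by
        rw [Subgroup.coe_mul, Subgroup.coe_mul, hl]; exact ((scalGL_commute l _).eq).symm)
  · obtain ⟨x, hx⟩ := isConj_iff.1 hc
    exact isConj_iff.2 ⟨⟨x, trivial⟩, Subtype.ext hx⟩

theorem card_pgu_prime_order_classes (hK : Fintype.card K = q ^ 2) (hn : 2 ≤ n) (hr : r.Prime)
    (hr2 : r ≠ 2) (hrq : r ∣ q + 1) :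
    Nat.card {C : ConjClasses (↥(Cfsg.GU n K q) ⧸ Subgroup.center ↥(Cfsg.GU n K q)) //
        ∃ g : ↥(Cfsg.GU n K q) ⧸ Subgroup.center ↥(Cfsg.GU n K q),
          ConjClasses.mk g = C ∧ orderOf g = r} =
      (Nat.choose (n + r - 1) (r - 1) - r - (if r ∣ n then 1 else 0)) / r +
        r * (if r ∣ n then 1 else 0) := by
  classical
  obtain ⟨p, hp⟩ := CharP.exists K
  haveI : Fact p.Prime := ⟨(CharP.char_is_prime_or_zero K p).resolve_right (CharP.char_ne_zero_of_finite K p)⟩
  have hu : Nat.card Kˣ = (q + 1) * (q - 1) := by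
    rw [Nat.card_eq_fintype_card, Fintype.card_units, hK, ← Nat.sq_sub_sq, one_pow]
  have hq2 := H3.two_le_q hK
  set Λ : Subgroup Kˣ := (powMonoidHom (q + 1) : Kˣ →* Kˣ).ker with hΛ
  have hmem : ∀ l : Kˣ, l ∈ Λ ↔ l ^ (q + 1) = 1 := fun l => Iff.rfl
  have hcard : Nat.card Λ = q + 1 := by
    rw [hΛ, IsCyclic.card_powMonoidHom_ker, hu, Nat.gcd_eq_right (dvd_mul_right _ _)]
  refine card_proj_order_classes (p := p) (Cfsg.GU n K q) Λ hn hr
    (ne_char_of_dvd p hr rfl (hrq.trans (hu ▸ dvd_mul_right _ _))) (hcard ▸ hrq) ?_ ?_ ?_ ?_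
  · intro c hc l hl
    rw [hmem]
    have h1 : (l ^ (q + 1)) ^ r = 1 := by rw [← pow_mul, mul_comm, pow_mul, hl, (hmem c).1 hc]
    have h2 : (l ^ (q + 1)) ^ (q - 1) = 1 := by rw [← pow_mul, ← hu, pow_card_eq_one']
    have hcop : Nat.Coprime r (q - 1) := (hr.coprime_iff_not_dvd).2 fun hd => by
      have h3 := Nat.dvd_sub hrq hd
      rw [show q + 1 - (q - 1) = 2 by omega] at h3
      exact hr2 ((Nat.prime_dvd_prime_iff_eq hr Nat.prime_two).1 h3)
    have h4 := pow_gcd_eq_one.2 ⟨h1, h2⟩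
    rwa [hcop.gcd_eq_one, pow_one] at h4
  · intro e w hw
    rw [H3.mem_GU_iff]
    intro u v
    rw [mono_mulVec, mono_mulVec]
    simp only [Cfsg.hermForm]
    rw [← Equiv.sum_comp e fun i => u i * v i ^ q]
    refine Finset.sum_congr rfl fun i _ => ?_
    have h1 : (w i : K) * (w i : K) ^ q = 1 := by
      rw [← pow_succ', ← Units.val_pow_eq_pow_val, (hmem _).1 (hw i), Units.val_one]
    rw [mul_pow]
    linear_combination (u (e i) * v (e i) ^ q) * h1
  · intro g
    rw [H3.mem_center_GU_iff hK hn]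
    constructor
    · rintro ⟨l, hl⟩
      have hl0 : l ≠ 0 := by
        rintro rfl
        have h1 := hl (Pi.single ⟨0, by omega⟩ 1)
        rw [zero_smul] at h1
        have h2 : Function.Injective ((g.1 : Matrix (Fin n) (Fin n) K).mulVec) :=
          Matrix.mulVec_injective_of_isUnit g.1.isUnit
        have h3 : (Pi.single (⟨0, by omega⟩ : Fin n) (1 : K) : Fin n → K) = 0 :=
          h2 (by rw [h1, Matrix.mulVec_zero])
        simpa using congrFun h3 ⟨0, by omega⟩
      refine ⟨Units.mk0 l hl0, ?_, Units.ext (Matrix.ext_iff_mulVec.2 fun x => ?_)⟩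
      · rw [hmem]
        refine Units.ext ?_
        have h1 := H3.mem_GU_iff.1 g.2 (Pi.single ⟨0, by omega⟩ 1) (Pi.single ⟨0, by omega⟩ 1)
        rw [hl] at h1
        simp only [Cfsg.hermForm, Pi.smul_apply, smul_eq_mul] at h1
        rw [Finset.sum_eq_single (⟨0, by omega⟩ : Fin n) (fun b _ hb => by simp [Pi.single_apply, hb]) (by simp),
          Finset.sum_eq_single (⟨0, by omega⟩ : Fin n) (fun b _ hb => by simp [Pi.single_apply, hb]) (by simp)] at h1
        simpa [pow_succ'] using h1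
      · rw [hl, scalGL_val, Matrix.smul_mulVec, Matrix.one_mulVec, Units.val_mk0]
    · rintro ⟨l, -, hl⟩
      exact ⟨l, fun x => by rw [hl, scalGL_val, Matrix.smul_mulVec, Matrix.one_mulVec]⟩
  · intro g h _ hc
    exact H66.gu_isConj_of_isConj hK g h hc

end Cfsg.Agent.H67
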