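import Mathlib
import Cfsg.Agent.H66.Jordan

set_option autoImplicit false

/-!
# Regular unipotent matrices and their commutants
-/

namespace Cfsg.Agent.H67

open Matrix Polynomial

variable {K : Type*} [Field K] {I : Type*} [Fintype I] [DecidableEq I]

/-- Kernel dimensions of a regular unipotent matrix. -/
theorem kerDim_regular {A : Matrix I I K} (hA : IsNilpotent (A - 1))
    (hr : (A - 1).rank = Fintype.card I - 1) (hI : 0 < Fintype.card I) (k : ℕ) :
    H66.kerDim A k = min k (Fintype.card I) := by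
  obtain ⟨t, d, hd, hsum, hk⟩ := H66.exists_type A hA
  have h1 := hk 1
  have hker : H66.kerDim A 1 = 1 := by
    have := H66.rank_add_kerDim A 1
    rw [pow_one, hr] at this
    omega
  have ht : t = 1 := by
    rw [hker, H66.typeKer, Finset.sum_congr rfl fun i _ => (min_eq_left (hd i)), Finset.sum_const,
      Finset.card_univ, Fintype.card_fin, smul_eq_mul, mul_one] at h1
    exact h1.symm
  subst ht
  rw [hk, H66.typeKer, Fin.sum_univ_one]
  rw [Fin.sum_univ_one] at hsum
  rw [hsum]

/-- Regular unipotent matrices are similar. -/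
theorem isConj_regular {A B : Matrix I I K} (hA : IsNilpotent (A - 1)) (hB : IsNilpotent (B - 1))
    (hrA : (A - 1).rank = Fintype.card I - 1) (hrB : (B - 1).rank = Fintype.card I - 1)
    (hI : 0 < Fintype.card I) : IsConj A B :=
  H66.isConj_of_kerDim_eq hA hB fun k => by rw [kerDim_regular hA hrA hI, kerDim_regular hB hrB hI]

/-- A regular nilpotent matrix has a cyclic basis. -/
theorem exists_cyclic_vector {A : Matrix I I K} (hA : IsNilpotent (A - 1))
    (hr : (A - 1).rank = Fintype.card I - 1) (hI : 0 < Fintype.card I) :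
    (A - 1) ^ Fintype.card I = 0 ∧ ∃ v : I → K, ((A - 1) ^ (Fintype.card I - 1)) *ᵥ v ≠ 0 ∧
      Submodule.span K (Set.range fun j : Fin (Fintype.card I) => ((A - 1) ^ (j : ℕ)) *ᵥ v) = ⊤ := by
  set N := A - 1
  set n := Fintype.card I
  have hN : N ^ n = 0 := (H66.kerDim_eq_card_iff A n).1 (by rw [kerDim_regular hA hr hI, min_self])
  have hN1 : N ^ (n - 1) ≠ 0 := fun h => by
    have := (H66.kerDim_eq_card_iff A (n - 1)).2 h
    rw [kerDim_regular hA hr hI] at this
    omega
  obtain ⟨v, hv⟩ : ∃ v, (N ^ (n - 1)) *ᵥ v ≠ 0 := by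
    by_contra! h
    exact hN1 (Matrix.ext_iff_mulVec.2 fun v => by rw [h, Matrix.zero_mulVec])
  refine ⟨hN, v, hv, ?_⟩
  have hli : LinearIndependent K fun j : Fin n => (N ^ (j : ℕ)) *ᵥ v := by
    rw [Fintype.linearIndependent_iff]
    intro c hc
    by_contra! hne
    obtain ⟨i, hi⟩ := hne
    classical
    set s := Finset.univ.filter fun j : Fin n => c j ≠ 0
    have hs : s.Nonempty := ⟨i, by simp [s, hi]⟩
    set j₀ := s.min' hs with hj₀
    have hj₀c : c j₀ ≠ 0 := (Finset.mem_filter.1 (s.min'_mem hs)).2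
    have h1 := congrArg ((N ^ (n - 1 - (j₀ : ℕ))) *ᵥ ·) hc
    simp only [Matrix.mulVec_sum, Matrix.mulVec_smul, Matrix.mulVec_mulVec, ← pow_add,
      Matrix.mulVec_zero] at h1
    rw [Finset.sum_eq_single j₀] at h1
    · rw [show n - 1 - (j₀ : ℕ) + (j₀ : ℕ) = n - 1 by omega] at h1
      exact hv ((smul_eq_zero.1 h1).resolve_left hj₀c)
    · intro j _ hj
      by_cases hjc : c j = 0
      · rw [hjc, zero_smul]
      · have hle : j₀ ≤ j := s.min'_le j (by simp [s, hjc])
        have hlt : (j₀ : ℕ) < j := lt_of_le_of_ne hle fun h => hj (Fin.ext h.symm)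
        rw [show n - 1 - (j₀ : ℕ) + (j : ℕ) = n + ((j : ℕ) - j₀ - 1) by omega, pow_add, hN, zero_mul,
          Matrix.zero_mulVec, smul_zero]
    · simp
  exact hli.span_eq_top_of_card_eq_finrank' (by rw [Fintype.card_fin, Module.finrank_fintype_fun_eq_card])

/-- The commutant of a regular unipotent matrix consists of polynomials in it. -/
theorem exists_coeff_of_commute {A M : Matrix I I K} (hA : IsNilpotent (A - 1))
    (hr : (A - 1).rank = Fintype.card I - 1) (hI : 0 < Fintype.card I) (hM : Commute M A) :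
    ∃ c : Fin (Fintype.card I) → K, M = ∑ j, c j • (A - 1) ^ (j : ℕ) := by
  obtain ⟨-, v, -, hspan⟩ := exists_cyclic_vector hA hr hI
  have hmem : M *ᵥ v ∈ Submodule.span K
      (Set.range fun j : Fin (Fintype.card I) => ((A - 1) ^ (j : ℕ)) *ᵥ v) := hspan ▸ Submodule.mem_top
  rw [Submodule.mem_span_range_iff_exists_fun] at hmem
  obtain ⟨c, hc⟩ := hmem
  refine ⟨c, Matrix.ext_iff_mulVec.2 fun w => ?_⟩
  have hw : w ∈ Submodule.span K (Set.range fun j : Fin (Fintype.card I) => ((A - 1) ^ (j : ℕ)) *ᵥ v) :=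
    hspan ▸ Submodule.mem_top
  have hMN : Commute M (A - 1) := hM.sub_right (Commute.one_right M)
  induction hw using Submodule.span_induction with
  | mem x hx =>
    obtain ⟨i, rfl⟩ := hx
    rw [Matrix.mulVec_mulVec, (hMN.pow_right _).eq, ← Matrix.mulVec_mulVec, ← hc, Matrix.mulVec_sum,
      Matrix.sum_mulVec]
    refine Finset.sum_congr rfl fun j _ => ?_
    rw [Matrix.mulVec_smul, Matrix.smul_mulVec, Matrix.mulVec_mulVec, Matrix.mulVec_mulVec, ← pow_add,
      ← pow_add, add_comm]
  | zero => simp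
  | add x y _ _ hx hy => rw [Matrix.mulVec_add, Matrix.mulVec_add, hx, hy]
  | smul a x _ hx => rw [Matrix.mulVec_smul, Matrix.mulVec_smul, hx]

/-- The coefficients of a polynomial in a regular nilpotent matrix are unique. -/
theorem coeff_unique {A : Matrix I I K} (hA : IsNilpotent (A - 1))
    (hr : (A - 1).rank = Fintype.card I - 1) (hI : 0 < Fintype.card I)
    {c c' : Fin (Fintype.card I) → K}
    (h : ∑ j, c j • (A - 1) ^ (j : ℕ) = ∑ j, c' j • (A - 1) ^ (j : ℕ)) : c = c' := by
  obtain ⟨-, v, -, hspan⟩ := exists_cyclic_vector hA hr hI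
  have hli : LinearIndependent K fun j : Fin (Fintype.card I) => ((A - 1) ^ (j : ℕ)) *ᵥ v :=
    linearIndependent_of_top_le_span_of_card_eq_finrank hspan.ge
      (by rw [Fintype.card_fin, Module.finrank_fintype_fun_eq_card])
  funext i
  have h1 := congrArg (· *ᵥ v) h
  simp only [Matrix.sum_mulVec, Matrix.smul_mulVec] at h1
  have := Fintype.linearIndependent_iff.1 hli (c - c') (by
    simp only [Pi.sub_apply, sub_smul, Finset.sum_sub_distrib, h1, sub_self]) i
  exact sub_eq_zero.1 this

/-- Determinant of scalar plus nilpotent. -/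
theorem det_smul_one_add_nilpotent (c : K) {M : Matrix I I K} (hM : IsNilpotent M) :
    (c • 1 + M).det = c ^ Fintype.card I := by
  have hch : M.charpoly = X ^ Fintype.card I := by
    rw [← Matrix.charpoly_toLin']
    have h : IsNilpotent (Matrix.toLin' M) := hM.map Matrix.toLinAlgEquiv'
    rw [LinearMap.isNilpotent_iff_charpoly] at h
    rwa [Module.finrank_fintype_fun_eq_card] at h
  have h2 := Matrix.eval_charpoly M (-c)
  rw [hch, eval_pow, eval_X, Matrix.scalar_apply, ← Matrix.smul_one_eq_diagonal,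
    show (-c) • (1 : Matrix I I K) - M = -(c • 1 + M) by rw [neg_smul]; abel, Matrix.det_neg] at h2
  rw [neg_pow c] at h2
  exact (mul_left_cancel₀ (pow_ne_zero _ (neg_ne_zero.2 one_ne_zero)) h2).symm

end Cfsg.Agent.H67
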