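import Mathlib
import Cfsg.Agent.H3.Isotropic
import Cfsg.Agent.H3.Count
import Cfsg.Agent.H67.UnitaryClasses
import Cfsg.Agent.H67.RegularUnipotent

set_option autoImplicit false

/-!
# Regular unipotent classes of `SU_n(q)`
-/

namespace Cfsg.Agent.H67

open Matrix

variable {K : Type*} [Field K] [Fintype K] {q n : ℕ}

/-- Determinants of unitary matrices commuting with a regular unipotent one are `n`-th powers of norm-one
scalars, and all of these occur. -/
theorem det_centralizer_regular (hK : Fintype.card K = q ^ 2) (hn : 0 < n) (u : ↥(Cfsg.GU n K q))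
    (hu : (((u : GL (Fin n) K) : Matrix (Fin n) (Fin n) K) - 1) ^ n = 0)
    (hr : (((u : GL (Fin n) K) : Matrix (Fin n) (Fin n) K) - 1).rank = n - 1) :
    (Subgroup.centralizer ({u} : Set ↥(Cfsg.GU n K q))).map (H3.guDet n K q) =
      ((powMonoidHom (q + 1) : Kˣ →* Kˣ).ker).map (powMonoidHom n) := by
  set A := ((u : GL (Fin n) K) : Matrix (Fin n) (Fin n) K) with hAdef
  have hI : Fintype.card (Fin n) = n := Fintype.card_fin n
  have hA : IsNilpotent (A - 1) := ⟨n, hu⟩
  have hr' : (A - 1).rank = Fintype.card (Fin n) - 1 := by rw [hI]; exact hr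
  apply le_antisymm
  · rintro _ ⟨g, hg, rfl⟩
    have hc' : g * u = u * g := Subgroup.mem_centralizer_singleton_iff.1 hg
    have hcomm : Commute ((g : GL (Fin n) K) : Matrix (Fin n) (Fin n) K) A := by
      have h1 := congrArg (fun x : ↥(Cfsg.GU n K q) => ((x : GL (Fin n) K) : Matrix (Fin n) (Fin n) K)) hc'
      simpa [Commute, SemiconjBy] using h1
    obtain ⟨c, hc⟩ := exists_coeff_of_commute hA hr' (by omega) hcomm
    let z : Fin (Fintype.card (Fin n)) := ⟨0, by omega⟩
    set R := ∑ j ∈ Finset.univ.erase z, c j • (A - 1) ^ (j : ℕ) with hRdef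
    have hg' : ((g : GL (Fin n) K) : Matrix (Fin n) (Fin n) K) = c z • 1 + R := by
      rw [hc, hRdef, ← Finset.add_sum_erase _ _ (Finset.mem_univ z)]
      simp [z]
    obtain ⟨S, hS⟩ : ∃ S, R = (A - 1) * S ∧ Commute (A - 1) S := by
      refine ⟨∑ j ∈ Finset.univ.erase z, c j • (A - 1) ^ ((j : ℕ) - 1), ?_,
        Commute.sum_right _ _ _ fun j _ => (Commute.pow_right (Commute.refl _) _).smul_right _⟩
      rw [hRdef, Finset.mul_sum]
      refine Finset.sum_congr rfl fun j hj => ?_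
      rw [mul_smul_comm, ← pow_succ', Nat.sub_add_cancel]
      have : (j : ℕ) ≠ 0 := fun h => (Finset.mem_erase.1 hj).1 (Fin.ext h)
      omega
    have hdet : ((g : GL (Fin n) K) : Matrix (Fin n) (Fin n) K).det = c z ^ n := by
      rw [hg', det_smul_one_add_nilpotent _ (hS.1 ▸ hS.2.isNilpotent_mul_right hA), hI]
    -- the scalar has norm one
    obtain ⟨hN, v, hv, -⟩ := exists_cyclic_vector hA hr' (by omega)
    set w := ((A - 1) ^ (Fintype.card (Fin n) - 1)) *ᵥ v with hw
    have hNw : (A - 1) *ᵥ w = 0 := by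
      rw [hw, Matrix.mulVec_mulVec, ← pow_succ', Nat.sub_add_cancel (by omega), hN, Matrix.zero_mulVec]
    have hAw : A *ᵥ w = w := by
      rw [Matrix.sub_mulVec, Matrix.one_mulVec, sub_eq_zero] at hNw
      exact hNw
    have hgw : ((g : GL (Fin n) K) : Matrix (Fin n) (Fin n) K) *ᵥ w = c z • w := by
      rw [hg', hS.1, hS.2.eq, Matrix.add_mulVec, Matrix.smul_mulVec, Matrix.one_mulVec,
        ← Matrix.mulVec_mulVec, hNw, Matrix.mulVec_zero, add_zero]
    have horth : ∀ y, Cfsg.hermForm n K q ((A - 1) *ᵥ y) w = 0 := by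
      intro y
      have h1 := H3.GU_preserves u y w
      rw [← hAdef, hAw] at h1
      rw [Matrix.sub_mulVec, Matrix.one_mulVec, H3.hermForm_sub_left hK, h1, sub_self]
    obtain ⟨x, hx⟩ := H3.exists_hermForm_eq_one hK (show w ≠ 0 from hv)
    have hcz : c z ^ (q + 1) = 1 := by
      have h2 := H3.GU_preserves g x w
      rw [hgw, hg', Matrix.add_mulVec, Matrix.smul_mulVec, Matrix.one_mulVec,
        H3.hermForm_smul_right hK, H3.hermForm_add_left hK, H3.hermForm_smul_left hK, hS.1,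
        ← Matrix.mulVec_mulVec, horth, hx] at h2
      linear_combination h2
    have hcz0 : c z ≠ 0 := fun h => by rw [h, zero_pow (by omega)] at hcz; exact zero_ne_one hcz
    refine ⟨Units.mk0 (c z) hcz0, Units.ext (by simpa using hcz), Units.ext ?_⟩
    rw [powMonoidHom_apply, Units.val_pow_eq_pow_val, Units.val_mk0, ← hdet]
    rfl
  · rintro _ ⟨z, hz, rfl⟩
    have hz' : (z : K) ^ (q + 1) = 1 := by simpa using congrArg Units.val (show z ^ (q + 1) = 1 from hz)
    refine ⟨H3.guDiag (fun _ => (z : K)) (fun _ => hz'), ?_, Units.ext ?_⟩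
    · rw [SetLike.mem_coe, Subgroup.mem_centralizer_singleton_iff]
      refine Subtype.ext (Units.ext ?_)
      show Matrix.diagonal (fun _ : Fin n => (z : K)) * A = A * Matrix.diagonal (fun _ : Fin n => (z : K))
      ext i j
      rw [Matrix.diagonal_mul, Matrix.mul_diagonal, mul_comm]
    · show (Matrix.diagonal fun _ : Fin n => (z : K)).det = _
      simp [Matrix.det_diagonal]

/-- The number of regular unipotent classes of `SU_n(q)`. -/
theorem card_su_regular (hK : Fintype.card K = q ^ 2) (hn : 2 ≤ n) :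
    Nat.card {C : ConjClasses ↥(Cfsg.SU n K q) // ∃ u : ↥(Cfsg.SU n K q), ConjClasses.mk u = C ∧
        (((u : GL (Fin n) K) : Matrix (Fin n) (Fin n) K) - 1) ^ n = 0 ∧
        (((u : GL (Fin n) K) : Matrix (Fin n) (Fin n) K) - 1).rank = n - 1} = Nat.gcd n (q + 1) := by
  classical
  let f := H3.suToGU n K q
  let δ := H3.guDet n K q
  let mat : ↥(Cfsg.GU n K q) → Matrix (Fin n) (Fin n) K :=
    fun g => ((g : GL (Fin n) K) : Matrix (Fin n) (Fin n) K)
  let S : ↥(Cfsg.GU n K q) → Prop := fun g => (mat g - 1) ^ n = 0 ∧ (mat g - 1).rank = n - 1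
  have hI : Fintype.card (Fin n) = n := Fintype.card_fin n
  have hconjS : ∀ g h, S g → S h → IsConj g h := fun g h hg hh =>
    H66.gu_isConj_of_isConj hK g h (H66.gl_isConj_iff.2 (isConj_regular ⟨n, hg.1⟩ ⟨n, hh.1⟩
      (by rw [hI]; exact hg.2) (by rw [hI]; exact hh.2) (by omega)))
  have hSconj : ∀ g x, S g → S (x * g * x⁻¹) := by
    intro g x hg
    have h : IsConj (mat g) (mat (x * g * x⁻¹)) :=
      MonoidHom.map_isConj ((Units.coeHom _).comp (Cfsg.GU n K q).subtype)
        (isConj_iff.2 ⟨x, rfl⟩ : IsConj g (x * g * x⁻¹))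
    have hk := fun k => H66.kerDim_eq_of_isConj h k
    refine ⟨(H66.kerDim_eq_card_iff _ n).1 ?_, ?_⟩
    · rw [← hk]; exact (H66.kerDim_eq_card_iff _ n).2 hg.1
    · have h1 := H66.rank_add_kerDim (mat g) 1
      have h2 := H66.rank_add_kerDim (mat (x * g * x⁻¹)) 1
      have h3 := hk 1
      rw [pow_one, hg.2] at h1
      rw [pow_one] at h2
      omega
  have hdetS : ∀ g, S g → δ g = 1 := by
    intro g hg
    refine Units.ext ?_
    show (mat g).det = 1
    have h := det_smul_one_add_nilpotent (1 : K) (M := mat g - 1) ⟨n, hg.1⟩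
    rwa [one_smul, add_sub_cancel, one_pow] at h
  obtain ⟨u₀, hu₀⟩ : ∃ u₀, S u₀ := by
    let d : Fin 1 → ℕ := fun _ => n
    let e : ((i : Fin 1) × Fin (d i)) ≃ Fin n := (Equiv.uniqueSigma fun i : Fin 1 => Fin (d i))
    set J := Matrix.reindex e e (Cfsg.jordanTypeMatrix d K) with hJ
    have hk : ∀ k, H66.kerDim J k = min k n := fun k => by
      rw [hJ, H66.kerDim_reindex, H66.kerDim_jordanTypeMatrix, H66.typeKer, Fin.sum_univ_one]
    have hJn : (J - 1) ^ n = 0 := (H66.kerDim_eq_card_iff J n).1 (by rw [hk, hI, min_self])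
    have hdetJ : J.det = 1 := by
      have h := det_smul_one_add_nilpotent (1 : K) (M := J - 1) ⟨n, hJn⟩
      rwa [one_smul, add_sub_cancel, one_pow] at h
    let Jg : GL (Fin n) K := Matrix.GeneralLinearGroup.mkOfDetNeZero J (by rw [hdetJ]; exact one_ne_zero)
    obtain ⟨B, hB⟩ := exists_GU_isConj hK Jg
      (isConj_contraMat_of_unipotent (H3.conjQ_conjQ hK) Jg (m := n) hJn)
    have hB' : IsConj J (mat B) := H66.gl_isConj_iff.1 hB
    refine ⟨B, (H66.kerDim_eq_card_iff _ n).1 ?_, ?_⟩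
    · rw [← H66.kerDim_eq_of_isConj hB', hk, hI, min_self]
    · have h1 := H66.rank_add_kerDim (mat B) 1
      rw [← H66.kerDim_eq_of_isConj hB', hk, pow_one, hI, min_eq_left (by omega)] at h1
      omega
  set D := (Subgroup.centralizer ({u₀} : Set ↥(Cfsg.GU n K q))).map δ with hD
  have hker : ∀ g, δ g = 1 → ∃ s, f s = g := fun g hg => by
    have : g ∈ f.range := by rw [H3.range_suToGU]; exact hg
    exact this
  have hfδ : ∀ s, δ (f s) = 1 := fun s => by
    have : f s ∈ (H3.guDet n K q).ker := H3.range_suToGU (F := K) (q := q) n ▸ ⟨s, rfl⟩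
    exact this
  have hfinj : Function.Injective f := H3.suToGU_injective n
  choose sec hsec using fun x : δ.range => x.2
  have hlift : ∀ x : δ.range, ∃ s, f s = sec x * u₀ * (sec x)⁻¹ := fun x =>
    hker _ (hdetS _ (hSconj _ _ hu₀))
  choose lift hlift using hlift
  have hiff : ∀ x y : δ.range, IsConj (lift x) (lift y) ↔
      (QuotientGroup.mk x : δ.range ⧸ D.subgroupOf δ.range) = QuotientGroup.mk y := by
    intro x y
    rw [QuotientGroup.eq, Subgroup.mem_subgroupOf, Subgroup.coe_mul, Subgroup.coe_inv]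
    constructor
    · intro h
      obtain ⟨s, hs⟩ := isConj_iff.1 h
      have h1 := congrArg f hs
      rw [map_mul, map_mul, map_inv, hlift, hlift] at h1
      refine ⟨((sec y)⁻¹ * f s * sec x)⁻¹, ?_, ?_⟩
      · refine Subgroup.inv_mem _ ?_
        rw [Subgroup.mem_centralizer_singleton_iff]
        calc (sec y)⁻¹ * f s * sec x * u₀
            = (sec y)⁻¹ * (f s * (sec x * u₀ * (sec x)⁻¹) * (f s)⁻¹) * f s * sec x := by group
          _ = u₀ * ((sec y)⁻¹ * f s * sec x) := by rw [h1]; group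
      · rw [map_inv, map_mul, map_mul, map_inv, hfδ, mul_one, hsec, hsec, _root_.mul_inv_rev, inv_inv]
    · rintro ⟨c, hc, hcd⟩
      obtain ⟨s, hs⟩ := hker (sec y * c⁻¹ * (sec x)⁻¹) (by
        rw [map_mul, map_mul, map_inv, map_inv, hsec, hsec, hcd, _root_.mul_inv_rev, inv_inv]
        simp [mul_comm, mul_left_comm])
      refine isConj_iff.2 ⟨s, hfinj ?_⟩
      rw [map_mul, map_mul, map_inv, hlift, hlift, hs]
      have hc' : c * u₀ = u₀ * c := Subgroup.mem_centralizer_singleton_iff.1 hc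
      calc sec y * c⁻¹ * (sec x)⁻¹ * (sec x * u₀ * (sec x)⁻¹) * (sec y * c⁻¹ * (sec x)⁻¹)⁻¹
          = sec y * c⁻¹ * (u₀ * c) * (sec y)⁻¹ := by group
        _ = sec y * u₀ * (sec y)⁻¹ := by rw [← hc']; group
  let T : ↥(Cfsg.SU n K q) → Prop := fun u => S (f u)
  have hmain : Nat.card {C : ConjClasses ↥(Cfsg.SU n K q) // ∃ u, ConjClasses.mk u = C ∧ T u} =
      (D.subgroupOf δ.range).index := by
    symm
    refine Nat.card_eq_of_bijective (fun o => ⟨ConjClasses.mk (lift o.out), lift o.out, rfl, by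
      show S (f (lift o.out)); rw [hlift]; exact hSconj _ _ hu₀⟩) ⟨?_, ?_⟩
    · intro o o' h
      have h2 := (hiff _ _).1 (ConjClasses.mk_eq_mk_iff_isConj.1 (congrArg Subtype.val h))
      rwa [QuotientGroup.out_eq', QuotientGroup.out_eq'] at h2
    · rintro ⟨C, u, rfl, hu⟩
      obtain ⟨g, hg⟩ := isConj_iff.1 (hconjS u₀ (f u) hu₀ hu)
      refine ⟨QuotientGroup.mk ⟨δ g, g, rfl⟩, Subtype.ext (ConjClasses.mk_eq_mk_iff_isConj.2 ?_)⟩
      set y : δ.range := ⟨δ g, g, rfl⟩
      refine IsConj.trans ((hiff _ y).2 (QuotientGroup.out_eq' _)) ?_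
      obtain ⟨s, hs⟩ := hker (g * (sec y)⁻¹) (by rw [map_mul, map_inv, hsec]; exact mul_inv_cancel _)
      refine isConj_iff.2 ⟨s, hfinj ?_⟩
      rw [map_mul, map_mul, map_inv, hlift, hs, ← hg]
      group
  refine Eq.trans ?_ (hmain.trans ?_)
  · rfl
  have hrange : δ.range = (powMonoidHom (q + 1) : Kˣ →* Kˣ).ker := H3.range_guDet hK (by omega)
  have hDle : D ≤ δ.range := by
    rintro _ ⟨g, -, rfl⟩; exact ⟨g, rfl⟩
  rw [← Subgroup.relIndex]
  have hDeq : D = (δ.range).map (powMonoidHom n) := by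
    rw [hrange]; exact det_centralizer_regular hK (by omega) u₀ hu₀.1 hu₀.2
  have h1 := Subgroup.relIndex_mul_index hDle
  have hcard : Nat.card δ.range = q + 1 := by
    rw [hrange, IsCyclic.card_powMonoidHom_ker, Nat.card_eq_fintype_card, Fintype.card_units, hK]
    have hq := H3.two_le_q hK
    rw [show q ^ 2 - 1 = (q + 1) * (q - 1) by rw [← Nat.sq_sub_sq, one_pow],
      Nat.gcd_eq_right (dvd_mul_right _ _)]
  let φ : δ.range →* δ.range := powMonoidHom n
  have hidx : φ.range.index = Nat.gcd n (q + 1) := by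
    rw [IsCyclic.index_powMonoidHom_range, hcard, Nat.gcd_comm]
  rw [← hidx, Subgroup.relIndex, hDeq]
  congr 1
  ext x
  rw [Subgroup.mem_subgroupOf, Subgroup.mem_map]
  constructor
  · rintro ⟨y, hy, hyx⟩
    exact ⟨⟨y, hy⟩, Subtype.ext hyx⟩
  · rintro ⟨y, rfl⟩
    exact ⟨y, y.2, rfl⟩

end Cfsg.Agent.H67
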