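import Mathlib

set_option autoImplicit false

namespace Cfsg.Agent.H67

variable {X : Type*} [Group X]

/-- Membership in the fixed subgroup of an automorphism. -/
theorem mem_fix_iff (τ : MulAut X) (x : X) :
    x ∈ (MulEquiv.toMonoidHom τ).eqLocus (MonoidHom.id X) ↔ τ x = x := Iff.rfl

/-- Powers of an automorphism commute on elements. -/
theorem pow_apply_comm (σ : MulAut X) (m n : ℕ) (x : X) :
    (σ ^ m) ((σ ^ n) x) = (σ ^ n) ((σ ^ m) x) := by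
  rw [← MulAut.mul_apply, ← MulAut.mul_apply, ← pow_add, ← pow_add, add_comm]

/-- A fixed point of `σ` is fixed by every power of `σ`. -/
theorem pow_apply_of_fixed (σ : MulAut X) (x : X) (h : σ x = x) (n : ℕ) : (σ ^ n) x = x := by
  induction n with
  | zero => simp
  | succ n ih => rw [pow_succ, MulAut.mul_apply, h, ih]

/-- The twisted norm of `a σ(a)⁻¹` telescopes. -/
theorem prod_range_pow_apply (σ : MulAut X) (a : X) (n : ℕ) :
    ((List.range n).map (fun i => (σ ^ i) (a * (σ a)⁻¹))).prod = a * ((σ ^ n) a)⁻¹ := by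
  induction n with
  | zero => simp
  | succ n ih =>
    rw [List.range_succ, List.map_append, List.prod_append, ih]
    simp [map_mul, map_inv, pow_succ, MulAut.mul_apply, mul_assoc]

/-- `a σ(a)⁻¹` is fixed by a power `τ` of `σ` iff `τ(a)⁻¹ a` is fixed by `σ`. -/
theorem fixed_iff (σ : MulAut X) (n : ℕ) (a : X) :
    (σ ^ n) (a * (σ a)⁻¹) = a * (σ a)⁻¹ ↔ σ (((σ ^ n) a)⁻¹ * a) = ((σ ^ n) a)⁻¹ * a := by
  have hc : (σ ^ n) (σ a) = σ ((σ ^ n) a) := by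
    simpa using pow_apply_comm σ n 1 a
  rw [map_mul, map_inv, hc, map_mul, map_inv]
  constructor
  · intro h
    calc (σ ((σ ^ n) a))⁻¹ * σ a
        = ((σ ^ n) a)⁻¹ * ((σ ^ n) a * (σ ((σ ^ n) a))⁻¹) * σ a := by group
      _ = ((σ ^ n) a)⁻¹ * (a * (σ a)⁻¹) * σ a := by rw [h]
      _ = ((σ ^ n) a)⁻¹ * a := by group
  · intro h
    calc (σ ^ n) a * (σ ((σ ^ n) a))⁻¹
        = (σ ^ n) a * ((σ ((σ ^ n) a))⁻¹ * σ a) * (σ a)⁻¹ := by group
      _ = (σ ^ n) a * (((σ ^ n) a)⁻¹ * a) * (σ a)⁻¹ := by rw [h]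
      _ = a * (σ a)⁻¹ := by group

/-- Two Lang preimages differ by a fixed point on the right. -/
theorem lang_eq_iff (τ : MulAut X) (a b : X) :
    a * (τ a)⁻¹ = b * (τ b)⁻¹ ↔ τ (a⁻¹ * b) = a⁻¹ * b := by
  rw [map_mul, map_inv]
  constructor
  · intro h
    calc (τ a)⁻¹ * τ b = a⁻¹ * (a * (τ a)⁻¹) * τ b := by group
      _ = a⁻¹ * (b * (τ b)⁻¹) * τ b := by rw [h]
      _ = a⁻¹ * b := by group
  · intro h
    calc a * (τ a)⁻¹ = a * ((τ a)⁻¹ * τ b) * (τ b)⁻¹ := by group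
      _ = a * (a⁻¹ * b) * (τ b)⁻¹ := by rw [h]
      _ = b * (τ b)⁻¹ := by group

/-- Two inverse Lang preimages differ by a fixed point on the left. -/
theorem inv_lang_eq_iff (τ : MulAut X) (a b : X) :
    (τ a)⁻¹ * a = (τ b)⁻¹ * b ↔ τ (b * a⁻¹) = b * a⁻¹ := by
  rw [map_mul, map_inv]
  constructor
  · intro h
    calc τ b * (τ a)⁻¹ = τ b * ((τ a)⁻¹ * a) * a⁻¹ := by group
      _ = τ b * ((τ b)⁻¹ * b) * a⁻¹ := by rw [h]
      _ = b * a⁻¹ := by group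
  · intro h
    calc (τ a)⁻¹ * a = (τ b)⁻¹ * (τ b * (τ a)⁻¹) * a := by group
      _ = (τ b)⁻¹ * (b * a⁻¹) * a := by rw [h]
      _ = (τ b)⁻¹ * b := by group

/-- The key translation between the two torsors in Shintani descent. -/
theorem shintani_translate (σ : MulAut X) (n : ℕ) (a h y : X) (hh : σ h = h) :
    ((σ ^ n) y)⁻¹ * y = h⁻¹ * (((σ ^ n) a)⁻¹ * a) * h ↔
      (σ ^ n) (a * h * y⁻¹) = a * h * y⁻¹ := by
  rw [map_mul, map_mul, map_inv, pow_apply_of_fixed σ h hh n]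
  constructor
  · intro e
    calc (σ ^ n) a * h * ((σ ^ n) y)⁻¹ = (σ ^ n) a * h * (((σ ^ n) y)⁻¹ * y) * y⁻¹ := by group
      _ = (σ ^ n) a * h * (h⁻¹ * (((σ ^ n) a)⁻¹ * a) * h) * y⁻¹ := by rw [e]
      _ = a * h * y⁻¹ := by group
  · intro e
    calc ((σ ^ n) y)⁻¹ * y = h⁻¹ * ((σ ^ n) a)⁻¹ * ((σ ^ n) a * h * ((σ ^ n) y)⁻¹) * y := by group
      _ = h⁻¹ * ((σ ^ n) a)⁻¹ * (a * h * y⁻¹) * y := by rw [e]
      _ = h⁻¹ * (((σ ^ n) a)⁻¹ * a) * h := by group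

end Cfsg.Agent.H67
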