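import Mathlib
import Cfsg.Agent.H3.Count
import Cfsg.Agent.H66.ClassCount
import Cfsg.Agent.H67.Embed
import Cfsg.Agent.H67.IsometryConjMatrix

set_option autoImplicit false

/-!
# Centralisers of fixed-point-free elements of order three in symplectic groups
-/

namespace Cfsg.Agent.H67

open Polynomial Matrix

/-- Conjugate elements have centralisers of equal order. -/
theorem card_centralizer_of_isConj' {G : Type*} [Group G] {g h : G} (e : IsConj g h) :
    Nat.card (Subgroup.centralizer ({g} : Set G)) = Nat.card (Subgroup.centralizer ({h} : Set G)) := by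
  obtain ⟨c, rfl⟩ := isConj_iff.1 e
  refine Nat.card_congr ((MulAut.conj c).toEquiv.subtypeEquiv fun x => ?_)
  rw [Subgroup.mem_centralizer_singleton_iff, Subgroup.mem_centralizer_singleton_iff]
  show x * g = g * x ↔ MulAut.conj c x * MulAut.conj c g = MulAut.conj c g * MulAut.conj c x
  rw [← map_mul, ← map_mul, (MulAut.conj c).injective.eq_iff]

variable {F : Type*} [Field F] [Fintype F]

/-- A fixed-point-free element of order three has characteristic polynomial `(X² + X + 1) ^ m`. -/
theorem charpoly_fpf_three (hq : Fintype.card F % 3 = 2) {I : Type*} [Fintype I] [DecidableEq I]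
    {M : Matrix I I F} (hM : M ^ 3 = 1) (hu : IsUnit (M - 1)) :
    ∃ j, M.charpoly = (X ^ 2 + X + 1) ^ j ∧ 2 * j = Fintype.card I := by
  classical
  set f : F[X] := X ^ 2 + X + 1 with hf
  have hfd : f.natDegree = 2 := by rw [hf]; compute_degree!
  have hfm : f.Monic := by rw [hf]; monicity!
  have hroot : ∀ x : F, x ^ 2 + x + 1 ≠ 0 := by
    intro x hx
    have hx0 : x ≠ 0 := by rintro rfl; simp at hx
    have h3 : x ^ 3 = 1 := by linear_combination (x - 1) * hx
    have hcard := FiniteField.pow_card_sub_one_eq_one x hx0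
    have h1 : x = 1 := by
      obtain ⟨k, hk⟩ : ∃ k, Fintype.card F - 1 = 3 * k + 1 := ⟨Fintype.card F / 3, by omega⟩
      rwa [hk, pow_succ, pow_mul, h3, one_pow, one_mul] at hcard
    subst h1
    obtain ⟨p, hp⟩ := CharP.exists F
    obtain ⟨n, hpp, hn⟩ := FiniteField.card F p
    have : p = 3 := by
      have h3' : ((3 : ℕ) : F) = 0 := by push_cast; linear_combination hx
      rw [CharP.cast_eq_zero_iff F p] at h3'
      exact (Nat.prime_dvd_prime_iff_eq hpp Nat.prime_three).1 h3'
    subst this
    have : 3 ∣ Fintype.card F := hn ▸ dvd_pow_self 3 n.ne_zero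
    omega
  have hirr : Irreducible f := by
    rw [Polynomial.irreducible_iff_roots_eq_zero_of_degree_le_three hfd.ge (by omega)]
    refine Multiset.eq_zero_iff_forall_notMem.2 fun x hx => hroot x ?_
    simpa [hf] using (mem_roots'.1 hx).2
  have hall : ∀ P ∈ UniqueFactorizationMonoid.normalizedFactors M.charpoly, P = f := by
    intro P hP
    have hPi := UniqueFactorizationMonoid.irreducible_of_normalized_factor _ hP
    have hPd := UniqueFactorizationMonoid.dvd_of_mem_normalizedFactors hP
    have hPm : P.Monic := by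
      rw [← UniqueFactorizationMonoid.normalize_normalized_factor _ hP]
      exact monic_normalize hPi.ne_zero
    haveI := Fact.mk hPi
    set α := AdjoinRoot.root P
    set N := M.map (algebraMap F (AdjoinRoot P))
    have h0 : N.charpoly.eval α = 0 := by
      rw [Matrix.charpoly_map, eval_map_algebraMap, AdjoinRoot.aeval_eq, AdjoinRoot.mk_eq_zero]
      exact hPd
    rw [Matrix.eval_charpoly] at h0
    obtain ⟨v, hv0, hv⟩ := Matrix.exists_mulVec_eq_zero_iff.2 h0
    rw [Matrix.sub_mulVec, sub_eq_zero, Matrix.scalar_apply, ← Matrix.smul_one_eq_diagonal,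
      Matrix.smul_mulVec, Matrix.one_mulVec] at hv
    have hNu : IsUnit (N - 1) := by
      have := hu.map (algebraMap F (AdjoinRoot P)).mapMatrix
      rwa [map_sub, map_one] at this
    have hN3 : N ^ 3 = 1 := by
      show ((algebraMap F (AdjoinRoot P)).mapMatrix M) ^ 3 = 1
      rw [← map_pow, hM, map_one]
    have hα1 : α - 1 ≠ 0 := by
      intro h
      rw [sub_eq_zero] at h
      apply hv0
      refine Matrix.mulVec_injective_of_isUnit hNu ?_
      show (N - 1).mulVec v = (N - 1).mulVec 0
      rw [Matrix.mulVec_zero, Matrix.sub_mulVec, ← hv, h, one_smul, Matrix.one_mulVec, sub_self]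
    have hα3 : α ^ 3 = 1 := by
      obtain ⟨i, hi⟩ := Function.ne_iff.1 hv0
      have h1 : (N ^ 3).mulVec v = α ^ 3 • v := by
        rw [pow_succ, pow_two, ← Matrix.mulVec_mulVec, ← Matrix.mulVec_mulVec, ← hv, Matrix.mulVec_smul,
          Matrix.mulVec_smul, ← hv, Matrix.mulVec_smul, ← hv, smul_smul, smul_smul]
        ring_nf
      rw [hN3, Matrix.one_mulVec] at h1
      have h2 := congrFun h1 i
      rw [Pi.smul_apply, smul_eq_mul] at h2
      exact (mul_eq_right₀ hi).1 h2.symm
    have hαf : AdjoinRoot.mk P f = 0 := by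
      have h : (α - 1) * AdjoinRoot.mk P f = 0 := by
        rw [hf, map_add, map_add, map_pow, AdjoinRoot.mk_X, map_one]
        linear_combination hα3
      exact (mul_eq_zero.1 h).resolve_left hα1
    exact eq_of_monic_of_associated hPm hfm
      (hPi.associated_of_dvd hirr (AdjoinRoot.mk_eq_zero.1 hαf))
  have hmon := M.charpoly_monic
  have hprod : M.charpoly = f ^ (UniqueFactorizationMonoid.normalizedFactors M.charpoly).card := by
    conv_lhs => rw [← hmon.normalize_eq_self,
      ← UniqueFactorizationMonoid.prod_normalizedFactors_eq hmon.ne_zero,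
      Multiset.eq_replicate_card.2 hall, Multiset.prod_replicate]
  refine ⟨_, hprod, ?_⟩
  have := congrArg natDegree hprod
  rw [M.charpoly_natDegree_eq_dim, natDegree_pow, hfd] at this
  omega

variable {K : Type*} [Field K] [Fintype K] {q : ℕ}

/-- The centraliser of a scalar in the embedded unitary group is the embedded group. -/
theorem exists_sp_three (hF : Fintype.card F = q) (hK : Fintype.card K = q ^ 2) (ι : F →+* K)
    (θ : K) (hθ : θ ^ q ≠ θ) (hθ2 : θ ^ 2 + θ + 1 = 0) (hθn : θ ^ (q + 1) = 1) (m : ℕ) :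
    ∃ x : Matrix.symplecticGroup (Fin m) F, x ^ 3 = 1 ∧
      IsUnit ((x : Matrix (Fin m ⊕ Fin m) (Fin m ⊕ Fin m) F) - 1) ∧
      Nat.card (Subgroup.centralizer ({x} : Set (Matrix.symplecticGroup (Fin m) F))) =
        Nat.card (Cfsg.GU m K q) := by
  classical
  letI : Algebra F K := ι.toAlgebra
  let L : (Fin m ⊕ Fin m → F) →ₗ[F] (Fin m → K) :=
    { toFun := fun w i => ι (w (.inl i)) + ι (w (.inr i)) * θ
      map_add' := fun u v => by funext i; simp; ring
      map_smul' := fun c u => by
        funext i; simp [Algebra.smul_def, RingHom.algebraMap_toAlgebra]; ring }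
  obtain ⟨e, he⟩ := exists_coord_equiv hF hK (by simp; ring) L (fun w hw => by
    funext j
    rcases j with i | i
    · exact (coord_injective hF ι hθ (congrFun hw i)).1
    · exact (coord_injective hF ι hθ (congrFun hw i)).2)
  have key : ∀ u v, Cfsg.hermForm m K q (e u) (e v) - Cfsg.hermForm m K q (e v) (e u) =
      ι (∑ i, (u (.inl i) * v (.inr i) - u (.inr i) * v (.inl i))) * (θ ^ q - θ) := by
    intro u v
    rw [he, he]
    simp only [Cfsg.hermForm, L, LinearMap.coe_mk, AddHom.coe_mk, map_sum, Finset.sum_mul,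
      ← Finset.sum_sub_distrib]
    refine Finset.sum_congr rfl fun i _ => ?_
    simp only [add_pow_q hK, mul_pow, ringHom_pow_card hF, map_sub, map_mul]
    ring
  have hmem : ∀ g, restrictHom (GUMat m K q) e g ∈ Matrix.symplecticGroup (Fin m) F := by
    intro g
    apply mem_symplectic_of_preserves
    intro u v
    apply ι.injective
    apply mul_right_cancel₀ (sub_ne_zero.2 hθ)
    rw [← key, ← key, restrictHom_apply, restrictHom_apply]
    exact congrArg₂ (· - ·) (GU_preserves g _ _) (GU_preserves g _ _)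
  let ρ : ↥(Cfsg.GU m K q) →* Matrix.symplecticGroup (Fin m) F :=
    (restrictHom (GUMat m K q) e).codRestrict _ hmem
  have hρ : ∀ g w, e (((ρ g : Matrix.symplecticGroup (Fin m) F) :
      Matrix (Fin m ⊕ Fin m) (Fin m ⊕ Fin m) F) *ᵥ w) = GUMat m K q g *ᵥ e w :=
    fun g w => restrictHom_apply _ e g w
  have hρi : Function.Injective ρ := fun g g' h =>
    restrictHom_injective _ e (GUMat_injective m q) (congrArg Subtype.val h)
  let s : ↥(Cfsg.GU m K q) := H3.guDiag (fun _ => θ) (fun _ => hθn)
  have hs : ∀ v, GUMat m K q s *ᵥ v = θ • v := fun v => funext fun i => by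
    show ((Matrix.diagonal fun _ => θ) *ᵥ v) i = _
    rw [Matrix.mulVec_diagonal]; rfl
  have hθ3 : θ ^ 3 = 1 := by linear_combination (θ - 1) * hθ2
  have hs3 : s ^ 3 = 1 := by
    apply GUMat_injective m q
    rw [map_pow, map_one]
    refine Matrix.ext_iff_mulVec.2 fun v => ?_
    rw [pow_succ, pow_two, ← Matrix.mulVec_mulVec, ← Matrix.mulVec_mulVec, hs, hs, hs, Matrix.one_mulVec,
      smul_smul, smul_smul, show θ * θ * θ = θ ^ 3 by ring, hθ3, one_smul]
  have hθ1 : θ ≠ 1 := fun h => hθ (by rw [h, one_pow])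
  refine ⟨ρ s, by rw [← map_pow, hs3, map_one], ?_, ?_⟩
  · refine Matrix.mulVec_injective_iff_isUnit.1 fun u v h => ?_
    simp only [Matrix.sub_mulVec, Matrix.one_mulVec] at h
    have h1 := congrArg e h
    rw [map_sub, map_sub, hρ, hρ, hs, hs] at h1
    have h2 : (θ - 1) • e u = (θ - 1) • e v := by rw [sub_smul, sub_smul, one_smul, one_smul, h1]
    exact e.injective (smul_right_injective _ (sub_ne_zero.2 hθ1) h2)
  · symm
    refine Nat.card_congr (Equiv.ofBijective (fun g => ⟨ρ g, ?_⟩) ⟨fun g g' h => hρi (congrArg Subtype.val h), ?_⟩)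
    · rw [Subgroup.mem_centralizer_singleton_iff, ← map_mul, ← map_mul]
      congr 1
      apply GUMat_injective m q
      refine Matrix.ext_iff_mulVec.2 fun v => ?_
      rw [map_mul, map_mul, ← Matrix.mulVec_mulVec, ← Matrix.mulVec_mulVec, hs, hs, Matrix.mulVec_smul]
    · rintro ⟨z, hz⟩
      rw [Subgroup.mem_centralizer_singleton_iff] at hz
      let Z : (Fin m → K) →ₗ[F] (Fin m → K) :=
        e.toLinearMap ∘ₗ (Matrix.mulVecLin (z : Matrix (Fin m ⊕ Fin m) (Fin m ⊕ Fin m) F)) ∘ₗ e.symm.toLinearMap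
      have hZe : ∀ w, Z (e w) = e ((z : Matrix (Fin m ⊕ Fin m) (Fin m ⊕ Fin m) F) *ᵥ w) := fun w => by
        simp [Z]
      have hZθ : ∀ v, Z (θ • v) = θ • Z v := by
        intro v
        obtain ⟨w, rfl⟩ := e.surjective v
        rw [← hs, ← hρ, hZe, hZe, ← hs, ← hρ, Matrix.mulVec_mulVec, Matrix.mulVec_mulVec,
          ← Submonoid.coe_mul, ← Submonoid.coe_mul, hz]
      have hsplit : ∀ c : K, ∃ a b : F, c = ι a + ι b * θ := by
        intro c
        have hinj : Function.Injective fun ab : F × F => ι ab.1 + ι ab.2 * θ := by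
          rintro ⟨a, b⟩ ⟨a', b'⟩ h
          have := coord_injective hF ι hθ (a := a - a') (b := b - b') (by
            rw [map_sub, map_sub]; simp only at h; linear_combination h)
          exact Prod.ext (sub_eq_zero.1 this.1) (sub_eq_zero.1 this.2)
        obtain ⟨⟨a, b⟩, h⟩ := ((Fintype.bijective_iff_injective_and_card _).2
          ⟨hinj, by rw [Fintype.card_prod, hF, hK, sq]⟩).2 c
        exact ⟨a, b, h.symm⟩
      let ZK : (Fin m → K) →ₗ[K] (Fin m → K) :=
        { toFun := Z
          map_add' := map_add Z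
          map_smul' := fun c v => by
            obtain ⟨a, b, rfl⟩ := hsplit c
            have hι : ∀ (a : F) (w : Fin m → K), ι a • w = a • w := fun a w => funext fun i => by
              simp [Algebra.smul_def, RingHom.algebraMap_toAlgebra]
            rw [RingHom.id_apply, add_smul, add_smul, mul_smul, mul_smul, map_add, hι, hι, hι, hι,
              map_smul, map_smul, hZθ] }
      have hh : ∀ a b : Fin m → K, Cfsg.hermForm m K q (ZK a) (ZK b) = Cfsg.hermForm m K q a b := by
        have hD : ∀ a b : Fin m → K,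
            Cfsg.hermForm m K q (ZK a) (ZK b) - Cfsg.hermForm m K q (ZK b) (ZK a) =
              Cfsg.hermForm m K q a b - Cfsg.hermForm m K q b a := by
          intro a b
          obtain ⟨u, rfl⟩ := e.surjective a
          obtain ⟨v, rfl⟩ := e.surjective b
          show Cfsg.hermForm m K q (Z (e u)) (Z (e v)) - Cfsg.hermForm m K q (Z (e v)) (Z (e u)) = _
          rw [hZe, hZe, key, key]
          congr 2
          have := (H2.mem_symplecticGroup_iff.1 z.2) u v
          simp only [H2.sympForm_apply] at this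
          have h2 : ∀ (f g : Fin m ⊕ Fin m → F), ∑ i, (f (.inl i) * g (.inr i) - f (.inr i) * g (.inl i)) =
              -∑ i, (f (.inr i) * g (.inl i) - f (.inl i) * g (.inr i)) := fun f g => by
            rw [← Finset.sum_neg_distrib]; exact Finset.sum_congr rfl fun i _ => by ring
          rw [h2, h2, this]
        have hl : ∀ a b : Fin m → K, Cfsg.hermForm m K q (θ • a) b = θ * Cfsg.hermForm m K q a b ∧
            Cfsg.hermForm m K q a (θ • b) = θ ^ q * Cfsg.hermForm m K q a b := by
          intro a b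
          simp only [Cfsg.hermForm, Finset.mul_sum, Pi.smul_apply, smul_eq_mul, mul_pow]
          exact ⟨Finset.sum_congr rfl fun i _ => by ring, Finset.sum_congr rfl fun i _ => by ring⟩
        intro a b
        have h1 := hD a b
        have h2 := hD a (θ • b)
        rw [map_smul, (hl _ _).1, (hl _ _).2, (hl _ _).1, (hl _ _).2] at h2
        apply mul_left_cancel₀ (sub_ne_zero.2 hθ.symm)
        linear_combination θ * h1 - h2
      have hbij : Function.Bijective ZK := by
        have hi : Function.Injective Z := by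
          intro a b h
          obtain ⟨u, rfl⟩ := e.surjective a
          obtain ⟨v, rfl⟩ := e.surjective b
          rw [hZe, hZe] at h
          have h2 := congrArg (((z⁻¹ : Matrix.symplecticGroup (Fin m) F) :
            Matrix (Fin m ⊕ Fin m) (Fin m ⊕ Fin m) F) *ᵥ ·) (e.injective h)
          simp only [Matrix.mulVec_mulVec, ← Submonoid.coe_mul, inv_mul_cancel, Submonoid.coe_one,
            Matrix.one_mulVec] at h2
          rw [h2]
        exact ⟨hi, LinearMap.surjective_of_injective (f := ZK) hi⟩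
      let g := H3.guOfEquiv (LinearEquiv.ofBijective ZK hbij) hh
      refine ⟨g, Subtype.ext (Subtype.ext (Matrix.ext_iff_mulVec.2 fun w => e.injective ?_))⟩
      rw [hρ]
      show ((g : GL (Fin m) K) : Matrix (Fin m) (Fin m) K) *ᵥ e w = _
      exact (H3.guOfEquiv_mulVec _ _ (e w)).trans (hZe w)

/-- The order of the centraliser of a fixed-point-free element of order three in `Sp_2m(q)`. -/
theorem card_centralizer_sp_three (hF : Fintype.card F = q) (hq : q % 3 = 2) {m : ℕ}
    (x : Matrix.symplecticGroup (Fin m) F) (hx3 : x ^ 3 = 1)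
    (hfpf : IsUnit ((x : Matrix (Fin m ⊕ Fin m) (Fin m ⊕ Fin m) F) - 1)) :
    (Nat.card (Subgroup.centralizer ({x} : Set (Matrix.symplecticGroup (Fin m) F))) : ℤ) =
      (q : ℤ) ^ (m * (m - 1) / 2) * ∏ i : Fin m, ((q : ℤ) ^ ((i : ℕ) + 1) - (-1) ^ ((i : ℕ) + 1)) := by
  classical
  obtain ⟨p, hp⟩ := CharP.exists F
  obtain ⟨n, hpp, hn⟩ := FiniteField.card F p
  haveI := Fact.mk hpp
  have hp3 : p ≠ 3 := by
    rintro rfl
    have : 3 ∣ q := hF ▸ hn ▸ dvd_pow_self 3 n.ne_zero
    omega
  set f : F[X] := X ^ 2 + X + 1 with hf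
  have hfd : f.natDegree = 2 := by rw [hf]; compute_degree!
  have hfm : f.Monic := by rw [hf]; monicity!
  have hirr : Irreducible f := by
    rw [Polynomial.irreducible_iff_roots_eq_zero_of_degree_le_three hfd.ge (by omega)]
    refine Multiset.eq_zero_iff_forall_notMem.2 fun y hy => ?_
    have hy' : y ^ 2 + y + 1 = 0 := by simpa [hf] using (mem_roots'.1 hy).2
    have hy0 : y ≠ 0 := by rintro rfl; simp at hy'
    have h3 : y ^ 3 = 1 := by linear_combination (y - 1) * hy'
    have hcard := FiniteField.pow_card_sub_one_eq_one y hy0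
    obtain ⟨k, hk⟩ : ∃ k, Fintype.card F - 1 = 3 * k + 1 := ⟨Fintype.card F / 3, by omega⟩
    rw [hk, pow_succ, pow_mul, h3, one_pow, one_mul] at hcard
    subst hcard
    have h3' : ((3 : ℕ) : F) = 0 := by push_cast; linear_combination hy'
    rw [CharP.cast_eq_zero_iff F p] at h3'
    exact hp3 ((Nat.prime_dvd_prime_iff_eq hpp Nat.prime_three).1 h3')
  haveI := Fact.mk hirr
  let pb := AdjoinRoot.powerBasis hirr.ne_zero
  haveI : Module.Finite F (AdjoinRoot f) := pb.finite
  haveI : Finite (AdjoinRoot f) := Module.finite_of_finite F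
  letI : Fintype (AdjoinRoot f) := Fintype.ofFinite _
  have hK : Fintype.card (AdjoinRoot f) = q ^ 2 := by
    rw [Module.card_eq_pow_finrank (K := F), hF, pb.finrank, AdjoinRoot.powerBasis_dim, hfd]
  set θ := AdjoinRoot.root f with hθdef
  have hθ2 : θ ^ 2 + θ + 1 = 0 := by
    have := AdjoinRoot.mk_self (f := f)
    rwa [hf, map_add, map_add, map_pow, AdjoinRoot.mk_X, map_one] at this
  have hθ3 : θ ^ 3 = 1 := by linear_combination (θ - 1) * hθ2
  obtain ⟨k, hk⟩ : ∃ k, q = 3 * k + 2 := ⟨q / 3, by omega⟩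
  have hθq : θ ^ q = θ ^ 2 := by rw [hk, pow_add, pow_mul, hθ3, one_pow, one_mul]
  have hθ0 : θ ≠ 0 := fun h => by rw [h] at hθ3; simp at hθ3
  have hθ : θ ^ q ≠ θ := by
    rw [hθq]
    intro h
    have h1 : θ = 1 := mul_right_cancel₀ hθ0 (by rw [one_mul, ← sq, h])
    rw [h1] at hθ2
    have h3' : ((3 : ℕ) : AdjoinRoot f) = 0 := by push_cast; linear_combination hθ2
    haveI := charP_of_injective_algebraMap (algebraMap F (AdjoinRoot f)).injective p
    rw [CharP.cast_eq_zero_iff (AdjoinRoot f) p] at h3'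
    exact hp3 ((Nat.prime_dvd_prime_iff_eq hpp Nat.prime_three).1 h3')
  obtain ⟨x₀, hx₀, hu₀, hcard⟩ := exists_sp_three hF hK (algebraMap F _) θ hθ hθ2
    (by rw [pow_succ, hθq, ← pow_succ, hθ3]) m
  have hco : ∀ y : Matrix.symplecticGroup (Fin m) F, y ^ 3 = 1 → (orderOf y).Coprime p := fun y hy =>
    Nat.Coprime.coprime_dvd_left (orderOf_dvd_of_pow_eq_one hy) ((Nat.coprime_primes Nat.prime_three hpp).2 hp3.symm)
  have hconj : IsConj x x₀ := by
    have hcoe : ∀ y : Matrix.symplecticGroup (Fin m) F, y ^ 3 = 1 →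
        (y : Matrix (Fin m ⊕ Fin m) (Fin m ⊕ Fin m) F) ^ 3 = 1 := fun y hy => by
      rw [← SubmonoidClass.coe_pow, hy]; rfl
    obtain ⟨j, hj, hj2⟩ := charpoly_fpf_three (hF ▸ hq) (hcoe x hx3) hfpf
    obtain ⟨j', hj', hj2'⟩ := charpoly_fpf_three (hF ▸ hq) (hcoe x₀ hx₀) hu₀
    let ρ' := (Matrix.symplecticGroup (Fin m) F).subtype.toHomUnits
    have hinj : Function.Injective ρ' := fun a b e => Subtype.ext (congrArg
      (fun u : GL (Fin m ⊕ Fin m) F => (u : Matrix (Fin m ⊕ Fin m) (Fin m ⊕ Fin m) F)) e)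
    refine (sp_isConj_iff_matrix (p := p) x x₀ (hco x hx3)).2 (MonoidHom.map_isConj (Units.coeHom _)
      (H66.isConj_of_charpoly_eq p (g := ρ' x) (h := ρ' x₀) ?_ ?_ ?_))
    · rw [orderOf_injective ρ' hinj]; exact hco x hx3
    · rw [orderOf_injective ρ' hinj]; exact hco x₀ hx₀
    · show (x : Matrix (Fin m ⊕ Fin m) (Fin m ⊕ Fin m) F).charpoly = (x₀ : Matrix (Fin m ⊕ Fin m) (Fin m ⊕ Fin m) F).charpoly
      rw [hj, hj', show j = j' by omega]
  rw [card_centralizer_of_isConj' hconj, hcard, H3.card_GU hK m, Nat.cast_mul, Nat.cast_pow, Nat.cast_prod,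
    ← Fin.prod_univ_eq_prod_range]
  refine congrArg _ (Finset.prod_congr rfl fun i _ => ?_)
  split_ifs with hev
  · rw [(Even.add_one hev).neg_one_pow]; push_cast; ring
  · rw [(Nat.not_even_iff_odd.1 hev).add_one.neg_one_pow,
      Nat.cast_sub (Nat.one_le_pow _ _ (hF ▸ Fintype.card_pos))]
    push_cast; ring

end Cfsg.Agent.H67
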