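import Mathlib
import Cfsg.Agent.H2.Basis
import Cfsg.Agent.H67.RegularUnipotent
import Cfsg.Agent.H67.SpOrderThree

set_option autoImplicit false

/-!
# Regular unipotent elements of `Sp_2m(q)`, `q` odd
-/

namespace Cfsg.Agent.H67

open Matrix

variable {F : Type*} [Field F]

/-- The index type of `Sp_2m`. -/
abbrev SpIdx (m : ℕ) : Type := Fin m ⊕ Fin m

/-- The standard alternating matrix as a unit. -/
noncomputable def jGL (m : ℕ) (F : Type*) [Field F] : GL (SpIdx m) F :=
  ((Matrix.isUnit_iff_isUnit_det _).2 (Matrix.isUnit_det_J (Fin m) F)).unit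

theorem jGL_val (m : ℕ) : (jGL m F : Matrix (SpIdx m) (SpIdx m) F) = Matrix.J (Fin m) F :=
  IsUnit.unit_spec _

/-- The adjoint for the alternating form, on units. -/
noncomputable def spAdj {m : ℕ} (g : GL (SpIdx m) F) : GL (SpIdx m) F :=
  (jGL m F)⁻¹ * ⟨(g : Matrix (SpIdx m) (SpIdx m) F)ᵀ,
    ((g⁻¹ : GL (SpIdx m) F) : Matrix (SpIdx m) (SpIdx m) F)ᵀ,
    by rw [← Matrix.transpose_mul, Units.inv_mul, Matrix.transpose_one],
    by rw [← Matrix.transpose_mul, Units.mul_inv, Matrix.transpose_one]⟩ * jGL m F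

/-- The adjoint on matrices. -/
noncomputable def spAdjMat {m : ℕ} (M : Matrix (SpIdx m) (SpIdx m) F) : Matrix (SpIdx m) (SpIdx m) F :=
  ((jGL m F)⁻¹ : GL (SpIdx m) F).val * Mᵀ * (jGL m F).val

theorem spAdj_val {m : ℕ} (g : GL (SpIdx m) F) :
    (spAdj g : Matrix (SpIdx m) (SpIdx m) F) = spAdjMat (g : Matrix (SpIdx m) (SpIdx m) F) := rfl

theorem spAdj_mul {m : ℕ} (g h : GL (SpIdx m) F) : spAdj (g * h) = spAdj h * spAdj g := by
  refine Units.ext ?_
  rw [Units.val_mul, spAdj_val, spAdj_val, spAdj_val, spAdjMat, spAdjMat, spAdjMat, Units.val_mul,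
    Matrix.transpose_mul]
  simp only [mul_assoc, Units.mul_inv_cancel_left]

theorem spAdj_one {m : ℕ} : spAdj (1 : GL (SpIdx m) F) = 1 := by
  refine Units.ext ?_
  rw [spAdj_val, spAdjMat, Units.val_one, Matrix.transpose_one, mul_one, Units.inv_mul]

theorem spAdj_spAdj {m : ℕ} (g : GL (SpIdx m) F) : spAdj (spAdj g) = g := by
  refine Units.ext ?_
  rw [spAdj_val, spAdjMat, spAdj_val, spAdjMat]
  have hJ : (jGL m F).valᵀ = -(jGL m F).val := by rw [jGL_val, Matrix.J_transpose]
  have hJi : (((jGL m F)⁻¹ : GL (SpIdx m) F).val)ᵀ = -((jGL m F)⁻¹ : GL (SpIdx m) F).val := by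
    have h1 : (((jGL m F)⁻¹ : GL (SpIdx m) F).val)ᵀ * (jGL m F).valᵀ = 1 := by
      rw [← Matrix.transpose_mul, Units.mul_inv, Matrix.transpose_one]
    rw [hJ, mul_neg] at h1
    calc _ = ((((jGL m F)⁻¹ : GL (SpIdx m) F).val)ᵀ * (jGL m F).val) *
          ((jGL m F)⁻¹ : GL (SpIdx m) F).val := by rw [mul_assoc, Units.mul_inv, mul_one]
      _ = _ := by rw [neg_eq_iff_eq_neg.1 h1, neg_mul, one_mul]
  rw [Matrix.transpose_mul, Matrix.transpose_mul, Matrix.transpose_transpose, hJ, hJi]
  simp only [neg_mul, mul_neg, neg_neg, mul_assoc, Units.inv_mul, mul_one, Units.inv_mul_cancel_left]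

theorem spAdj_inv {m : ℕ} (g : GL (SpIdx m) F) : spAdj g⁻¹ = (spAdj g)⁻¹ :=
  eq_inv_of_mul_eq_one_left (by rw [← spAdj_mul, mul_inv_cancel, spAdj_one])

theorem mem_sp_iff_spAdj {m : ℕ} (g : GL (SpIdx m) F) :
    (g : Matrix (SpIdx m) (SpIdx m) F) ∈ Matrix.symplecticGroup (Fin m) F ↔ spAdj g * g = 1 := by
  rw [SymplecticGroup.mem_iff', Units.ext_iff, Units.val_mul, spAdj_val, spAdjMat, Units.val_one,
    ← jGL_val]
  constructor
  · intro h
    calc _ = ((jGL m F)⁻¹ : GL (SpIdx m) F).val *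
        ((g : Matrix (SpIdx m) (SpIdx m) F)ᵀ * (jGL m F).val * g) := by simp only [mul_assoc]
      _ = 1 := by rw [h, Units.inv_mul]
  · intro h
    calc _ = (jGL m F).val * (((jGL m F)⁻¹ : GL (SpIdx m) F).val *
        (g : Matrix (SpIdx m) (SpIdx m) F)ᵀ * (jGL m F).val * g) := by
          simp only [mul_assoc, Units.mul_inv_cancel_left]
      _ = _ := by rw [h, mul_one]

theorem spAdjMat_smul {m : ℕ} (c : F) (M : Matrix (SpIdx m) (SpIdx m) F) :
    spAdjMat (c • M) = c • spAdjMat M := by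
  simp [spAdjMat, Matrix.transpose_smul]

theorem spAdjMat_sum {m : ℕ} {ι : Type*} (s : Finset ι) (M : ι → Matrix (SpIdx m) (SpIdx m) F) :
    spAdjMat (∑ i ∈ s, M i) = ∑ i ∈ s, spAdjMat (M i) := by
  simp [spAdjMat, Matrix.transpose_sum, Finset.mul_sum, Finset.sum_mul]

theorem spAdjMat_mul {m : ℕ} (M N : Matrix (SpIdx m) (SpIdx m) F) :
    spAdjMat (M * N) = spAdjMat N * spAdjMat M := by
  simp only [spAdjMat, Matrix.transpose_mul, mul_assoc, Units.mul_inv_cancel_left]

theorem spAdjMat_pow {m : ℕ} (M : Matrix (SpIdx m) (SpIdx m) F) (j : ℕ) :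
    spAdjMat (M ^ j) = spAdjMat M ^ j := by
  induction j with
  | zero => simp [spAdjMat]
  | succ j ih => rw [pow_succ, spAdjMat_mul, ih, pow_succ']

/-- Counting functions with non-zero first value. -/
theorem card_fun_zero_ne [Fintype F] (k : ℕ) :
    Nat.card {c : Fin (k + 1) → F // c 0 ≠ 0} = (Fintype.card F - 1) * Fintype.card F ^ k := by
  classical
  let e : {c : Fin (k + 1) → F // c 0 ≠ 0} ≃ {a : F // a ≠ 0} × (Fin k → F) :=
    { toFun := fun c => (⟨c.1 0, c.2⟩, Fin.tail c.1)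
      invFun := fun p => ⟨Fin.cons p.1.1 p.2, by simpa using p.1.2⟩
      left_inv := fun c => Subtype.ext (Fin.cons_self_tail c.1)
      right_inv := fun p => by simp }
  rw [Nat.card_congr e, Nat.card_prod,
    Nat.card_eq_fintype_card, Nat.card_eq_fintype_card, Fintype.card_subtype_compl,
    Fintype.card_subtype_eq, Fintype.card_fun, Fintype.card_fin]

variable [Fintype F]

/-- Data of a regular unipotent symplectic element. -/
structure RegData (m : ℕ) (u : GL (SpIdx m) F) : Prop where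
  two : (2 : F) ≠ 0
  pos : 1 ≤ m
  mem : spAdj u * u = 1
  nil : ((u : Matrix (SpIdx m) (SpIdx m) F) - 1) ^ (2 * m) = 0
  rank : ((u : Matrix (SpIdx m) (SpIdx m) F) - 1).rank = 2 * m - 1

variable {m : ℕ} {u : GL (SpIdx m) F}

/-- The abelian centraliser, its symmetric part and the norm map. -/
theorem RegData.structure_main (h : RegData m u) :
    ∃ (Nm : ↥(Subgroup.centralizer ({u} : Set (GL (SpIdx m) F))) →*
        ↥(Subgroup.centralizer ({u} : Set (GL (SpIdx m) F))))
      (S : Subgroup ↥(Subgroup.centralizer ({u} : Set (GL (SpIdx m) F)))),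
      (∀ g, (Nm g : GL (SpIdx m) F) = spAdj (g : GL (SpIdx m) F) * g) ∧
      (∀ g, g ∈ S ↔ spAdj (g : GL (SpIdx m) F) = g) ∧ (∀ g g' : ↥(Subgroup.centralizer
        ({u} : Set (GL (SpIdx m) F))), g * g' = g' * g) ∧ Nm.range ≤ S ∧
      Nat.card Nm.ker = 2 * Fintype.card F ^ m ∧ Nm.range.relIndex S = 2 := by
  classical
  obtain ⟨k, rfl⟩ : ∃ k, m = k + 1 := ⟨m - 1, by have := h.pos; omega⟩
  set n := Fintype.card (SpIdx (k + 1)) with hn
  have hn' : n = 2 * (k + 1) := by simp [n]; omega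
  set U := (u : Matrix (SpIdx (k + 1)) (SpIdx (k + 1)) F)
  set Ui := ((u⁻¹ : GL (SpIdx (k + 1)) F) : Matrix (SpIdx (k + 1)) (SpIdx (k + 1)) F)
  set N := U - 1
  have hUUi : U * Ui = 1 := Units.mul_inv u
  have hNnil : IsNilpotent N := ⟨_, h.nil⟩
  set M := U - Ui with hMdef
  have hM1 : M = N * ((2 • 1 + N) * Ui) := by
    rw [← mul_assoc, hMdef]
    have : (U - 1) * (2 • 1 + (U - 1)) = U * U - 1 := by noncomm_ring
    rw [this, sub_mul, mul_assoc, hUUi, mul_one, one_mul]
  have hunit : IsUnit ((2 • 1 + N) * Ui) := by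
    refine IsUnit.mul ?_ (u⁻¹).isUnit
    refine IsNilpotent.isUnit_add_left_of_commute hNnil ?_ ((Commute.one_right N).smul_right 2)
    rw [show (2 • 1 : Matrix (SpIdx (k + 1)) (SpIdx (k + 1)) F) = (2 : F) • 1 by
      rw [two_nsmul, two_smul]]
    exact (Matrix.isUnit_iff_isUnit_det _).2 (by
      rw [Matrix.det_smul, Matrix.det_one, mul_one]; exact (isUnit_iff_ne_zero.2 h.two).pow _)
  have hcMN : Commute N ((2 • 1 + N) * Ui) := by
    refine Commute.mul_right (Commute.add_right ((Commute.one_right N).smul_right 2) (Commute.refl N)) ?_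
    exact Commute.sub_left (show Commute U Ui by rw [Commute, SemiconjBy, hUUi, Units.inv_mul]) (Commute.one_left Ui)
  have hMnil : IsNilpotent M := hM1 ▸ hcMN.isNilpotent_mul_right hNnil
  set A' := 1 + M with hA'
  have hA'1 : A' - 1 = M := by rw [hA']; abel
  have hA'n : IsNilpotent (A' - 1) := hA'1 ▸ hMnil
  have hA'r : (A' - 1).rank = n - 1 := by
    rw [hA'1, hM1, Matrix.rank_mul_eq_left_of_isUnit_det _ _ ((Matrix.isUnit_iff_isUnit_det _).1 hunit),
      hn']
    exact h.rank
  have hnpos : 0 < n := by omega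
  -- the adjoint negates `M`
  have hadju : spAdj u = u⁻¹ := eq_inv_of_mul_eq_one_left h.mem
  have hadjui : spAdj u⁻¹ = u := by rw [spAdj_inv, hadju, inv_inv]
  have hadjM : spAdjMat M = -M := by
    have h1 : spAdjMat U = Ui := congrArg Units.val hadju
    have h2 : spAdjMat Ui = U := congrArg Units.val hadjui
    rw [hMdef, spAdjMat, Matrix.transpose_sub, mul_sub, sub_mul]
    rw [spAdjMat] at h1 h2
    rw [h1, h2, neg_sub]
  have hadjpow : ∀ (c : Fin n → F), spAdjMat (∑ j, c j • M ^ (j : ℕ)) =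
      ∑ j : Fin n, ((-1 : F) ^ (j : ℕ) * c j) • M ^ (j : ℕ) := by
    intro c
    rw [spAdjMat_sum]
    refine Finset.sum_congr rfl fun j _ => ?_
    rw [spAdjMat_smul, spAdjMat_pow, hadjM, neg_pow, mul_comm, mul_smul]
    congr 1
    rcases (j : ℕ).even_or_odd with he | ho
    · rw [he.neg_one_pow, he.neg_one_pow]; simp
    · rw [ho.neg_one_pow, ho.neg_one_pow]; simp
  -- polynomials in `M` and their scalar part
  let z : Fin n := ⟨0, hnpos⟩
  let P : (Fin n → F) → Matrix (SpIdx (k + 1)) (SpIdx (k + 1)) F := fun c => ∑ j, c j • M ^ (j : ℕ)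
  have hP0 : ∀ c, ∃ S, P c = c z • 1 + M * S ∧ Commute M S := by
    intro c
    refine ⟨∑ j ∈ Finset.univ.erase z, c j • M ^ ((j : ℕ) - 1), ?_,
      Commute.sum_right _ _ _ fun j _ => ((Commute.refl M).pow_right _).smul_right _⟩
    show ∑ j, c j • M ^ (j : ℕ) = _
    conv_lhs => rw [← Finset.add_sum_erase Finset.univ _ (Finset.mem_univ z)]
    rw [Finset.mul_sum]
    congr 1
    refine Finset.sum_congr rfl fun j hj => ?_
    rw [mul_smul_comm, ← pow_succ', Nat.sub_add_cancel]
    have : (j : ℕ) ≠ 0 := fun h => (Finset.mem_erase.1 hj).1 (Fin.ext h)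
    omega
  have hdet : ∀ c, (P c).det = c z ^ n := fun c => by
    obtain ⟨S, hS, hSc⟩ := hP0 c
    rw [hS, det_smul_one_add_nilpotent _ (hSc.isNilpotent_mul_right hMnil)]
  set C := Subgroup.centralizer ({u} : Set (GL (SpIdx (k + 1)) F))
  have hcen : ∀ g : C, ∃ c, (g : GL (SpIdx (k + 1)) F).val = P c ∧ c z ≠ 0 := by
    intro g
    have hg : Commute (g : GL (SpIdx (k + 1)) F).val U :=
      congrArg Units.val (Subgroup.mem_centralizer_singleton_iff.1 g.2)
    have hgM : Commute (g : GL (SpIdx (k + 1)) F).val A' := by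
      refine Commute.add_right (Commute.one_right _) (Commute.sub_right hg ?_)
      exact Commute.units_inv_right (u := u) hg
    obtain ⟨c, hc⟩ := exists_coeff_of_commute hA'n hA'r hnpos hgM
    rw [hA'1] at hc
    refine ⟨c, hc, fun h0 => Matrix.GeneralLinearGroup.det_ne_zero (g : GL (SpIdx (k + 1)) F) ?_⟩
    rw [show (g : GL (SpIdx (k + 1)) F).val = P c from hc, hdet, h0, zero_pow hnpos.ne']
  choose co hco hcoz using hcen
  have hPinj : Function.Injective P := fun c c' e => coeff_unique hA'n hA'r hnpos (by rwa [hA'1])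
  have hPcomm : ∀ c, Commute (P c) U := fun c => Commute.sum_left _ _ _ fun j _ =>
    (Commute.pow_left (Commute.sub_left (Commute.refl U)
      (Commute.units_inv_left (u := u) (Commute.refl U))) _).smul_left _
  let mk : {c : Fin n → F // c z ≠ 0} → C := fun c =>
    ⟨Matrix.GeneralLinearGroup.mkOfDetNeZero (P c.1) (by rw [hdet]; exact pow_ne_zero _ c.2),
      Subgroup.mem_centralizer_singleton_iff.2 (Units.ext (hPcomm c.1).eq)⟩
  have hmk : ∀ c, co (mk c) = c.1 := fun c => hPinj (hco (mk c)).symm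
  have hmk' : ∀ g, mk ⟨co g, hcoz g⟩ = g := fun g => Subtype.ext (Units.ext (hco g).symm)
  have hcardC : Nat.card C = (Fintype.card F - 1) * Fintype.card F ^ (2 * k + 1) := by
    rw [← card_fun_zero_ne (2 * k + 1)]
    refine Nat.card_congr ((⟨fun g => ⟨co g, hcoz g⟩, mk, hmk', fun c => Subtype.ext (hmk c)⟩ :
      C ≃ {c : Fin n → F // c z ≠ 0}).trans (Equiv.subtypeEquiv (Equiv.arrowCongr (finCongr (by omega)) (Equiv.refl F))
      fun c => ?_))
    rfl
  -- commutativity and the adjoint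
  have hcomm : ∀ g g' : C, g * g' = g' * g := by
    intro g g'
    refine Subtype.ext (Units.ext ?_)
    show (g : GL (SpIdx (k + 1)) F).val * (g' : GL (SpIdx (k + 1)) F).val = _ * _
    rw [hco g, hco g']
    exact (Commute.sum_left _ _ _ fun i _ => Commute.sum_right _ _ _ fun j _ =>
      ((Commute.pow_pow (Commute.refl M) _ _).smul_left _).smul_right _).eq
  have hadjC : ∀ g : C, spAdj (g : GL (SpIdx (k + 1)) F) ∈ C := by
    intro g
    rw [Subgroup.mem_centralizer_singleton_iff]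
    have h1 : (u⁻¹ * (g : GL (SpIdx (k + 1)) F)) = (g : GL (SpIdx (k + 1)) F) * u⁻¹ :=
      ((show Commute u (g : GL (SpIdx (k + 1)) F) from
        (Subgroup.mem_centralizer_singleton_iff.1 g.2).symm).inv_left).eq
    have h2 := congrArg spAdj h1
    rwa [spAdj_mul, spAdj_mul, hadjui] at h2
  let Nm : C →* C :=
    { toFun := fun g => ⟨spAdj (g : GL (SpIdx (k + 1)) F), hadjC g⟩ * g
      map_one' := Subtype.ext (by simp [spAdj_one])
      map_mul' := fun a b => by
        rw [show (⟨spAdj ((a * b : C) : GL (SpIdx (k + 1)) F), hadjC (a * b)⟩ : C) =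
          ⟨spAdj (b : GL (SpIdx (k + 1)) F), hadjC b⟩ * ⟨spAdj (a : GL (SpIdx (k + 1)) F), hadjC a⟩ from
            Subtype.ext (spAdj_mul _ _)]
        generalize (⟨spAdj (a : GL (SpIdx (k + 1)) F), hadjC a⟩ : C) = A
        generalize (⟨spAdj (b : GL (SpIdx (k + 1)) F), hadjC b⟩ : C) = B
        rw [hcomm B A, mul_assoc, mul_assoc, ← mul_assoc B a, hcomm B a]
        group }
  let S : Subgroup C :=
    { carrier := {g | spAdj (g : GL (SpIdx (k + 1)) F) = g}
      one_mem' := spAdj_one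
      mul_mem' := fun {a b} ha hb => by
        show spAdj ((a : GL (SpIdx (k + 1)) F) * (b : GL (SpIdx (k + 1)) F)) =
          (a : GL (SpIdx (k + 1)) F) * (b : GL (SpIdx (k + 1)) F)
        rw [spAdj_mul, ha, hb]
        exact congrArg Subtype.val (hcomm b a)
      inv_mem' := fun {a} ha => by
        show spAdj (a : GL (SpIdx (k + 1)) F)⁻¹ = (a : GL (SpIdx (k + 1)) F)⁻¹
        rw [spAdj_inv, ha] }
  have hle : Nm.range ≤ S := by
    rintro _ ⟨g, rfl⟩
    show spAdj (spAdj (g : GL (SpIdx (k + 1)) F) * (g : GL (SpIdx (k + 1)) F)) =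
      spAdj (g : GL (SpIdx (k + 1)) F) * (g : GL (SpIdx (k + 1)) F)
    rw [spAdj_mul, spAdj_spAdj]
  have hcoadj : ∀ g : C, co ⟨spAdj (g : GL (SpIdx (k + 1)) F), hadjC g⟩ =
      fun j : Fin n => (-1 : F) ^ (j : ℕ) * co g j := fun g => hPinj (by
    rw [← hco]
    show spAdjMat (g : GL (SpIdx (k + 1)) F).val = P _
    rw [hco g]
    exact hadjpow (co g))
  have hcomul : ∀ g g' : C, co (g * g') z = co g z * co g' z := by
    intro g g'
    obtain ⟨S₁, h₁, hc₁⟩ := hP0 (co g)
    obtain ⟨S₂, h₂, hc₂⟩ := hP0 (co g')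
    obtain ⟨S₃, h₃, hc₃⟩ := hP0 (co (g * g'))
    have he : P (co (g * g')) = P (co g) * P (co g') := by rw [← hco, ← hco, ← hco]; rfl
    obtain ⟨-, v, hv, -⟩ := exists_cyclic_vector hA'n hA'r hnpos
    rw [hA'1] at hv
    have hMw : M *ᵥ ((M ^ (n - 1)) *ᵥ v) = 0 := by
      rw [Matrix.mulVec_mulVec, ← pow_succ', Nat.sub_add_cancel hnpos,
        ← hA'1, (exists_cyclic_vector hA'n hA'r hnpos).1, Matrix.zero_mulVec]
    generalize (M ^ (n - 1)) *ᵥ v = w at hv hMw
    have hev : ∀ (c : F) S', Commute M S' → (c • 1 + M * S') *ᵥ w = c • w := fun c S' hS' => by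
      rw [hS'.eq, Matrix.add_mulVec, Matrix.smul_mulVec, Matrix.one_mulVec, ← Matrix.mulVec_mulVec,
        hMw, Matrix.mulVec_zero, add_zero]
    have h4 := congrArg (· *ᵥ w) he
    rw [h₁, h₂, h₃, ← Matrix.mulVec_mulVec, hev _ _ hc₃, hev _ _ hc₂, Matrix.mulVec_smul, hev _ _ hc₁,
      smul_smul, mul_comm] at h4
    exact smul_left_injective F hv h4
  have hco1 : co 1 z = 1 := by
    have := hcomul 1 1
    rw [one_mul] at this
    exact mul_right_cancel₀ (hcoz 1) (by rw [one_mul]; exact this.symm)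
  have hSco : ∀ g : C, g ∈ S ↔ ∀ j : Fin n, Odd (j : ℕ) → co g j = 0 := by
    intro g
    constructor
    · intro hg j hj
      have h1 : co ⟨spAdj (g : GL (SpIdx (k + 1)) F), hadjC g⟩ = co g := congrArg co (Subtype.ext hg)
      rw [hcoadj] at h1
      have h2 := congrFun h1 j
      simp only [hj.neg_one_pow] at h2
      exact (mul_eq_zero.1 (show (2 : F) * co g j = 0 by linear_combination -h2)).resolve_left h.two
    · intro hg
      have h1 : co ⟨spAdj (g : GL (SpIdx (k + 1)) F), hadjC g⟩ = co g := by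
        rw [hcoadj]
        funext j
        rcases (j : ℕ).even_or_odd with he | ho
        · rw [he.neg_one_pow, one_mul]
        · rw [hg j ho, mul_zero]
      have h2 := hmk' ⟨spAdj (g : GL (SpIdx (k + 1)) F), hadjC g⟩
      have h3 : mk ⟨co g, hcoz g⟩ = ⟨spAdj (g : GL (SpIdx (k + 1)) F), hadjC g⟩ := by
        rw [← h2]; exact congrArg mk (Subtype.ext h1.symm)
      exact (congrArg Subtype.val (h3.symm.trans (hmk' g)))
  have hcardS : Nat.card S = (Fintype.card F - 1) * Fintype.card F ^ k := by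
    rw [← card_fun_zero_ne k]
    let dbl : Fin (k + 1) → Fin n := fun i => ⟨2 * (i : ℕ), by omega⟩
    let ext : (Fin (k + 1) → F) → Fin n → F := fun c j =>
      if Even (j : ℕ) then c ⟨(j : ℕ) / 2, by omega⟩ else 0
    have hext : ∀ c i, ext c (dbl i) = c i := fun c i => by
      simp only [ext, dbl, even_two_mul, if_true]
      congr 1
      exact Fin.ext (by simp)
    have hextz : ∀ c, ext c z = c 0 := fun c => hext c 0
    refine Nat.card_congr
      { toFun := fun g => ⟨fun i => co g.1 (dbl i), hcoz g.1⟩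
        invFun := fun c => ⟨mk ⟨ext c.1, by rw [hextz]; exact c.2⟩, (hSco _).2 fun j hj => by
          rw [hmk]; exact if_neg (Nat.not_even_iff_odd.2 hj)⟩
        left_inv := fun g => ?_
        right_inv := fun c => Subtype.ext (funext fun i => by
          show co (mk _) (dbl i) = c.1 i
          rw [hmk]; exact hext c.1 i) }
    refine Subtype.ext ((congrArg mk (Subtype.ext (funext fun j => ?_))).trans (hmk' g.1))
    simp only [ext]
    split_ifs with he
    · congr 1
      obtain ⟨d, hd⟩ := he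
      exact Fin.ext (by simp [dbl]; omega)
    · exact ((hSco g.1).1 g.2 j (Nat.not_even_iff_odd.1 he)).symm
  -- the image of the norm is the subgroup of squares
  let χ : C →* F :=
    { toFun := fun g => co g z, map_one' := hco1, map_mul' := hcomul }
  let sqS : Subgroup C := S.map (MonoidHom.mk' (fun g : C => g * g) fun a b => by
    rw [mul_assoc, ← mul_assoc b a b, hcomm b a]; group)
  have hsq_le : sqS ≤ Nm.range := by
    rintro _ ⟨g, hg, rfl⟩
    exact ⟨g, Subtype.ext (congrArg (· * (g : GL (SpIdx (k + 1)) F)) hg)⟩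
  have hneg : ∀ g : C, g ∈ S → g * g = 1 → (g : GL (SpIdx (k + 1)) F).val = 1 ∨
      (g : GL (SpIdx (k + 1)) F).val = -1 := by
    intro g _ hgg
    have h1 : co g z * co g z = 1 := by rw [← hcomul, hgg, hco1]
    obtain ⟨S', hS', hSc⟩ := hP0 (co g)
    rw [← hco] at hS'
    set G := (g : GL (SpIdx (k + 1)) F).val
    have hG : G * G = 1 := congrArg (fun x : C => (x : GL (SpIdx (k + 1)) F).val) hgg
    have hnu : ∀ c : F, c ≠ 0 → IsUnit (c • (1 : Matrix (SpIdx (k + 1)) (SpIdx (k + 1)) F) + M * S') := by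
      intro c hc
      rw [Matrix.isUnit_iff_isUnit_det, det_smul_one_add_nilpotent _ (hSc.isNilpotent_mul_right hMnil)]
      exact (isUnit_iff_ne_zero.2 hc).pow _
    have h2 : co g z + co g z ≠ 0 := by
      rw [← two_mul]; exact mul_ne_zero h.two (hcoz g)
    rcases mul_self_eq_one_iff.1 h1 with h3 | h3
    · left
      have h4 : (G + 1) * (G - 1) = 0 := by rw [add_mul, mul_sub, hG]; simp
      have h5 : IsUnit (G + 1) := by
        have := hnu (co g z + co g z) h2
        convert this using 1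
        rw [add_smul, hS', h3]; simp only [one_smul]; abel
      exact sub_eq_zero.1 (h5.mul_right_eq_zero.1 h4)
    · right
      have h4 : (G - 1) * (G + 1) = 0 := by rw [sub_mul, mul_add, hG, one_mul, mul_one]; abel
      have h5 : IsUnit (G - 1) := by
        have := hnu (co g z + co g z) h2
        convert this using 1
        rw [add_smul, hS', h3]; simp only [neg_smul, one_smul]; abel
      exact eq_neg_of_add_eq_zero_left (h5.mul_right_eq_zero.1 h4)
  let φ : S →* C := (MonoidHom.mk' (fun g : C => g * g) fun a b => by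
    rw [mul_assoc, ← mul_assoc b a b, hcomm b a]; group).comp S.subtype
  have hφr : φ.range = sqS := by rw [MonoidHom.range_comp, Subgroup.range_subtype]
  have hkerφ : Nat.card φ.ker ≤ 2 := by
    have hne : ∀ s : φ.ker, ((s.1.1 : GL (SpIdx (k + 1)) F).val = 1) ∨ ((s.1.1 : GL (SpIdx (k + 1)) F).val = -1) :=
      fun s => hneg _ s.1.2 s.2
    let f : φ.ker → Bool := fun s => decide ((s.1.1 : GL (SpIdx (k + 1)) F).val = 1)
    have hf : Function.Injective f := fun a b e => by
      refine Subtype.ext (Subtype.ext (Subtype.ext (Units.ext ?_)))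
      simp only [f, decide_eq_decide] at e
      rcases hne a with ha | ha <;> rcases hne b with hb | hb
      · rw [ha, hb]
      · rw [ha, e.1 ha]
      · rw [hb, e.2 hb]
      · rw [ha, hb]
    simpa using Nat.card_le_card_of_injective f hf
  obtain ⟨ν, hν⟩ : ∃ ν : F, ¬ IsSquare ν := FiniteField.exists_nonsquare (fun hc => h.two (by
    have := ringChar.of_eq hc; exact CharTwo.two_eq_zero))
  have hν0 : ν ≠ 0 := by rintro rfl; exact hν ⟨0, by simp⟩
  let zc : Fin n → F := fun j => if j = z then ν else 0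
  let νS : C := mk ⟨zc, by simp [zc, hν0]⟩
  have hνS : νS ∈ S := (hSco _).2 fun j hj => by
    rw [hmk]
    exact if_neg fun e => by rw [e] at hj; exact absurd hj (by simp [z])
  have hνN : νS ∉ Nm.range := by
    rintro ⟨g, hg⟩
    apply hν
    have h1 : co (Nm g) z = ν := by rw [hg, hmk]; simp [zc]
    refine ⟨co g z, ?_⟩
    rw [← h1]
    show co (⟨spAdj (g : GL (SpIdx (k + 1)) F), hadjC g⟩ * g : C) z = _
    rw [hcomul, hcoadj]
    simp [z]
  have h1 : Nat.card φ.range * Nat.card φ.ker = Nat.card S := by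
    rw [← Subgroup.index_ker, Subgroup.index_mul_card]
  have h2 : sqS.relIndex Nm.range * Nm.range.relIndex S = sqS.relIndex S :=
    Subgroup.relIndex_mul_relIndex _ _ _ hsq_le hle
  have hlesq : sqS ≤ S := hsq_le.trans hle
  have h3 : Nat.card sqS * sqS.relIndex S = Nat.card S := by
    rw [← Subgroup.relIndex_bot_left, ← Subgroup.relIndex_bot_left,
      Subgroup.relIndex_mul_relIndex _ _ _ bot_le hlesq]
  have h4 : Nm.range.relIndex S ≠ 1 := fun e => hνN (Subgroup.relIndex_eq_one.1 e hνS)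
  have hpos : ∀ H : Subgroup C, 0 < Nat.card H := fun H => Nat.card_pos
  have h5 : Nm.range.relIndex S = 2 ∧ Nat.card Nm.range * 2 = Nat.card S := by
    rw [← hφr] at h3 h2
    have h6 : φ.range.relIndex S = Nat.card φ.ker :=
      Nat.eq_of_mul_eq_mul_left (hpos φ.range) (by rw [h3, h1])
    rw [h6] at h2
    have h7 : Nm.range.relIndex S ≠ 0 := by
      intro e; rw [e, mul_zero] at h2
      exact absurd h2.symm Nat.card_pos.ne'
    have h8 : φ.range.relIndex Nm.range * Nm.range.relIndex S ≤ 2 := h2 ▸ hkerφ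
    have h9 : 0 < φ.range.relIndex Nm.range := Nat.pos_of_ne_zero fun e => by
      rw [e, zero_mul] at h2; exact absurd h2.symm Nat.card_pos.ne'
    have h10 : Nm.range.relIndex S = 2 := by
      have : Nm.range.relIndex S ≤ φ.range.relIndex Nm.range * Nm.range.relIndex S :=
        Nat.le_mul_of_pos_left _ h9
      omega
    refine ⟨h10, ?_⟩
    rw [← h10, ← Subgroup.relIndex_bot_left, ← Subgroup.relIndex_bot_left,
      Subgroup.relIndex_mul_relIndex _ _ _ bot_le hle]
  refine ⟨Nm, S, fun g => rfl, fun g => Iff.rfl, hcomm, hle, ?_, h5.1⟩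
  have h6 : Nat.card Nm.range * Nat.card Nm.ker = Nat.card C := by
    rw [← Subgroup.index_ker, Subgroup.index_mul_card]
  have hq : 1 < Fintype.card F := Fintype.one_lt_card
  apply Nat.eq_of_mul_eq_mul_left (hpos Nm.range)
  rw [h6, hcardC, show Nat.card Nm.range * (2 * Fintype.card F ^ (k + 1)) =
    (Nat.card Nm.range * 2) * Fintype.card F ^ (k + 1) by ring, h5.2, hcardS, mul_assoc, ← pow_add,
    show k + (k + 1) = 2 * k + 1 by ring]

/-- `Sp_2m` inside `GL_2m`. -/
noncomputable def spToGL (m : ℕ) (F : Type*) [Field F] :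
    Matrix.symplecticGroup (Fin m) F →* GL (SpIdx m) F :=
  (Matrix.symplecticGroup (Fin m) F).subtype.toHomUnits

theorem spToGL_val (g : Matrix.symplecticGroup (Fin m) F) :
    (spToGL m F g : Matrix (SpIdx m) (SpIdx m) F) = g := rfl

theorem spToGL_injective : Function.Injective (spToGL m F) := fun a b e =>
  Subtype.ext (congrArg Units.val e)

theorem spAdj_spToGL (g : Matrix.symplecticGroup (Fin m) F) :
    spAdj (spToGL m F g) * spToGL m F g = 1 :=
  (mem_sp_iff_spAdj _).1 g.2

/-- The centraliser in `Sp_2m` of a regular unipotent element. -/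
theorem card_centralizer_sp_regular (h2 : (2 : F) ≠ 0) (hm : 1 ≤ m)
    (u : Matrix.symplecticGroup (Fin m) F)
    (hnil : ((u : Matrix (SpIdx m) (SpIdx m) F) - 1) ^ (2 * m) = 0)
    (hreg : ((u : Matrix (SpIdx m) (SpIdx m) F) - 1).rank = 2 * m - 1) :
    Nat.card (Subgroup.centralizer ({u} : Set (Matrix.symplecticGroup (Fin m) F))) =
      2 * Fintype.card F ^ m := by
  obtain ⟨Nm, S, hNm, -, -, -, hker, -⟩ :=
    RegData.structure_main (u := spToGL m F u) ⟨h2, hm, spAdj_spToGL u, hnil, hreg⟩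
  rw [← hker]
  refine Nat.card_congr (Equiv.ofBijective (fun g => (⟨⟨spToGL m F g.1,
    Subgroup.mem_centralizer_singleton_iff.2 (by
      rw [← map_mul, ← map_mul, Subgroup.mem_centralizer_singleton_iff.1 g.2])⟩,
    MonoidHom.mem_ker.2 (Subtype.ext ((hNm _).trans (spAdj_spToGL g.1)))⟩ : Nm.ker)) ⟨?_, ?_⟩)
  · intro a b e
    exact Subtype.ext (spToGL_injective (congrArg (fun x : Nm.ker => x.1.1) e))
  · intro g
    have hg : spAdj (g.1.1) * g.1.1 = 1 :=
      (hNm g.1).symm.trans (congrArg Subtype.val (MonoidHom.mem_ker.1 g.2))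
    refine ⟨⟨⟨g.1.1, (mem_sp_iff_spAdj _).2 hg⟩, Subgroup.mem_centralizer_singleton_iff.2
      (Subtype.ext ?_)⟩, Subtype.ext (Subtype.ext (Units.ext rfl))⟩
    exact congrArg Units.val (Subgroup.mem_centralizer_singleton_iff.1 g.1.2)

omit [Fintype F] in
/-- An invertible alternating matrix is congruent to the standard one. -/
theorem exists_congr_J (h2 : (2 : F) ≠ 0) (A : Matrix (SpIdx m) (SpIdx m) F) (halt : Aᵀ = -A)
    (hA : A.det ≠ 0) :
    ∃ P : GL (SpIdx m) F, (P : Matrix (SpIdx m) (SpIdx m) F)ᵀ * Matrix.J (Fin m) F * P = A := by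
  have hself : ∀ x : SpIdx m → F, x ⬝ᵥ A *ᵥ x = 0 := fun x => by
    have h : x ⬝ᵥ A *ᵥ x = -(x ⬝ᵥ A *ᵥ x) := by
      conv_lhs =>
        rw [Matrix.dotProduct_mulVec, ← Matrix.mulVec_transpose, halt, Matrix.neg_mulVec,
          neg_dotProduct, dotProduct_comm]
    exact (mul_eq_zero.1 (show (2 : F) * (x ⬝ᵥ A *ᵥ x) = 0 by linear_combination h)).resolve_left h2
  obtain ⟨m', e, hd, he⟩ := H2.exists_equiv_std (Matrix.toBilin' A)
    (LinearMap.BilinForm.nondegenerate_toBilin'_of_det_ne_zero' _ hA)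
    (fun x => by rw [Matrix.toBilin'_apply']; exact hself x)
  obtain rfl : m' = m := by simp at hd; omega
  refine ⟨Matrix.GeneralLinearGroup.mkOfDetNeZero (LinearMap.toMatrix' e.toLinearMap) ?_, ?_⟩
  · rw [LinearMap.det_toMatrix']
    exact e.isUnit_det'.ne_zero
  · apply Matrix.toBilin'.injective
    show Matrix.toBilin' ((LinearMap.toMatrix' e.toLinearMap)ᵀ * Matrix.J (Fin m') F *
      LinearMap.toMatrix' e.toLinearMap) = _
    rw [← Matrix.toBilin'_comp, Matrix.toLin'_toMatrix']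
    exact LinearMap.ext fun x => LinearMap.ext fun y => (H2.sympBilin_apply (e x) (e y)).trans (he x y)

omit [Fintype F] in
/-- `Sp_2m` contains a regular unipotent element. -/
theorem exists_sp_regular (h2 : (2 : F) ≠ 0) (hm : 1 ≤ m) :
    ∃ u : Matrix.symplecticGroup (Fin m) F, ((u : Matrix (SpIdx m) (SpIdx m) F) - 1) ^ (2 * m) = 0 ∧
      ((u : Matrix (SpIdx m) (SpIdx m) F) - 1).rank = 2 * m - 1 := by
  classical
  obtain ⟨σ⟩ : Nonempty (SpIdx m ≃ Fin (2 * m)) := ⟨Fintype.equivFinOfCardEq (by simp; omega)⟩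
  let B : Matrix (SpIdx m) (SpIdx m) F :=
    Matrix.of fun i j => if (σ i : ℕ) + σ j + 1 = 2 * m then (-1) ^ (σ i : ℕ) else 0
  let M : Matrix (SpIdx m) (SpIdx m) F := Matrix.of fun i j => if (σ i : ℕ) = σ j + 1 then 1 else 0
  have hBt : Bᵀ = -B := by
    ext i j
    simp only [B, Matrix.transpose_apply, Matrix.of_apply, Matrix.neg_apply]
    by_cases h : (σ i : ℕ) + σ j + 1 = 2 * m
    · rw [if_pos h, if_pos (by omega)]
      rcases (σ i : ℕ).even_or_odd with he | ho
      · have : Odd (σ j : ℕ) := by obtain ⟨a, ha⟩ := he; exact ⟨m - 1 - a, by omega⟩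
        rw [he.neg_one_pow, this.neg_one_pow]
      · have : Even (σ j : ℕ) := by obtain ⟨a, ha⟩ := ho; exact ⟨m - 1 - a, by omega⟩
        rw [ho.neg_one_pow, this.neg_one_pow, neg_neg]
    · rw [if_neg h, if_neg (by omega), neg_zero]
  have hBB : B * B = -1 := by
    ext i k
    rw [Matrix.mul_apply, Finset.sum_eq_single (σ.symm ⟨2 * m - 1 - σ i, by omega⟩)]
    · simp only [B, Matrix.of_apply, Equiv.apply_symm_apply, Matrix.neg_apply]
      rw [if_pos (by omega)]
      by_cases h : i = k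
      · subst h
        rw [if_pos (by omega), Matrix.one_apply_eq, ← pow_add]
        exact Odd.neg_one_pow ⟨m - 1, by omega⟩
      · have : (σ i : ℕ) ≠ σ k := fun e => h (σ.injective (Fin.ext e))
        rw [if_neg (by omega), Matrix.one_apply_ne h, mul_zero, neg_zero]
    · intro j _ hj
      have : (σ j : ℕ) ≠ 2 * m - 1 - σ i := fun e => hj (σ.injective (by simp [Fin.ext_iff, e]))
      simp only [B, Matrix.of_apply]
      rw [if_neg (by omega), zero_mul]
    · simp
  have hskew : Mᵀ * B + B * M = 0 := by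
    ext i j
    rw [Matrix.add_apply, Matrix.mul_apply, Matrix.mul_apply, Matrix.zero_apply]
    by_cases h : (σ i : ℕ) + σ j + 2 = 2 * m
    · rw [Finset.sum_eq_single (σ.symm ⟨σ i + 1, by omega⟩),
        Finset.sum_eq_single (σ.symm ⟨σ j + 1, by omega⟩)]
      · simp only [M, B, Matrix.transpose_apply, Matrix.of_apply, Equiv.apply_symm_apply]
        simp only [if_true, one_mul, mul_one]
        rw [if_pos (by omega), if_pos (by omega), pow_succ]
        ring
      all_goals first
        | (intro l _ hl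
           simp only [M, B, Matrix.transpose_apply, Matrix.of_apply]
           rw [mul_eq_zero]
           first
            | exact Or.inl (if_neg fun e => hl (σ.injective (Fin.ext (by simp; omega))))
            | exact Or.inr (if_neg fun e => hl (σ.injective (Fin.ext (by simp; omega)))))
        | simp
    · rw [Finset.sum_eq_zero, Finset.sum_eq_zero, add_zero]
      all_goals
        intro l _
        simp only [M, B, Matrix.transpose_apply, Matrix.of_apply, mul_ite, ite_mul, mul_zero, zero_mul]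
        split_ifs <;> first | rfl | (exfalso; omega)
  have hMpow : ∀ a i j, (M ^ a) i j = if (σ i : ℕ) = σ j + a then 1 else 0 := by
    intro a
    induction a with
    | zero => intro i j; simp [Matrix.one_apply, ← Fin.ext_iff]
    | succ a ih =>
      intro i j
      rw [pow_succ, Matrix.mul_apply]
      by_cases h : (σ j : ℕ) + 1 < 2 * m
      · rw [Finset.sum_eq_single (σ.symm ⟨σ j + 1, h⟩)]
        · simp only [ih, M, Matrix.of_apply, Equiv.apply_symm_apply, if_true, mul_one]
          exact if_congr (by omega) rfl rfl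
        · intro l _ hl
          simp only [M, Matrix.of_apply]
          rw [if_neg fun e => hl (σ.injective (by simp [Fin.ext_iff, e])), mul_zero]
        · simp
      · rw [Finset.sum_eq_zero, if_neg (by omega)]
        intro l _
        simp only [M, Matrix.of_apply]
        rw [if_neg (by omega), mul_zero]
  have hMnil : M ^ (2 * m) = 0 := by
    ext i j
    rw [hMpow, if_neg (by omega), Matrix.zero_apply]
  let last : SpIdx m := σ.symm ⟨2 * m - 1, by omega⟩
  have hkerM : LinearMap.ker M.mulVecLin = Submodule.span F {Pi.single last 1} := by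
    apply le_antisymm
    · intro x hx
      rw [LinearMap.mem_ker, Matrix.mulVecLin_apply] at hx
      refine Submodule.mem_span_singleton.2 ⟨x last, funext fun j => ?_⟩
      by_cases hj : j = last
      · subst hj; simp
      · have hj' : (σ j : ℕ) ≠ 2 * m - 1 := fun e => hj (σ.injective (by simp [last, Fin.ext_iff, e]))
        have h := congrFun hx (σ.symm ⟨σ j + 1, by omega⟩)
        simp only [Matrix.mulVec, dotProduct, M, Matrix.of_apply, Equiv.apply_symm_apply, Pi.zero_apply,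
          ite_mul, one_mul, zero_mul] at h
        rw [Finset.sum_eq_single j (fun l _ hl => if_neg fun e => hl (σ.injective (Fin.ext (by omega))))
          (by simp), if_pos rfl] at h
        simp [hj, h]
    · rw [Submodule.span_singleton_le_iff_mem, LinearMap.mem_ker, Matrix.mulVecLin_apply]
      funext i
      rw [Matrix.mulVec_single_one]
      exact if_neg (by simp [last]; omega)
  have hMrank : M.rank = 2 * m - 1 := by
    have h := M.mulVecLin.finrank_range_add_finrank_ker
    rw [hkerM, finrank_span_singleton (by simp [Pi.single_eq_zero_iff]), Module.finrank_pi,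
      Fintype.card_sum, Fintype.card_fin] at h
    show Module.finrank F (LinearMap.range M.mulVecLin) = _
    omega
  -- transport to the standard form and take the Cayley transform
  obtain ⟨P, hP⟩ := exists_congr_J h2 B hBt (fun h => by
    have := congrArg Matrix.det hBB
    rw [Matrix.det_mul, h, zero_mul] at this
    exact ((Matrix.isUnit_iff_isUnit_det _).1 ((isUnit_one : IsUnit (1 : Matrix (SpIdx m) (SpIdx m) F)).neg)).ne_zero this.symm)
  set P' := ((P⁻¹ : GL (SpIdx m) F) : Matrix (SpIdx m) (SpIdx m) F)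
  set M' := (P : Matrix (SpIdx m) (SpIdx m) F) * M * P' with hM'
  have hM'J : M'ᵀ * Matrix.J (Fin m) F = -(Matrix.J (Fin m) F * M') := by
    calc _ = P'ᵀ * Mᵀ * ((P : Matrix (SpIdx m) (SpIdx m) F)ᵀ * Matrix.J (Fin m) F * P) * P' := by
          rw [hM', Matrix.transpose_mul, Matrix.transpose_mul]
          simp only [mul_assoc, Units.mul_inv, mul_one, P']
      _ = -(P'ᵀ * (B * M) * P') := by
          rw [hP, mul_assoc P'ᵀ, eq_neg_of_add_eq_zero_left hskew, mul_neg, neg_mul]
      _ = _ := by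
          rw [← hP, hM']
          have : P'ᵀ * (P : Matrix (SpIdx m) (SpIdx m) F)ᵀ = 1 := by
            rw [← Matrix.transpose_mul, Units.mul_inv, Matrix.transpose_one]
          simp only [← mul_assoc, this, one_mul]
  have hadjM : spAdjMat M' = -M' := by
    rw [spAdjMat, mul_assoc, jGL_val, hM'J, mul_neg, ← jGL_val, Units.inv_mul_cancel_left]
  have hM'pow : M' ^ (2 * m) = 0 := by
    have : SemiconjBy (P : Matrix (SpIdx m) (SpIdx m) F) M M' := by
      simp [SemiconjBy, hM', P', mul_assoc]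
    have h := (this.pow_right (2 * m)).eq
    rw [hMnil, mul_zero] at h
    exact (P.isUnit.mul_left_eq_zero).1 h.symm
  have hM'nil : IsNilpotent M' := ⟨_, hM'pow⟩
  obtain ⟨a, ha⟩ := hM'nil.isUnit_one_add
  obtain ⟨b, hb⟩ := hM'nil.isUnit_one_sub
  have hab : Commute a b := by
    refine Units.ext ?_
    rw [Units.val_mul, Units.val_mul, ha, hb]
    noncomm_ring
  have hadj1 : spAdjMat (1 : Matrix (SpIdx m) (SpIdx m) F) = 1 := by
    rw [spAdjMat, Matrix.transpose_one, mul_one, Units.inv_mul]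
  have hadja : spAdj a = b := by
    refine Units.ext ?_
    rw [spAdj_val, ha, hb, spAdjMat, Matrix.transpose_add, mul_add, add_mul, ← spAdjMat, ← spAdjMat,
      hadjM, hadj1, sub_eq_add_neg]
  have hadjb : spAdj b = a := by rw [← hadja, spAdj_spAdj]
  have hmem : spAdj (a * b⁻¹) * (a * b⁻¹) = 1 := by
    rw [spAdj_mul, spAdj_inv, hadja, hadjb, mul_assoc, ← mul_assoc b, hab.symm.eq, mul_assoc a b,
      mul_inv_cancel, mul_one, inv_mul_cancel]
  refine ⟨⟨(a * b⁻¹ : GL (SpIdx m) F), (mem_sp_iff_spAdj _).2 hmem⟩, ?_⟩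
  set bi := ((b⁻¹ : GL (SpIdx m) F) : Matrix (SpIdx m) (SpIdx m) F)
  have hsub : ((a * b⁻¹ : GL (SpIdx m) F) : Matrix (SpIdx m) (SpIdx m) F) - 1 = M' * ((2 : F) • bi) := by
    rw [Units.val_mul, ha]
    conv_lhs => arg 2; rw [← Units.mul_inv b]
    rw [hb, ← sub_mul, mul_smul_comm, ← smul_mul_assoc, two_smul]
    congr 1
    abel
  refine ⟨?_, ?_⟩
  · show (((a * b⁻¹ : GL (SpIdx m) F) : Matrix (SpIdx m) (SpIdx m) F) - 1) ^ (2 * m) = 0
    rw [hsub, Commute.mul_pow ?_, hM'pow, zero_mul]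
    refine Commute.smul_right (Commute.units_inv_right (u := b) ?_) _
    rw [hb]
    exact (Commute.one_right _).sub_right (Commute.refl _)
  · show (((a * b⁻¹ : GL (SpIdx m) F) : Matrix (SpIdx m) (SpIdx m) F) - 1).rank = _
    rw [hsub, Matrix.rank_mul_eq_left_of_isUnit_det _ _ (by
        rw [Matrix.det_smul]
        exact ((isUnit_iff_ne_zero.2 h2).pow _).mul ((Matrix.isUnit_iff_isUnit_det _).1 (b⁻¹).isUnit)),
      hM', Matrix.rank_mul_eq_left_of_isUnit_det _ _ ((Matrix.isUnit_iff_isUnit_det _).1 (P⁻¹).isUnit),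
      Matrix.rank_mul_eq_right_of_isUnit_det _ _ ((Matrix.isUnit_iff_isUnit_det _).1 P.isUnit), hMrank]

/-- The classes of regular unipotent elements of `Sp_2m`. -/
theorem card_sp_regular_classes (h2 : (2 : F) ≠ 0) (hm : 1 ≤ m) :
    Nat.card {C : ConjClasses (Matrix.symplecticGroup (Fin m) F) //
      ∃ u : Matrix.symplecticGroup (Fin m) F, ConjClasses.mk u = C ∧
        ((u : Matrix (SpIdx m) (SpIdx m) F) - 1) ^ (2 * m) = 0 ∧
        ((u : Matrix (SpIdx m) (SpIdx m) F) - 1).rank = 2 * m - 1} = 2 := by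
  classical
  obtain ⟨w, hwn, hwr⟩ := exists_sp_regular (F := F) h2 hm
  set u := spToGL m F w with hu
  have huadj : spAdj u = u⁻¹ := eq_inv_of_mul_eq_one_left (spAdj_spToGL w)
  obtain ⟨Nm, S, hNm, hS, hcomm, -, -, hidx⟩ :=
    RegData.structure_main (u := u) ⟨h2, hm, spAdj_spToGL w, hwn, hwr⟩
  have hQ : ∀ s : S, ∃ Q : GL (SpIdx m) F, spAdj Q * Q = (s.1 : GL (SpIdx m) F) := by
    intro s
    set X := ((s.1 : GL (SpIdx m) F) : Matrix (SpIdx m) (SpIdx m) F)
    have hs : spAdjMat X = X := congrArg Units.val ((hS s.1).1 s.2)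
    have hs' : Xᵀ * Matrix.J (Fin m) F = Matrix.J (Fin m) F * X := by
      conv_rhs => rw [← hs, spAdjMat, ← jGL_val, mul_assoc _ Xᵀ, Units.mul_inv_cancel_left, jGL_val]
    obtain ⟨Q, hQ⟩ := exists_congr_J h2 (Matrix.J (Fin m) F * X)
      (by rw [Matrix.transpose_mul, Matrix.J_transpose, mul_neg, hs'])
      (by rw [Matrix.det_mul]; 
          exact mul_ne_zero (Matrix.isUnit_det_J (Fin m) F).ne_zero
            (Matrix.GeneralLinearGroup.det_ne_zero _))
    refine ⟨Q, Units.ext ?_⟩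
    rw [Units.val_mul, spAdj_val, spAdjMat, mul_assoc, mul_assoc]
    rw [← jGL_val, mul_assoc] at hQ
    rw [hQ, Units.inv_mul_cancel_left]
  choose Q hQ using hQ
  have hmemv : ∀ s : S, spAdj (Q s * u * (Q s)⁻¹) * (Q s * u * (Q s)⁻¹) = 1 := by
    intro s
    have hsu : u * (s.1 : GL (SpIdx m) F) = (s.1 : GL (SpIdx m) F) * u :=
      (Subgroup.mem_centralizer_singleton_iff.1 s.1.2).symm
    calc _ = (spAdj (Q s))⁻¹ * (u⁻¹ * (spAdj (Q s) * Q s) * u) * (Q s)⁻¹ := by
          rw [spAdj_mul, spAdj_mul, spAdj_inv, huadj]; group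
      _ = (spAdj (Q s))⁻¹ * (spAdj (Q s) * Q s) * (Q s)⁻¹ := by
          rw [hQ, mul_assoc u⁻¹, ← hsu, inv_mul_cancel_left]
      _ = 1 := by group
  let v : S → Matrix.symplecticGroup (Fin m) F := fun s =>
    ⟨(Q s * u * (Q s)⁻¹ : GL (SpIdx m) F), (mem_sp_iff_spAdj _).2 (hmemv s)⟩
  have hv : ∀ s, spToGL m F (v s) = Q s * u * (Q s)⁻¹ := fun s => Units.ext rfl
  have hvreg : ∀ s, ((v s : Matrix (SpIdx m) (SpIdx m) F) - 1) ^ (2 * m) = 0 ∧
      ((v s : Matrix (SpIdx m) (SpIdx m) F) - 1).rank = 2 * m - 1 := by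
    intro s
    have he : (v s : Matrix (SpIdx m) (SpIdx m) F) - 1 = (Q s).val * ((u : Matrix (SpIdx m) (SpIdx m) F) - 1) *
        ((Q s)⁻¹ : GL (SpIdx m) F).val := by
      show (Q s).val * u.val * ((Q s)⁻¹ : GL (SpIdx m) F).val - 1 = _
      rw [mul_sub, mul_one, sub_mul, Units.mul_inv]
    have hwn' : ((u : Matrix (SpIdx m) (SpIdx m) F) - 1) ^ (2 * m) = 0 := hwn
    refine ⟨?_, ?_⟩
    · rw [he, Units.conj_pow, hwn', mul_zero, zero_mul]
    · rw [he, Matrix.rank_mul_eq_left_of_isUnit_det _ _ ((Matrix.isUnit_iff_isUnit_det _).1 ((Q s)⁻¹).isUnit),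
        Matrix.rank_mul_eq_right_of_isUnit_det _ _ ((Matrix.isUnit_iff_isUnit_det _).1 (Q s).isUnit)]
      exact hwr
  let K := Nm.range.subgroupOf S
  have hfib : ∀ s t : S, IsConj (v s) (v t) ↔ s⁻¹ * t ∈ K := by
    intro s t
    rw [Subgroup.mem_subgroupOf, isConj_iff]
    constructor
    · rintro ⟨h, hh⟩
      have hh' := congrArg (spToGL m F) hh
      rw [map_mul, map_mul, map_inv, hv, hv] at hh'
      set H := spToGL m F h
      set g := (Q s)⁻¹ * H⁻¹ * Q t with hgdef
      have hgu : g * u = u * g := by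
        have h1 : u = (Q s)⁻¹ * H⁻¹ * (Q t * u * (Q t)⁻¹) * H * Q s := by rw [← hh']; group
        conv_rhs => rw [h1, hgdef]
        rw [hgdef]; group
      clear_value g
      refine ⟨⟨g, Subgroup.mem_centralizer_singleton_iff.2 hgu⟩, Subtype.ext ?_⟩
      rw [hNm]
      show spAdj g * g = (s.1 : GL (SpIdx m) F)⁻¹ * (t.1 : GL (SpIdx m) F)
      have hgt : spAdj g * (s.1 : GL (SpIdx m) F) * g = (t.1 : GL (SpIdx m) F) := by
        have hH : spAdj H⁻¹ * H⁻¹ = 1 := by
          show spAdj (spToGL m F h)⁻¹ * (spToGL m F h)⁻¹ = 1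
          rw [← map_inv]; exact spAdj_spToGL h⁻¹
        rw [← hQ s, ← hQ t]
        calc _ = spAdj (Q s * g) * (Q s * g) := by rw [spAdj_mul]; group
          _ = spAdj (H⁻¹ * Q t) * (H⁻¹ * Q t) := by rw [hgdef]; group
          _ = spAdj (Q t) * (spAdj H⁻¹ * H⁻¹) * Q t := by rw [spAdj_mul]; group
          _ = _ := by rw [hH, mul_one]
      have hga : spAdj g * (s.1 : GL (SpIdx m) F) = (s.1 : GL (SpIdx m) F) * spAdj g := by
        have hgs : g * (s.1 : GL (SpIdx m) F) = (s.1 : GL (SpIdx m) F) * g :=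
          congrArg Subtype.val (hcomm
            ⟨g, Subgroup.mem_centralizer_singleton_iff.2 hgu⟩ s.1)
        have := congrArg spAdj hgs
        rw [spAdj_mul, spAdj_mul, (hS s.1).1 s.2] at this
        exact this.symm
      rw [← hgt, hga, mul_assoc, inv_mul_cancel_left]
    · rintro ⟨g, hg⟩
      have hst : spAdj (g : GL (SpIdx m) F) * g = (s.1 : GL (SpIdx m) F)⁻¹ * (t.1 : GL (SpIdx m) F) :=
        (hNm g).symm.trans (congrArg Subtype.val hg)
      have hga : spAdj (g : GL (SpIdx m) F) * (s.1 : GL (SpIdx m) F) =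
          (s.1 : GL (SpIdx m) F) * spAdj (g : GL (SpIdx m) F) := by
        have hgs : (g : GL (SpIdx m) F) * (s.1 : GL (SpIdx m) F) = (s.1 : GL (SpIdx m) F) * g :=
          congrArg Subtype.val (hcomm g s.1)
        have := congrArg spAdj hgs
        rw [spAdj_mul, spAdj_mul, (hS s.1).1 s.2] at this
        exact this.symm
      set X := Q s * (g : GL (SpIdx m) F) with hXdef
      have hX : spAdj X * X = (t.1 : GL (SpIdx m) F) := by
        calc _ = spAdj (g : GL (SpIdx m) F) * (spAdj (Q s) * Q s) * g := by rw [hXdef, spAdj_mul]; group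
          _ = (s.1 : GL (SpIdx m) F) * (spAdj (g : GL (SpIdx m) F) * g) := by
            rw [hQ, hga, mul_assoc]
          _ = _ := by rw [hst, mul_inv_cancel_left]
      have hH : spAdj (Q t * X⁻¹) * (Q t * X⁻¹) = 1 := by
        calc _ = (spAdj X)⁻¹ * (spAdj (Q t) * Q t) * X⁻¹ := by rw [spAdj_mul, spAdj_inv]; group
          _ = 1 := by rw [hQ, ← hX]; group
      refine ⟨⟨(Q t * X⁻¹ : GL (SpIdx m) F), (mem_sp_iff_spAdj _).2 hH⟩, spToGL_injective ?_⟩
      rw [map_mul, map_mul, map_inv, hv, hv]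
      have hgu : (g : GL (SpIdx m) F)⁻¹ * u * g = u := by
        rw [mul_assoc, ← Subgroup.mem_centralizer_singleton_iff.1 g.2, inv_mul_cancel_left]
      rw [show spToGL m F ⟨(Q t * X⁻¹ : GL (SpIdx m) F), (mem_sp_iff_spAdj _).2 hH⟩ = Q t * X⁻¹
        from Units.ext rfl]
      conv_rhs => rw [← hgu]
      rw [hXdef]; group
  refine Eq.trans ?_ hidx
  refine (Nat.card_congr (Equiv.ofBijective (Quotient.lift
    (fun s => (⟨ConjClasses.mk (v s), v s, rfl, (hvreg s).1, (hvreg s).2⟩ :
      {C : ConjClasses (Matrix.symplecticGroup (Fin m) F) //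
        ∃ u : Matrix.symplecticGroup (Fin m) F, ConjClasses.mk u = C ∧
          ((u : Matrix (SpIdx m) (SpIdx m) F) - 1) ^ (2 * m) = 0 ∧
          ((u : Matrix (SpIdx m) (SpIdx m) F) - 1).rank = 2 * m - 1}))
    fun s t h => Subtype.ext (ConjClasses.mk_eq_mk_iff_isConj.2
      ((hfib s t).2 (QuotientGroup.leftRel_apply.1 h)))) ⟨?_, ?_⟩ :
    S ⧸ K ≃ _)).symm
  · rintro ⟨s⟩ ⟨t⟩ e
    exact Quotient.sound (QuotientGroup.leftRel_apply.2
      ((hfib s t).1 (ConjClasses.mk_eq_mk_iff_isConj.1 (congrArg Subtype.val e))))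
  · rintro ⟨C, x, hxC, hxn, hxr⟩
    have hcard : Fintype.card (SpIdx m) = 2 * m := by simp; omega
    obtain ⟨c, hc⟩ := isConj_regular (A := (u : Matrix (SpIdx m) (SpIdx m) F))
      (B := (x : Matrix (SpIdx m) (SpIdx m) F)) ⟨_, hwn⟩ ⟨_, hxn⟩ (by rw [hcard]; exact hwr)
      (by rw [hcard]; exact hxr) (by omega)
    have hc' : c * u * c⁻¹ = spToGL m F x := mul_inv_eq_iff_eq_mul.2 (Units.ext hc)
    have hxadj := spAdj_spToGL x
    rw [← hc'] at hxadj
    have hsC : spAdj c * c * u = u * (spAdj c * c) := by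
      calc spAdj c * c * u
          = u * (spAdj c * ((spAdj (c * u * c⁻¹)) * (c * u * c⁻¹)) * c) := by
            rw [spAdj_mul, spAdj_mul, spAdj_inv, huadj]; group
        _ = _ := by rw [hxadj, mul_one]
    let s : S := ⟨⟨spAdj c * c, Subgroup.mem_centralizer_singleton_iff.2 hsC⟩,
      (hS _).2 (by rw [spAdj_mul, spAdj_spAdj])⟩
    refine ⟨QuotientGroup.mk s, Subtype.ext ?_⟩
    show ConjClasses.mk (v s) = C
    rw [← hxC, ConjClasses.mk_eq_mk_iff_isConj, isConj_iff]
    have hH : spAdj (c * (Q s)⁻¹) * (c * (Q s)⁻¹) = 1 := by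
      calc _ = (spAdj (Q s))⁻¹ * (spAdj c * c) * (Q s)⁻¹ := by rw [spAdj_mul, spAdj_inv]; group
        _ = (spAdj (Q s))⁻¹ * (s.1 : GL (SpIdx m) F) * (Q s)⁻¹ := rfl
        _ = 1 := by rw [← hQ]; group
    refine ⟨⟨(c * (Q s)⁻¹ : GL (SpIdx m) F), (mem_sp_iff_spAdj _).2 hH⟩, spToGL_injective ?_⟩
    rw [map_mul, map_mul, map_inv, hv, ← hc']
    rw [show spToGL m F ⟨(c * (Q s)⁻¹ : GL (SpIdx m) F), (mem_sp_iff_spAdj _).2 hH⟩ = c * (Q s)⁻¹
      from Units.ext rfl]
    group

end Cfsg.Agent.H67
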