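import Cfsg.Agent.H67.ChevTorusFast
import Cfsg.Agent.H67.ChevTorusAdj

set_option autoImplicit false

/-!
# The cyclic torus of `E₆(q)`
-/

namespace Cfsg.Agent.H67.Chev

open Cfsg.Lie Cfsg.Agent.H46

/-- The table of the cyclic torus. -/
def torusE6 : TorusData chevE6 where
  L := ([0, 1, 2, 3, 4, 5] : List (Fin 6))
  α₀ := 2
  h := 12
  c := [1, 1, 0, -1, 0, 1]
  B := [[2, 1, -2, -1, 2, 4], [0, -3, 0, 0, 3, 0], [-2, -1, -1, 1, 1, 2], [0, -3, -3, 0, 3, 3],
    [-1, -2, -2, -1, 2, 1], [1, -1, -1, -2, 1, 2]]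
  d := 3

theorem torusE6_ok : TorusOk goodE6 torusE6 :=
  TorusOk.of_fast (by decide +kernel) rfl rfl (by decide +kernel) (by decide +kernel) (by decide +kernel)
    (by decide +kernel) (by decide +kernel) (by decide +kernel) (by decide +kernel)

theorem torusE6_adjOk : AdjOk goodE8 torusE6 where
  prime := Nat.prime_three
  hdiv := by decide +kernel
  hrot := by decide +kernel
  turn := by decide +kernel
  last := by decide +kernel
  hv := by decide +kernel
  ker := ⟨[[4, 3, 5, 6, 4, 2], [3, 6, 6, 9, 6, 3], [5, 6, 10, 12, 8, 4], [6, 9, 12, 18, 12, 6],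
    [4, 6, 8, 12, 10, 5], [2, 3, 4, 6, 5, 4]], by decide +kernel⟩
  res := by decide +kernel
  reg := by decide +kernel
  free := by decide +kernel

end Cfsg.Agent.H67.Chev
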