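import Cfsg.Agent.H67.ChevTorusFast
import Cfsg.Agent.H46.TypeE8

set_option autoImplicit false

/-!
# The twisted torus of a Coxeter element of `E₈(q)`
-/

namespace Cfsg.Agent.H67.Chev

open Cfsg.Lie Cfsg.Agent.H46

/-- The table of the cyclic torus. -/
def torusE8 : TorusData chevE8 where
  L := ([0, 1, 2, 3, 4, 5, 6, 7] : List (Fin 8))
  α₀ := 0
  h := 30
  c := [1, 1, 0, -1, -1, -1, 0, 1]
  B := [[0, 0, -1, -1, 0, 0, 1, 1], [-1, -1, -1, 0, 0, 1, 1, 0], [-1, -1, -1, -1, 0, 1, 1, 1],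
    [-1, -2, -2, -1, 0, 1, 2, 1], [-1, -1, -2, -1, 0, 1, 1, 1], [-1, -1, -1, -1, 0, 1, 1, 0],
    [0, 0, -1, -1, -1, 0, 1, 1], [-1, 0, 0, 0, 0, 0, 0, 0]]

theorem torusE8_ok : TorusOk goodE8 torusE8 :=
  TorusOk.of_fast (by decide +kernel) rfl rfl (by decide +kernel) (by decide +kernel) (by decide +kernel)
    (by decide +kernel) (by decide +kernel) (by decide +kernel) (by decide +kernel)

end Cfsg.Agent.H67.Chev
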