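import Cfsg.Agent.H67.ChevTorusLang
import Cfsg.Agent.H46.TypeF4

set_option autoImplicit false

/-!
# The twisted torus of order `q⁴ + 1` of `F₄(q)`
-/

namespace Cfsg.Agent.H67.Chev

open Cfsg.Lie Cfsg.Agent.H46

/-- The table of the cyclic torus. -/
def torusF4 : TorusData chevF4 where
  L := ([1, 1, 1, 0, 3, 3, 2, 2, 3, 2, 0, 1, 2, 0, 0, 0, 2, 2] : List (Fin 4))
  α₀ := 3
  h := 8
  c := [1, 0, 0, 0]
  B := [[-1, 0, 0, 0], [-1, 0, 0, 1], [-1, -1, 1, 1], [-1, 0, 1, 0]]

theorem torusF4_ok : TorusOk goodF4 torusF4 where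
  hα := by decide +kernel
  hclen := rfl
  hc0 := rfl
  hrank := by decide +kernel
  shift := by decide +kernel
  unit := by decide +kernel
  basis := by decide +kernel
  cand := by decide +kernel
  reg := by decide +kernel
  free := by decide +kernel

end Cfsg.Agent.H67.Chev
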