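import Mathlib
import Cfsg.Agent.H66.JordanCentralizer
import Cfsg.Agent.H66.Unitary
import Cfsg.Agent.H67.UnitaryClasses
import Cfsg.Agent.H67.SpOrderThree

set_option autoImplicit false

/-!
# The centraliser of a unipotent element in `GU_n(q)`
-/

namespace Cfsg.Agent.H67

open Matrix

section Norm

variable {M : Type*} [Ring M] [Finite M]

/-- In a finite ring with an anti-involution moving a central element, units fibre over the
self-adjoint units through the norm. -/
theorem card_units_eq_adjoint (τ : M → M) (τadd : ∀ x y, τ (x + y) = τ x + τ y)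
    (τmul : ∀ x y, τ (x * y) = τ y * τ x) (ττ : ∀ x, τ (τ x) = x) {ε : M} (hε : ∀ x, Commute x ε)
    (hD : IsUnit (ε - τ ε)) :
    Nat.card {g : M // IsUnit g} =
      Nat.card {g : M // τ g * g = 1} * Nat.card {s : M // IsUnit s ∧ τ s = s} := by
  classical
  have τ1 : τ 1 = 1 := by
    have := τmul (τ 1) 1
    rw [mul_one, ττ, mul_one] at this
    exact this.symm
  have τu : ∀ x, IsUnit x → IsUnit (τ x) := by
    rintro _ ⟨u, rfl⟩
    exact ⟨⟨τ u, τ (u⁻¹ : Mˣ), by rw [← τmul, u.inv_mul, τ1], by rw [← τmul, u.mul_inv, τ1]⟩, rfl⟩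
  have τinv : ∀ u : Mˣ, τ (u⁻¹ : Mˣ) * τ u = 1 := fun u => by rw [← τmul, u.mul_inv, τ1]
  have hgu : ∀ g : M, τ g * g = 1 → IsUnit g := fun g h => by
    cases nonempty_fintype M
    exact IsUnit.of_mul_eq_one_right _ h
  have hy : ∀ s : {s : M // IsUnit s ∧ τ s = s}, ∃ y : Mˣ, τ y * y = (s : M) := by
    rintro ⟨s, hs, hτs⟩
    obtain ⟨y, hy, hyy, -, -⟩ := H66.exists_adjoint_norm_eq τ τadd τmul ττ hs hτs (hε s) (hε (τ ε)).symm hD
    exact ⟨hy.unit, hyy⟩
  choose y hy using hy
  let φ : {g : M // IsUnit g} → {s : M // IsUnit s ∧ τ s = s} := fun g =>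
    ⟨τ g.1 * g.1, (τu _ g.2).mul g.2, by rw [τmul, ττ]⟩
  have hback : ∀ (g : {g : M // τ g * g = 1}) (s : {s : M // IsUnit s ∧ τ s = s}),
      τ (g.1 * y s) * (g.1 * y s) = s := fun g s => by
    rw [τmul, mul_assoc, ← mul_assoc (τ g.1), g.2, one_mul, hy]
  rw [← Nat.card_prod]
  refine Nat.card_congr
    { toFun := fun g => (⟨g.1 * ((y (φ g))⁻¹ : Mˣ), ?_⟩, φ g)
      invFun := fun p => ⟨p.1.1 * y p.2, (hgu _ p.1.2).mul (y p.2).isUnit⟩
      left_inv := fun g => Subtype.ext (by simp)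
      right_inv := fun p => ?_ }
  · rw [τmul, mul_assoc, ← mul_assoc (τ g.1), show τ g.1 * g.1 = (φ g).1 from rfl, ← hy (φ g),
      mul_assoc, Units.mul_inv, mul_one, τinv]
  · have h2 : φ ⟨p.1.1 * y p.2, (hgu _ p.1.2).mul (y p.2).isUnit⟩ = p.2 := Subtype.ext (hback p.1 p.2)
    refine Prod.ext (Subtype.ext ?_) h2
    show p.1.1 * (y p.2 : M) * ((y (φ ⟨_, _⟩))⁻¹ : Mˣ) = p.1.1
    rw [h2, mul_assoc, Units.mul_inv, mul_one]

end Norm

variable {K : Type*} [Field K] [Fintype K] {q : ℕ}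

/-- The conjugate transpose with respect to `σ`. -/
def sigT (σ : K →+* K) {ι κ : Type*} (X : Matrix ι κ K) : Matrix κ ι K := (X.map σ)ᵀ

theorem sigT_mul (σ : K →+* K) {ι κ μ : Type*} [Fintype κ] (X : Matrix ι κ K) (Y : Matrix κ μ K) :
    sigT σ (X * Y) = sigT σ Y * sigT σ X := by
  simp only [sigT, Matrix.map_mul, Matrix.transpose_mul]

omit [Fintype K] in
theorem sigT_sigT {σ : K →+* K} (hσσ : ∀ x, σ (σ x) = x) {ι κ : Type*} (X : Matrix ι κ K) :
    sigT σ (sigT σ X) = X := by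
  ext i j; simp [sigT, hσσ]

omit [Fintype K] in
theorem sigT_one (σ : K →+* K) {ι : Type*} [DecidableEq ι] : sigT σ (1 : Matrix ι ι K) = 1 := by
  simp [sigT]

omit [Fintype K] in
theorem sigT_sub (σ : K →+* K) {ι κ : Type*} (X Y : Matrix ι κ K) :
    sigT σ (X - Y) = sigT σ X - sigT σ Y := by
  ext i j; simp [sigT]

omit [Fintype K] in
theorem sigT_smul (σ : K →+* K) {ι κ : Type*} (c : K) (X : Matrix ι κ K) :
    sigT σ (c • X) = σ c • sigT σ X := by
  ext i j; simp [sigT]

/-- Invertible matrices fibre over the invertible Hermitian ones with fibre `GU`. -/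
theorem card_GL_eq_herm (hK : Fintype.card K = q ^ 2) {ι : Type*} [Fintype ι] [DecidableEq ι] :
    Nat.card {X : Matrix ι ι K // X.det ≠ 0} = Nat.card (Cfsg.GU (Fintype.card ι) K q) *
      Nat.card {X : Matrix ι ι K // X.det ≠ 0 ∧ sigT (H3.conjQ hK) X = X} := by
  classical
  obtain ⟨c₀, hc₀⟩ := H3.exists_conj_ne hK
  have hσσ := H3.conjQ_conjQ hK
  set σ := H3.conjQ hK with hσ
  have hD : IsUnit (c₀ • (1 : Matrix ι ι K) - sigT σ (c₀ • 1)) := by
    rw [sigT_smul, sigT_one, ← sub_smul, Matrix.isUnit_iff_isUnit_det, Matrix.det_smul, Matrix.det_one,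
      mul_one]
    exact (isUnit_iff_ne_zero.2 (sub_ne_zero.2 fun e => hc₀ e.symm)).pow _
  have h := card_units_eq_adjoint (M := Matrix ι ι K) (sigT σ) (fun x y => by ext i j; simp [sigT])
    (fun x y => sigT_mul σ x y) (sigT_sigT hσσ) (ε := c₀ • 1)
    (fun x => (Commute.one_right x).smul_right c₀) hD
  have hu : ∀ X : Matrix ι ι K, IsUnit X ↔ X.det ≠ 0 := fun X => by
    rw [Matrix.isUnit_iff_isUnit_det, isUnit_iff_ne_zero]
  simp only [hu] at h
  rw [h]
  congr 1
  set e := Fintype.equivFin ι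
  have key : ∀ g : Matrix ι ι K, sigT σ (Matrix.reindex e e g) * Matrix.reindex e e g =
      Matrix.reindex e e (sigT σ g * g) := fun g => by
    simp only [Matrix.reindex_apply]
    rw [← Matrix.submatrix_mul_equiv _ _ _ e.symm]
    rfl
  refine Nat.card_congr
    { toFun := fun g => ⟨Matrix.GeneralLinearGroup.mkOfDetNeZero (Matrix.reindex e e g.1) (by
          rw [Matrix.det_reindex_self]; exact (hu _).1 (IsUnit.of_mul_eq_one_right _ g.2)),
        (H66.mem_GU_iff σ (fun _ => rfl) hσσ _).2 (by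
          show sigT σ (Matrix.reindex e e g.1) * Matrix.reindex e e g.1 = 1
          rw [key, g.2]; simp)⟩
      invFun := fun g => ⟨Matrix.reindex e.symm e.symm ((g.1 : GL (Fin (Fintype.card ι)) K) :
          Matrix (Fin (Fintype.card ι)) (Fin (Fintype.card ι)) K), by
        have h1 : sigT σ ((g.1 : GL (Fin (Fintype.card ι)) K) : Matrix (Fin (Fintype.card ι)) (Fin (Fintype.card ι)) K) *
            ((g.1 : GL (Fin (Fintype.card ι)) K) : Matrix (Fin (Fintype.card ι)) (Fin (Fintype.card ι)) K) = 1 :=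
          (H66.mem_GU_iff σ (fun _ => rfl) hσσ _).1 g.2
        simp only [Matrix.reindex_apply, Equiv.symm_symm]
        show (sigT σ ((g.1 : GL (Fin (Fintype.card ι)) K) : Matrix (Fin (Fintype.card ι)) (Fin (Fintype.card ι)) K)).submatrix e e * _ = 1
        rw [Matrix.submatrix_mul_equiv, h1, Matrix.submatrix_one_equiv]⟩
      left_inv := fun g => Subtype.ext (by simp)
      right_inv := fun g => Subtype.ext (Units.ext (by simp)) }

/-- The Jordan block is unipotent. -/
theorem jordanBlock_sub_one_pow (s : ℕ) : (Cfsg.jordanBlock s K - 1) ^ s = 0 := by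
  have key : ∀ k (i j : Fin s), (i : ℕ) < j + k → ((Cfsg.jordanBlock s K - 1) ^ k) i j = 0 := by
    intro k
    induction k with
    | zero => intro i j h; rw [pow_zero, Matrix.one_apply_ne]; rintro rfl; omega
    | succ k ih =>
      intro i j h
      rw [pow_succ, Matrix.mul_apply, Finset.sum_eq_zero]
      intro l _
      by_cases hl : (l : ℕ) = j + 1
      · rw [ih i l (by omega), zero_mul]
      · rw [Matrix.sub_apply, Cfsg.jordanBlock, Matrix.of_apply, Matrix.one_apply]
        simp only [Fin.ext_iff]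
        split_ifs <;> simp_all
  exact Matrix.ext fun i j => key s i j (by omega)

omit [Fintype K] in
/-- Determinant of a lower triangular matrix with constant diagonal, shifted. -/
theorem det_sub_smul_of_triangular {s : ℕ} (B : Matrix (Fin s) (Fin s) K) (c x : K)
    (hu : ∀ b a, b < a → B b a = 0) (hd : ∀ b, B b b = c) :
    (B - x • 1).det = (c - x) ^ s := by
  rw [Matrix.det_of_lowerTriangular _ fun i j (hij : i < j) => by
    rw [Matrix.sub_apply, hu i j hij, Matrix.smul_apply, Matrix.one_apply_ne hij.ne, smul_zero, sub_zero]]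
  simp [hd]

/-- A Hermitian matrix fixed by a Jordan block. -/
theorem exists_regular_unitary (hK : Fintype.card K = q ^ 2) (s : ℕ) :
    ∃ P : GL (Fin s) K, sigT (H3.conjQ hK) ((P : Matrix (Fin s) (Fin s) K) * Cfsg.jordanBlock s K *
        ((P⁻¹ : GL (Fin s) K) : Matrix (Fin s) (Fin s) K)) *
      ((P : Matrix (Fin s) (Fin s) K) * Cfsg.jordanBlock s K *
        ((P⁻¹ : GL (Fin s) K) : Matrix (Fin s) (Fin s) K)) = 1 := by
  have hdet : (Cfsg.jordanBlock s K).det ≠ 0 := by
    rw [Matrix.det_of_lowerTriangular _ fun i j (hij : i < j) => by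
      have : (i : ℕ) < j := hij
      rw [Cfsg.jordanBlock, Matrix.of_apply, if_neg (by omega), if_neg (by omega)]]
    simp [Cfsg.jordanBlock]
  set A := Matrix.GeneralLinearGroup.mkOfDetNeZero (Cfsg.jordanBlock s K) hdet
  obtain ⟨B, hB⟩ := exists_GU_isConj hK A
    (isConj_contraMat_of_unipotent (H3.conjQ_conjQ hK) A (m := s) (jordanBlock_sub_one_pow s))
  obtain ⟨P, hP⟩ := isConj_iff.1 hB
  refine ⟨P, ?_⟩
  have h := (H66.mem_GU_iff (H3.conjQ hK) (fun _ => rfl) (H3.conjQ_conjQ hK) _).1 B.2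
  rw [← hP] at h
  exact h

section Model

variable {t : ℕ} (d : Fin t → ℕ)

local notation "I" => (k : Fin t) × Fin (d k)

/-- Restricting a block-diagonal product to rows of one block. -/
theorem blockDiagonal_mul_submatrix (F : ∀ s, Matrix (Fin s) (Fin s) K) (X : Matrix I I K) (j : Fin t)
    {s : ℕ} (hj : d j = s) {α : Type*} (g : α → I) :
    (Matrix.blockDiagonal' (fun k => F (d k)) * X).submatrix
        (fun b : Fin s => (⟨j, Fin.cast hj.symm b⟩ : I)) g =
      F s * X.submatrix (fun b : Fin s => (⟨j, Fin.cast hj.symm b⟩ : I)) g := by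
  subst hj
  ext b a
  simp only [Matrix.submatrix_apply, Matrix.mul_apply, Fintype.sum_sigma, Fin.cast_eq_self]
  rw [Finset.sum_eq_single j (fun k _ hk => Finset.sum_eq_zero fun x _ => by
    rw [Matrix.blockDiagonal'_apply_ne _ _ _ hk.symm, zero_mul]) (by simp)]
  simp [Matrix.blockDiagonal'_apply_eq]

/-- Restricting a block-diagonal product to columns of one block. -/
theorem mul_blockDiagonal_submatrix (F : ∀ s, Matrix (Fin s) (Fin s) K) (X : Matrix I I K) (i : Fin t)
    {s : ℕ} (hi : d i = s) {α : Type*} (g : α → I) :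
    (X * Matrix.blockDiagonal' (fun k => F (d k))).submatrix g
        (fun b : Fin s => (⟨i, Fin.cast hi.symm b⟩ : I)) =
      X.submatrix g (fun b : Fin s => (⟨i, Fin.cast hi.symm b⟩ : I)) * F s := by
  subst hi
  ext b a
  simp only [Matrix.submatrix_apply, Matrix.mul_apply, Fintype.sum_sigma, Fin.cast_eq_self]
  rw [Finset.sum_eq_single i (fun k _ hk => Finset.sum_eq_zero fun x _ => by
    rw [Matrix.blockDiagonal'_apply_ne _ _ _ hk, mul_zero]) (by simp)]
  simp [Matrix.blockDiagonal'_apply_eq]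

/-- The centraliser of a unipotent element in `GU_n(q)`. -/
theorem card_centralizer_GU_unipotent (hK : Fintype.card K = q ^ 2) {n : ℕ} (hd : ∀ i, 1 ≤ d i)
    (e : I ≃ Fin n) (u : ↥(Cfsg.GU n K q))
    (hu : IsConj (Matrix.reindex e e (Cfsg.jordanTypeMatrix d K))
      ((u : GL (Fin n) K) : Matrix (Fin n) (Fin n) K)) :
    Nat.card ↥(Subgroup.centralizer ({u} : Set ↥(Cfsg.GU n K q))) =
      q ^ (2 * (∑ i ∈ Finset.range (Finset.univ.sup d + 1),
          ∑ j ∈ Finset.range (Finset.univ.sup d + 1), if i < j then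
            i * (Finset.univ.filter fun k => d k = i).card * (Finset.univ.filter fun k => d k = j).card
          else 0) +
        ∑ i ∈ Finset.range (Finset.univ.sup d + 1), (i - 1) * (Finset.univ.filter fun k => d k = i).card ^ 2) *
      ∏ i ∈ Finset.range (Finset.univ.sup d + 1),
        Nat.card (Cfsg.GU (Finset.univ.filter fun k => d k = i).card K q) := by
  classical
  set D := Finset.univ.sup d with hD
  set σ := H3.conjQ hK with hσdef
  have hσσ : ∀ x, σ (σ x) = x := H3.conjQ_conjQ hK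
  choose P hP using exists_regular_unitary (q := q) hK
  let Pm : ∀ s, Matrix (Fin s) (Fin s) K := fun s => (P s : Matrix (Fin s) (Fin s) K)
  let Pi' : ∀ s, Matrix (Fin s) (Fin s) K := fun s => ((P s)⁻¹ : GL (Fin s) K).val
  let Q : Matrix I I K := Matrix.blockDiagonal' fun k => Pm (d k)
  let Qi : Matrix I I K := Matrix.blockDiagonal' fun k => Pi' (d k)
  let Hf : ∀ s, Matrix (Fin s) (Fin s) K := fun s => sigT σ (Pm s) * Pm s
  let Hif : ∀ s, Matrix (Fin s) (Fin s) K := fun s => Pi' s * sigT σ (Pi' s)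
  let H : Matrix I I K := Matrix.blockDiagonal' fun k => Hf (d k)
  let Hi : Matrix I I K := Matrix.blockDiagonal' fun k => Hif (d k)
  have hQQi : Q * Qi = 1 := by
    rw [← Matrix.blockDiagonal'_mul]
    simp only [Pm, Pi', Units.mul_inv]
    exact Matrix.blockDiagonal'_one
  have hQiQ : Qi * Q = 1 := mul_eq_one_comm.1 hQQi
  have hHQ : H = sigT σ Q * Q := by
    simp only [H, Q, sigT, Matrix.blockDiagonal'_map _ σ (map_zero σ), Matrix.blockDiagonal'_transpose,
      ← Matrix.blockDiagonal'_mul]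
    rfl
  have hHi : Hi = Qi * sigT σ Qi := by
    simp only [Hi, Qi, sigT, Matrix.blockDiagonal'_map _ σ (map_zero σ), Matrix.blockDiagonal'_transpose,
      ← Matrix.blockDiagonal'_mul]
    rfl
  have hTQ : sigT σ Qi * sigT σ Q = 1 := by rw [← sigT_mul, hQQi, sigT_one]
  have hTQ' : sigT σ Q * sigT σ Qi = 1 := mul_eq_one_comm.1 hTQ
  have hHiH : Hi * H = 1 := by
    rw [hHi, hHQ, mul_assoc, ← mul_assoc (sigT σ Qi), hTQ, one_mul, hQiQ]
  have hHHi : H * Hi = 1 := mul_eq_one_comm.1 hHiH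
  let τ : Matrix I I K → Matrix I I K := fun X => Hi * sigT σ X * H
  have τmul : ∀ X Y, τ (X * Y) = τ Y * τ X := fun X Y => by
    calc Hi * sigT σ (X * Y) * H = Hi * sigT σ Y * ((H * Hi) * (sigT σ X * H)) := by
          rw [hHHi, one_mul, sigT_mul]; simp only [mul_assoc]
      _ = _ := by simp only [τ, mul_assoc]
  have hHh : sigT σ H = H := by rw [hHQ, sigT_mul, sigT_sigT hσσ]
  have hHih : sigT σ Hi = Hi := by rw [hHi, sigT_mul, sigT_sigT hσσ]
  have ττ : ∀ X, τ (τ X) = X := fun X => by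
    show Hi * sigT σ (Hi * sigT σ X * H) * H = X
    rw [sigT_mul, sigT_mul, sigT_sigT hσσ, hHh, hHih]
    calc Hi * (H * (X * Hi)) * H = (Hi * H) * X * (Hi * H) := by simp only [mul_assoc]
      _ = X := by rw [hHiH, one_mul, mul_one]
  have τadd : ∀ X Y, τ (X + Y) = τ X + τ Y := fun X Y => by
    show Hi * sigT σ (X + Y) * H = _
    rw [show sigT σ (X + Y) = sigT σ X + sigT σ Y by ext i j; simp [sigT], mul_add, add_mul]
  have τscal : ∀ c : K, τ (c • 1) = σ c • 1 := fun c => by
    show Hi * sigT σ (c • 1) * H = _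
    rw [sigT_smul, sigT_one, mul_smul_comm, mul_one, smul_mul_assoc, hHiH]
  set J : Matrix I I K := Cfsg.jordanTypeMatrix d K with hJdef
  have hU : sigT σ (Q * J * Qi) * (Q * J * Qi) = 1 := by
    simp only [Q, Qi, hJdef, Cfsg.jordanTypeMatrix, sigT, ← Matrix.blockDiagonal'_mul,
      Matrix.blockDiagonal'_map _ σ (map_zero σ), Matrix.blockDiagonal'_transpose]
    rw [← Matrix.blockDiagonal'_one]
    congr 1
    funext k
    exact hP (d k)
  have hτQ : ∀ X, τ X * X = Qi * (sigT σ (Q * X * Qi) * (Q * X * Qi)) * Q := fun X => by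
    rw [sigT_mul, sigT_mul]
    calc Hi * sigT σ X * H * X = Qi * sigT σ Qi * sigT σ X * (sigT σ Q * Q) * X * (Qi * Q) := by
          rw [hHi, hHQ, hQiQ, mul_one]
      _ = _ := by simp only [mul_assoc]
  have hτJ : τ J * J = 1 := by rw [hτQ, hU, mul_one, hQiQ]
  let A : Subring (Matrix I I K) := Subring.centralizer {J}
  have hmemA : ∀ X, X ∈ A ↔ X * J = J * X := fun X => by
    simp only [A, Subring.mem_centralizer_iff, Set.mem_singleton_iff, forall_eq]
    exact eq_comm
  have hJτ : J * τ J = 1 := mul_eq_one_comm.1 hτJ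
  have hτA : ∀ X : A, τ X.1 ∈ A := by
    intro X
    rw [hmemA]
    have h1 := congrArg τ ((hmemA _).1 X.2)
    rw [τmul, τmul] at h1
    calc τ X.1 * J = (J * τ J) * τ X.1 * J := by rw [hJτ, one_mul]
      _ = J * (τ J * τ X.1) * J := by simp only [mul_assoc]
      _ = J * τ X.1 * (τ J * J) := by rw [h1]; simp only [mul_assoc]
      _ = J * τ X.1 := by rw [hτJ, mul_one]
  have hscal : ∀ c : K, c • (1 : Matrix I I K) ∈ A := fun c => by
    rw [hmemA, smul_mul_assoc, one_mul, mul_smul_comm, mul_one]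
  -- the heads
  let π : Matrix I I K → ∀ s : Fin (D + 1), Matrix {i // d i = (s : ℕ)} {i // d i = (s : ℕ)} K :=
    fun M s j i => M ⟨j.1, ⟨0, hd _⟩⟩ ⟨i.1, ⟨0, hd _⟩⟩
  have hπadd : ∀ X Y, π (X + Y) = π X + π Y := fun X Y => rfl
  have hπsub : ∀ X Y, π (X - Y) = π X - π Y := fun X Y => rfl
  have hπsmul : ∀ (c : K) X, π (c • X) = c • π X := fun c X => rfl
  have hblock : ∀ (M : A) (s : ℕ) (i j : Fin t) (hi : d i = s) (hj : d j = s) (x : K),
      (M.1.submatrix (fun b : Fin s => (⟨j, Fin.cast hj.symm b⟩ : I))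
        (fun b : Fin s => (⟨i, Fin.cast hi.symm b⟩ : I)) - x • 1).det =
        (M.1 ⟨j, ⟨0, hd _⟩⟩ ⟨i, ⟨0, hd _⟩⟩ - x) ^ s := by
    intro M s i j hi hj x
    obtain ⟨w, hw⟩ := (H66.commEquiv d hd).surjective ⟨M.1, (hmemA _).1 M.2⟩
    have hM : M.1 = H66.commMat d w := (congrArg Subtype.val hw).symm
    refine det_sub_smul_of_triangular _ _ _ (fun b a hab => ?_) fun b => ?_
    · rw [Matrix.submatrix_apply, hM]
      exact if_neg (by simpa using hab)
    · rw [Matrix.submatrix_apply, hM]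
      simp [H66.commMat]
  have hπτ : ∀ (M : A) s, π (τ M.1) s = sigT σ (π M.1 s) := by
    intro M s
    ext ⟨j, hj⟩ ⟨i, hi⟩
    set c := M.1 ⟨i, ⟨0, hd _⟩⟩ ⟨j, ⟨0, hd _⟩⟩ with hc
    show τ M.1 ⟨j, ⟨0, hd _⟩⟩ ⟨i, ⟨0, hd _⟩⟩ = σ c
    have h1 := hblock ⟨τ M.1, hτA M⟩ s i j hi hj (σ c)
    have hsplit : (τ M.1).submatrix (fun b : Fin s => (⟨j, Fin.cast hj.symm b⟩ : I))
        (fun b : Fin s => (⟨i, Fin.cast hi.symm b⟩ : I)) =
        Hif s * sigT σ (M.1.submatrix (fun b : Fin s => (⟨i, Fin.cast hi.symm b⟩ : I))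
          (fun b : Fin s => (⟨j, Fin.cast hj.symm b⟩ : I))) * Hf s := by
      show (Hi * sigT σ M.1 * H).submatrix _ _ = _
      rw [mul_blockDiagonal_submatrix d Hf _ i hi, blockDiagonal_mul_submatrix d Hif _ j hj]
      rfl
    have hone : Hif s * Hf s = 1 := by
      show Pi' s * sigT σ (Pi' s) * (sigT σ (Pm s) * Pm s) = 1
      rw [mul_assoc, ← mul_assoc (sigT σ (Pi' s)), ← sigT_mul]
      simp [Pm, Pi', sigT_one]
    set B := M.1.submatrix (fun b : Fin s => (⟨i, Fin.cast hi.symm b⟩ : I))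
      (fun b : Fin s => (⟨j, Fin.cast hj.symm b⟩ : I)) with hB
    have hB0 : (B - c • 1).det = 0 := by
      rw [hB, hblock M s j i hj hi c, hc, sub_self, zero_pow (by have := hd i; omega)]
    have h2 : (τ M.1).submatrix (fun b : Fin s => (⟨j, Fin.cast hj.symm b⟩ : I))
        (fun b : Fin s => (⟨i, Fin.cast hi.symm b⟩ : I)) - σ c • 1 =
        Hif s * sigT σ (B - c • 1) * Hf s := by
      rw [hsplit, sigT_sub, sigT_smul, sigT_one, mul_sub, sub_mul, mul_smul_comm, mul_one, smul_mul_assoc,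
        hone]
    rw [h2, Matrix.det_mul, Matrix.det_mul, sigT, Matrix.det_transpose,
      show ((B - c • 1).map σ).det = σ (B - c • 1).det from (σ.map_det _).symm, hB0, map_zero, mul_zero,
      zero_mul] at h1
    exact sub_eq_zero.1 (pow_eq_zero_iff (by have := hd i; omega) |>.1 h1.symm)
  -- lifting heads
  have hlift : ∀ X, ∃ M : A, π M.1 = X := by
    intro X
    let w : H66.CommIdx d → K := fun p =>
      if h : (p.1.2.2 : ℕ) = 0 ∧ d p.1.2.1 = d p.1.1 then
        X ⟨d p.1.1, Nat.lt_succ_of_le (Finset.le_sup (Finset.mem_univ _))⟩ ⟨p.1.2.1, h.2⟩ ⟨p.1.1, rfl⟩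
      else 0
    refine ⟨⟨H66.commMat d w, (hmemA _).2 (H66.commMat_mem d w)⟩, ?_⟩
    funext ⟨s, hs⟩
    ext ⟨j, hj⟩ ⟨i, hi⟩
    simp only at hi hj
    subst hi
    show H66.commMat d w ⟨j, ⟨0, hd _⟩⟩ ⟨i, ⟨0, hd _⟩⟩ = _
    simp only [H66.commMat, le_refl, if_true, Nat.sub_self]
    rw [H66.commCol, dif_pos ⟨hd j, by omega⟩]
    simp only [w]
    rw [dif_pos (by simp [hj])]
  choose L hL using hlift
  have hdet : ∀ M : A, M.1.det ≠ 0 ↔ ∀ s, (π M.1 s).det ≠ 0 := by
    intro M
    obtain ⟨w, hw⟩ := (H66.commEquiv d hd).surjective ⟨M.1, (hmemA _).1 M.2⟩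
    have hM : M.1 = H66.commMat d w := (congrArg Subtype.val hw).symm
    rw [hM, H66.det_commMat_ne_zero_iff d hd w]
    refine forall_congr' fun s => ?_
    rw [show π (H66.commMat d w) s = H66.headBlock d w s from by
      ext j i
      simp [π, H66.commMat, H66.headBlock]]
  have hunit : ∀ M : A, IsUnit M ↔ M.1.det ≠ 0 := by
    intro M
    constructor
    · intro h
      exact ((Matrix.isUnit_iff_isUnit_det _).1 (h.map A.subtype)).ne_zero
    · intro h
      set g := Matrix.GeneralLinearGroup.mkOfDetNeZero M.1 h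
      have hmem : ((g⁻¹ : GL I K) : Matrix I I K) ∈ A := by
        rw [hmemA]
        exact (Commute.units_inv_left (u := g) (a := J) ((hmemA _).1 M.2)).eq
      exact ⟨⟨M, ⟨_, hmem⟩, Subtype.ext g.mul_inv, Subtype.ext g.inv_mul⟩, rfl⟩
  let τA : A → A := fun M => ⟨τ M.1, hτA M⟩
  obtain ⟨c₀, hc₀⟩ := H3.exists_conj_ne hK
  have hθ : c₀ - σ c₀ ≠ 0 := sub_ne_zero.2 fun e => hc₀ e.symm
  let εA : A := ⟨c₀ • 1, hscal c₀⟩
  have hnorm := card_units_eq_adjoint τA (fun x y => Subtype.ext (τadd _ _))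
    (fun x y => Subtype.ext (τmul _ _)) (fun x => Subtype.ext (ττ _)) (ε := εA)
    (fun x => Subtype.ext ((Commute.one_right x.1).smul_right c₀).eq)
    ((hunit _).2 (by
      show (c₀ • (1 : Matrix I I K) - τ (c₀ • 1)).det ≠ 0
      rw [τscal, ← sub_smul, Matrix.det_smul, Matrix.det_one, mul_one]
      exact pow_ne_zero _ hθ))
  have hsplit : Nat.card {g : A // IsUnit g} =
      (∏ s : Fin (D + 1), Nat.card {X : Matrix {i // d i = (s : ℕ)} {i // d i = (s : ℕ)} K // X.det ≠ 0}) *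
        Nat.card {M : A // π M.1 = 0} := by
    rw [← Nat.card_pi, ← Nat.card_prod]
    refine Nat.card_congr
      { toFun := fun g => (fun s => ⟨π g.1.1 s, (hdet g.1).1 ((hunit _).1 g.2) s⟩,
          ⟨g.1 - L (π g.1.1), by rw [AddSubgroupClass.coe_sub, hπsub, hL, sub_self]⟩)
        invFun := fun p => ⟨L (fun s => (p.1 s).1) + p.2.1, (hunit _).2 ((hdet _).2 fun s => by
          rw [AddMemClass.coe_add, hπadd, hL, p.2.2, add_zero]; exact (p.1 s).2)⟩
        left_inv := fun g => Subtype.ext (by simp)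
        right_inv := fun p => ?_ }
    have h1 : π (L (fun s => (p.1 s).1) + p.2.1).1 = fun s => (p.1 s).1 := by
      rw [AddMemClass.coe_add, hπadd, hL, p.2.2, add_zero]
    refine Prod.ext (funext fun s => Subtype.ext (congrFun h1 s)) (Subtype.ext ?_)
    show L (fun s => (p.1 s).1) + p.2.1 - L (π _) = p.2.1
    rw [h1, add_sub_cancel_left]
  have hsplit' : Nat.card {g : A // IsUnit g ∧ τA g = g} =
      (∏ s : Fin (D + 1), Nat.card {X : Matrix {i // d i = (s : ℕ)} {i // d i = (s : ℕ)} K //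
          X.det ≠ 0 ∧ sigT σ X = X}) * Nat.card {M : A // π M.1 = 0 ∧ τA M = M} := by
    obtain ⟨e₁, he₁⟩ : ∃ e₁ : K, e₁ + σ e₁ = 1 := by
      refine ⟨-σ c₀ / (c₀ - σ c₀), ?_⟩
      have hθ' : σ c₀ - c₀ ≠ 0 := sub_ne_zero.2 hc₀
      rw [map_div₀, map_neg, map_sub, hσσ]
      field_simp
      ring
    let L' : (∀ s : Fin (D + 1), Matrix {i // d i = (s : ℕ)} {i // d i = (s : ℕ)} K) → A := fun X =>
      ⟨e₁ • 1, hscal e₁⟩ * L X + τA (⟨e₁ • 1, hscal e₁⟩ * L X)
    have hL'τ : ∀ X, τA (L' X) = L' X := fun X => Subtype.ext (by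
      show τ (_ + τ _) = _ + τ _
      rw [τadd, ττ, add_comm])
    have hL' : ∀ X, (∀ s, sigT σ (X s) = X s) → π (L' X).1 = X := fun X hX => by
      funext s
      have h1 : π ((⟨e₁ • 1, hscal e₁⟩ * L X : A) : Matrix I I K) = e₁ • X := by
        show π (e₁ • (1 : Matrix I I K) * (L X).1) = _
        rw [smul_mul_assoc, one_mul, hπsmul, hL]
      show π ((⟨e₁ • 1, hscal e₁⟩ * L X : A).1 + τ _) s = _
      rw [hπadd, Pi.add_apply, hπτ, h1, Pi.smul_apply, sigT_smul, hX, ← add_smul, he₁, one_smul]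
    rw [← Nat.card_pi, ← Nat.card_prod]
    refine Nat.card_congr
      { toFun := fun g => (fun s => ⟨π g.1.1 s, (hdet g.1).1 ((hunit _).1 g.2.1) s, by
            rw [← hπτ]; exact congrArg (fun M : A => π M.1 s) g.2.2⟩,
          ⟨g.1 - L' (π g.1.1), by
            rw [AddSubgroupClass.coe_sub, hπsub, hL', sub_self]
            intro s; rw [← hπτ]; exact congrArg (fun M : A => π M.1 s) g.2.2, Subtype.ext ?_⟩)
        invFun := fun p => ⟨L' (fun s => (p.1 s).1) + p.2.1, (hunit _).2 ((hdet _).2 fun s => by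
          rw [AddMemClass.coe_add, hπadd, hL' _ (fun s => (p.1 s).2.2), p.2.2.1, add_zero]
          exact (p.1 s).2.1), Subtype.ext ?_⟩
        left_inv := fun g => Subtype.ext (by simp)
        right_inv := fun p => ?_ }
    · have hsub : ∀ X Y, τ (X - Y) = τ X - τ Y := fun X Y =>
        eq_sub_iff_add_eq.2 (by rw [← τadd, sub_add_cancel])
      show τ (g.1.1 - (L' _).1) = g.1.1 - (L' _).1
      rw [hsub, show τ g.1.1 = g.1.1 from congrArg Subtype.val g.2.2,
        show τ (L' (π g.1.1)).1 = _ from congrArg Subtype.val (hL'τ _)]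
    · show τ ((L' _).1 + p.2.1.1) = (L' _).1 + p.2.1.1
      rw [τadd, show τ p.2.1.1 = p.2.1.1 from congrArg Subtype.val p.2.2.2,
        show τ (L' (fun s => (p.1 s).1)).1 = _ from congrArg Subtype.val (hL'τ _)]
    · have h1 : π (L' (fun s => (p.1 s).1) + p.2.1).1 = fun s => (p.1 s).1 := by
        rw [AddMemClass.coe_add, hπadd, hL' _ (fun s => (p.1 s).2.2), p.2.2.1, add_zero]
      refine Prod.ext (funext fun s => Subtype.ext (congrFun h1 s)) (Subtype.ext ?_)
      show L' (fun s => (p.1 s).1) + p.2.1 - L' (π _) = p.2.1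
      rw [h1, add_sub_cancel_left]
  have hker : Nat.card {M : A // π M.1 = 0} =
      Nat.card {M : A // π M.1 = 0 ∧ τA M = M} * Nat.card {M : A // π M.1 = 0 ∧ τA M = M} := by
    set θ := c₀ - σ c₀ with hθdef
    have hτsmul : ∀ (c : K) X, τ (c • X) = σ c • τ X := fun c X => by
      show Hi * sigT σ (c • X) * H = σ c • (Hi * sigT σ X * H)
      rw [sigT_smul, mul_smul_comm, smul_mul_assoc]
    have hA' : ∀ (c : K) (M : A), c • M.1 ∈ A := fun c M => by
      rw [hmemA, smul_mul_assoc, mul_smul_comm, (hmemA _).1 M.2]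
    let b : A → A := fun M => ⟨θ⁻¹ • (M - τA M : A).1, hA' _ _⟩
    let a : A → A := fun M => M - ⟨c₀ • (b M).1, hA' _ _⟩
    have hsub : ∀ X Y, τ (X - Y) = τ X - τ Y := fun X Y =>
      eq_sub_iff_add_eq.2 (by rw [← τadd, sub_add_cancel])
    have hb : ∀ M : A, τ (b M).1 = (b M).1 := fun M => by
      show τ (θ⁻¹ • (M.1 - τ M.1)) = θ⁻¹ • (M.1 - τ M.1)
      rw [hτsmul, show τ (M.1 - τ M.1) = τ M.1 - M.1 by rw [hsub, ττ]]
      rw [map_inv₀, hθdef, map_sub, hσσ, ← neg_sub c₀ (σ c₀), inv_neg, ← neg_sub M.1 (τ M.1), smul_neg,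
        neg_smul, neg_neg]
    have ha : ∀ M : A, τ (a M).1 = (a M).1 := fun M => by
      show τ (M.1 - c₀ • (b M).1) = M.1 - c₀ • (b M).1
      rw [hsub, hτsmul, hb]
      have h1 : θ • (b M).1 = M.1 - τ M.1 := by
        show θ • θ⁻¹ • (M.1 - τ M.1) = _
        rw [smul_smul, mul_inv_cancel₀ hθ, one_smul]
      rw [hθdef, sub_smul] at h1
      linear_combination (norm := abel) h1
    have hkb : ∀ M : A, π M.1 = 0 → π (b M).1 = 0 := fun M hM => by
      show π (θ⁻¹ • (M.1 - τ M.1)) = 0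
      rw [hπsmul, hπsub, hM]
      funext s
      simp [hπτ, hM, sigT]
    rw [← Nat.card_prod]
    refine Nat.card_congr
      { toFun := fun M => (⟨a M.1, by
            show π (M.1.1 - c₀ • (b M.1).1) = 0
            rw [hπsub, hπsmul, hkb _ M.2, M.2, smul_zero, sub_zero], Subtype.ext (ha _)⟩,
          ⟨b M.1, hkb _ M.2, Subtype.ext (hb _)⟩)
        invFun := fun p => ⟨p.1.1 + ⟨c₀ • p.2.1.1, hA' _ _⟩, by
            show π (p.1.1.1 + c₀ • p.2.1.1) = 0
            rw [hπadd, hπsmul, p.1.2.1, p.2.2.1, smul_zero, add_zero]⟩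
        left_inv := fun M => Subtype.ext (by simp [a])
        right_inv := fun p => ?_ }
    have h1 : b (p.1.1 + ⟨c₀ • p.2.1.1, hA' _ _⟩) = p.2.1 := Subtype.ext (by
      show θ⁻¹ • ((p.1.1.1 + c₀ • p.2.1.1) - τ (p.1.1.1 + c₀ • p.2.1.1)) = p.2.1.1
      rw [τadd, hτsmul, show τ p.1.1.1 = p.1.1.1 from congrArg Subtype.val p.1.2.2,
        show τ p.2.1.1 = p.2.1.1 from congrArg Subtype.val p.2.2.2, add_sub_add_left_eq_sub, ← sub_smul,
        smul_smul, ← hθdef, inv_mul_cancel₀ hθ, one_smul])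
    refine Prod.ext (Subtype.ext ?_) (Subtype.ext h1)
    show p.1.1 + ⟨c₀ • p.2.1.1, hA' _ _⟩ - (⟨c₀ • (b _).1, hA' _ _⟩ : A) = p.1.1
    simp only [h1, add_sub_cancel_right]
  -- the value of the kernel
  have hcs : ∀ s, Fintype.card {i // d i = s} = (Finset.univ.filter fun k => d k = s).card :=
    fun s => Fintype.card_subtype _
  have hGLpos : 0 < ∏ s : Fin (D + 1),
      Nat.card {X : Matrix {i // d i = (s : ℕ)} {i // d i = (s : ℕ)} K // X.det ≠ 0} :=
    Finset.prod_pos fun s _ => by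
      have : Nonempty {X : Matrix {i // d i = (s : ℕ)} {i // d i = (s : ℕ)} K // X.det ≠ 0} := ⟨⟨1, by simp⟩⟩
      exact Nat.card_pos
  set γ := 2 * (∑ i ∈ Finset.range (D + 1),
      ∑ j ∈ Finset.range (D + 1), if i < j then
        i * (Finset.univ.filter fun k => d k = i).card * (Finset.univ.filter fun k => d k = j).card
      else 0) +
    ∑ i ∈ Finset.range (D + 1), (i - 1) * (Finset.univ.filter fun k => d k = i).card ^ 2 with hγ
  have hk : Nat.card {M : A // π M.1 = 0 ∧ τA M = M} = q ^ γ := by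
    have h1 : Nat.card {g : A // IsUnit g} = Nat.card {g : GL I K //
        (g : Matrix I I K) * Cfsg.jordanTypeMatrix d K = Cfsg.jordanTypeMatrix d K * g} :=
      Nat.card_congr
      { toFun := fun g => ⟨Matrix.GeneralLinearGroup.mkOfDetNeZero g.1.1 ((hunit _).1 g.2),
          (hmemA _).1 g.1.2⟩
        invFun := fun g => ⟨⟨g.1.1, (hmemA _).2 g.2⟩,
          (hunit _).2 (Matrix.GeneralLinearGroup.det_ne_zero g.1)⟩
        left_inv := fun g => rfl
        right_inv := fun g => Subtype.ext (Units.ext rfl) }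
    have hprod : ∏ i ∈ Finset.range (D + 1), ∏ j : Fin ((Finset.univ.filter fun k => d k = i).card),
        (Fintype.card K ^ (Finset.univ.filter fun k => d k = i).card - Fintype.card K ^ (j : ℕ)) =
        ∏ s : Fin (D + 1),
          Nat.card {X : Matrix {i // d i = (s : ℕ)} {i // d i = (s : ℕ)} K // X.det ≠ 0} := by
      rw [Finset.prod_range]
      refine Finset.prod_congr rfl fun s _ => ?_
      rw [H66.card_det_ne_zero, hcs]
    rw [H66.card_centralizer_jordan d hd, hsplit, hker, ← hD, ← hγ, hprod, hK, ← pow_mul, mul_comm 2 γ,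
      pow_mul, mul_comm] at h1
    have h2 := Nat.eq_of_mul_eq_mul_right hGLpos h1
    rw [← pow_two] at h2
    exact Nat.pow_left_injective two_ne_zero h2
  -- transport to the given element
  have hcent : Nat.card ↥(Subgroup.centralizer ({u} : Set ↥(Cfsg.GU n K q))) =
      Nat.card {g : A // τA g * g = 1} := by
    have key : ∀ X : Matrix I I K, sigT σ (Matrix.reindex e e X) * Matrix.reindex e e X =
        Matrix.reindex e e (sigT σ X * X) := fun X => by
      simp only [Matrix.reindex_apply]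
      rw [← Matrix.submatrix_mul_equiv _ _ _ e.symm]
      rfl
    have hGU : ∀ (X : Matrix I I K) (h : (Matrix.reindex e e (Q * X * Qi)).det ≠ 0),
        Matrix.GeneralLinearGroup.mkOfDetNeZero _ h ∈ Cfsg.GU n K q ↔ τ X * X = 1 := by
      intro X h
      rw [H66.mem_GU_iff σ (fun _ => rfl) hσσ]
      show sigT σ (Matrix.reindex e e (Q * X * Qi)) * Matrix.reindex e e (Q * X * Qi) = 1 ↔ _
      rw [key, hτQ]
      constructor
      · intro h1
        rw [show sigT σ (Q * X * Qi) * (Q * X * Qi) = 1 from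
          (Matrix.reindex e e).injective (h1.trans (by simp)), mul_one, hQiQ]
      · intro h1
        rw [show sigT σ (Q * X * Qi) * (Q * X * Qi) = 1 by
          calc _ = (Q * Qi) * (sigT σ (Q * X * Qi) * (Q * X * Qi)) * (Q * Qi) := by
                rw [hQQi, one_mul, mul_one]
            _ = Q * (Qi * (sigT σ (Q * X * Qi) * (Q * X * Qi)) * Q) * Qi := by simp only [mul_assoc]
            _ = 1 := by rw [h1, mul_one, hQQi]]
        simp
    let Φ : Matrix I I K →* Matrix (Fin n) (Fin n) K :=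
      { toFun := fun X => Matrix.reindex e e (Q * X * Qi)
        map_one' := by rw [mul_one, hQQi]; simp
        map_mul' := fun X Y => by
          simp only [Matrix.reindex_apply, Matrix.submatrix_mul_equiv]
          congr 1
          calc Q * (X * Y) * Qi = Q * X * (Qi * Q) * Y * Qi := by rw [hQiQ]; simp only [mul_assoc, mul_one, one_mul]
            _ = _ := by simp only [mul_assoc] }
    have hΦinv : ∀ Y, Φ (Qi * Matrix.reindex e.symm e.symm Y * Q) = Y := fun Y => by
      show Matrix.reindex e e (Q * (Qi * Matrix.reindex e.symm e.symm Y * Q) * Qi) = Y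
      rw [show Q * (Qi * Matrix.reindex e.symm e.symm Y * Q) * Qi =
        (Q * Qi) * Matrix.reindex e.symm e.symm Y * (Q * Qi) by simp only [mul_assoc], hQQi]
      simp
    have hΦinj : Function.Injective Φ := fun X Y h => by
      have h1 := (Matrix.reindex e e).injective h
      calc X = Qi * (Q * X * Qi) * Q := by
            rw [show Qi * (Q * X * Qi) * Q = (Qi * Q) * X * (Qi * Q) by simp only [mul_assoc], hQiQ]; simp
        _ = _ := by
            rw [h1, show Qi * (Q * Y * Qi) * Q = (Qi * Q) * Y * (Qi * Q) by simp only [mul_assoc], hQiQ]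
            simp
    have hΦJ : (Φ J).det ≠ 0 := by
      have : IsUnit (Φ J) := (IsUnit.of_mul_eq_one_right _ hτJ).map Φ
      exact ((Matrix.isUnit_iff_isUnit_det _).1 this).ne_zero
    let u₀ : ↥(Cfsg.GU n K q) := ⟨_, (hGU J hΦJ).2 hτJ⟩
    have hu₀ : IsConj u₀ u := by
      refine H66.gu_isConj_of_isConj hK _ _ ?_
      rw [H66.gl_isConj_iff]
      refine (IsConj.trans ?_ hu)
      refine ⟨⟨Matrix.reindex e e Qi, Matrix.reindex e e Q, ?_, ?_⟩, ?_⟩
      · simp only [Matrix.reindex_apply]; rw [Matrix.submatrix_mul_equiv, hQiQ]; simp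
      · simp only [Matrix.reindex_apply]; rw [Matrix.submatrix_mul_equiv, hQQi]; simp
      · show Matrix.reindex e e Qi * Matrix.reindex e e (Q * J * Qi) =
          Matrix.reindex e e J * Matrix.reindex e e Qi
        simp only [Matrix.reindex_apply, Matrix.submatrix_mul_equiv]
        rw [← mul_assoc, ← mul_assoc, hQiQ, one_mul]
    rw [← card_centralizer_of_isConj' hu₀]
    have hgne : ∀ g : A, τA g * g = 1 → (Φ g.1).det ≠ 0 := fun g hg =>
      ((Matrix.isUnit_iff_isUnit_det _).1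
        ((IsUnit.of_mul_eq_one_right _ (congrArg Subtype.val hg : τ g.1 * g.1 = 1)).map Φ)).ne_zero
    have hgc : ∀ g : A, Φ g.1 * Φ J = Φ J * Φ g.1 := fun g => by
      rw [← map_mul, ← map_mul, (hmemA _).1 g.2]
    refine (Nat.card_congr (Equiv.ofBijective (fun g : {g : A // τA g * g = 1} =>
      (⟨⟨Matrix.GeneralLinearGroup.mkOfDetNeZero (Φ g.1.1) (hgne _ g.2),
          (hGU g.1.1 (hgne _ g.2)).2 (congrArg Subtype.val g.2)⟩,
        Subgroup.mem_centralizer_singleton_iff.2 (Subtype.ext (Units.ext (hgc g.1)))⟩ :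
        Subgroup.centralizer ({u₀} : Set ↥(Cfsg.GU n K q)))) ⟨?_, ?_⟩)).symm
    · intro a b h
      exact Subtype.ext (Subtype.ext (hΦinj (congrArg (fun x : Subgroup.centralizer
        ({u₀} : Set ↥(Cfsg.GU n K q)) => x.1.1.1) h)))
    · intro g
      set X := Qi * Matrix.reindex e.symm e.symm ((g.1 : GL (Fin n) K) : Matrix _ _ K) * Q
      have hX : Φ X = ((g.1 : GL (Fin n) K) : Matrix _ _ K) := hΦinv _
      have hXA : X ∈ A := by
        rw [hmemA]
        apply hΦinj
        rw [map_mul Φ X J, map_mul Φ J X, hX]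
        exact congrArg (fun x : ↥(Cfsg.GU n K q) => ((x : GL (Fin n) K) : Matrix (Fin n) (Fin n) K))
          (Subgroup.mem_centralizer_singleton_iff.1 g.2)
      have hXu : τ X * X = 1 := by
        have hne : (Φ X).det ≠ 0 := by rw [hX]; exact Matrix.GeneralLinearGroup.det_ne_zero _
        refine (hGU X hne).1 ?_
        convert (g.1 : ↥(Cfsg.GU n K q)).2
        exact Units.ext hX
      exact ⟨⟨⟨X, hXA⟩, Subtype.ext hXu⟩, Subtype.ext (Subtype.ext (Units.ext hX))⟩
  rw [hcent]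
  rw [hsplit, hker, hsplit', hk] at hnorm
  simp only [card_GL_eq_herm hK, hcs, Finset.prod_mul_distrib, ← hσdef] at hnorm
  have hHpos : 0 < ∏ s : Fin (D + 1), Nat.card {X : Matrix {i // d i = (s : ℕ)} {i // d i = (s : ℕ)} K //
      X.det ≠ 0 ∧ sigT σ X = X} := Finset.prod_pos fun s _ => by
    have : Nonempty {X : Matrix {i // d i = (s : ℕ)} {i // d i = (s : ℕ)} K //
      X.det ≠ 0 ∧ sigT σ X = X} := ⟨⟨1, by simp, sigT_one σ⟩⟩
    exact Nat.card_pos
  have hqpos : 0 < q ^ γ := by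
    rw [← hk]
    have : Nonempty {M : A // π M.1 = 0 ∧ τA M = M} := ⟨⟨0, rfl, Subtype.ext (by
      show Hi * sigT σ 0 * H = 0
      simp [sigT])⟩⟩
    exact Nat.card_pos
  rw [Finset.prod_range]
  apply Nat.eq_of_mul_eq_mul_right (Nat.mul_pos hHpos hqpos)
  have hGUc : ∀ s : Fin (D + 1), Nat.card (Cfsg.GU (Fintype.card {i // d i = (s : ℕ)}) K q) =
      Nat.card (Cfsg.GU (Finset.univ.filter fun k => d k = (s : ℕ)).card K q) := fun s => by rw [hcs]
  rw [← hnorm, Finset.prod_congr rfl fun s _ => hGUc s]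
  ring

end Model

end Cfsg.Agent.H67
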